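import Mathlib
import Cfsg.Prelude.Def_Sporadic_a
import Cfsg.Agent.Lib.Helper3.Golay
import Cfsg.Agent.Lib.Helper3.Golay2
import Cfsg.Agent.Lib.Helper3.GolayM24

set_option autoImplicit false

namespace Cfsg.Agent.Lib.Helper3.Leech

open Cfsg Cfsg.Agent.Lib.Helper3.Golay Cfsg.Agent.Lib.Helper3.Golay2
open Cfsg.Agent.Lib.Helper3.GolayM24
open scoped Pointwise

abbrev Cset : Set (Finset GolayPt) := supports (golayCode : Set (GolayPt → ZMod 2))

def lev (x : GolayPt → ℤ) (k : ℤ) : Finset GolayPt :=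
  Finset.univ.filter fun i => x i ≡ k [ZMOD 4]

theorem mem_lev {x : GolayPt → ℤ} {k : ℤ} {i : GolayPt} : i ∈ lev x k ↔ x i ≡ k [ZMOD 4] := by
  simp [lev]

theorem mem_leechSet_iff (x : GolayPt → ℤ) :
    x ∈ leechSet ↔ ∃ m : ℤ, (∀ i, x i ≡ m [ZMOD 2]) ∧ (∑ i, x i ≡ 4 * m [ZMOD 8]) ∧
      ∀ k : ℤ, lev x k ∈ Cset :=
  Iff.rfl

theorem lev_add_two {x : GolayPt → ℤ} {m : ℤ} (hx : ∀ i, x i ≡ m [ZMOD 2]) (a : ℤ)
    (ha : a ≡ m [ZMOD 2]) : lev x (a + 2) = (lev x a)ᶜ := by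
  ext i
  rw [Finset.mem_compl, mem_lev, mem_lev]
  have h := hx i
  unfold Int.ModEq at *
  omega

theorem lev_eq_empty {x : GolayPt → ℤ} {m : ℤ} (hx : ∀ i, x i ≡ m [ZMOD 2]) (b : ℤ)
    (hb : ¬ b ≡ m [ZMOD 2]) : lev x b = ∅ := by
  ext i
  rw [mem_lev]
  have h := hx i
  unfold Int.ModEq at *
  simp only [Finset.notMem_empty, iff_false]
  omega

theorem lev_add {x y : GolayPt → ℤ} {a : ℤ} (hx : ∀ i, x i ≡ a [ZMOD 2]) (k : ℤ) :
    lev (x + y) k = (lev x a ∩ lev y (k - a)) ∪ (lev x (a + 2) ∩ lev y (k - a + 2)) := by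
  ext i
  simp only [Finset.mem_union, Finset.mem_inter, mem_lev, Pi.add_apply]
  have h := hx i
  unfold Int.ModEq at *
  omega

theorem lev_neg (x : GolayPt → ℤ) (k : ℤ) : lev (-x) k = lev x (-k) := by
  ext i
  simp only [mem_lev, Pi.neg_apply]
  unfold Int.ModEq
  omega

theorem lev_zero_mem (k : ℤ) : lev 0 k ∈ Cset := by
  by_cases hk : (0 : ℤ) ≡ k [ZMOD 4]
  · have : lev 0 k = Finset.univ := by
      ext i
      simp [mem_lev, hk]
    rw [this]
    exact univ_mem_supports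
  · have : lev 0 k = ∅ := by
      ext i
      simp [mem_lev, hk]
    rw [this]
    exact empty_mem_supports

theorem inter_union_compl_mem {X Y : Finset GolayPt} (hX : X ∈ Cset) (hY : Y ∈ Cset) :
    (X ∩ Y) ∪ (Xᶜ ∩ Yᶜ) ∈ Cset := by
  have h := compl_mem_supports (symmDiff_mem_supports hX hY)
  have h2 : (symmDiff X Y)ᶜ = (X ∩ Y) ∪ (Xᶜ ∩ Yᶜ) := by
    ext i
    simp only [Finset.mem_compl, Finset.mem_symmDiff, Finset.mem_union, Finset.mem_inter]
    tauto
  rwa [h2] at h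

theorem zero_mem_leechSet : (0 : GolayPt → ℤ) ∈ leechSet := by
  rw [mem_leechSet_iff]
  refine ⟨0, fun i => Int.ModEq.refl _, ?_, lev_zero_mem⟩
  simp

theorem neg_mem_leechSet {x : GolayPt → ℤ} (hx : x ∈ leechSet) : -x ∈ leechSet := by
  rw [mem_leechSet_iff] at hx ⊢
  obtain ⟨m, h1, h2, h3⟩ := hx
  refine ⟨-m, fun i => (h1 i).neg, ?_, fun k => ?_⟩
  · simp only [Pi.neg_apply, Finset.sum_neg_distrib]
    have := h2.neg
    rwa [← mul_neg] at this
  · rw [lev_neg]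
    exact h3 _

theorem add_mem_leechSet {x y : GolayPt → ℤ} (hx : x ∈ leechSet) (hy : y ∈ leechSet) :
    x + y ∈ leechSet := by
  rw [mem_leechSet_iff] at hx hy ⊢
  obtain ⟨m, h1, h2, h3⟩ := hx
  obtain ⟨m', h1', h2', h3'⟩ := hy
  refine ⟨m + m', fun i => (h1 i).add (h1' i), ?_, fun k => ?_⟩
  · simp only [Pi.add_apply, Finset.sum_add_distrib]
    have := h2.add h2'
    rwa [← mul_add] at this
  · rw [lev_add h1 k, lev_add_two h1 m (Int.ModEq.refl _)]
    by_cases hb : k - m ≡ m' [ZMOD 2]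
    · rw [lev_add_two h1' (k - m) hb]
      exact inter_union_compl_mem (h3 m) (h3' (k - m))
    · rw [lev_eq_empty h1' (k - m) hb, lev_eq_empty h1' (k - m + 2) (by
        unfold Int.ModEq at *
        omega)]
      simp only [Finset.inter_empty, Finset.union_empty]
      exact empty_mem_supports

def leechSub : AddSubgroup (GolayPt → ℤ) where
  carrier := leechSet
  zero_mem' := zero_mem_leechSet
  add_mem' := add_mem_leechSet
  neg_mem' := neg_mem_leechSet

theorem leechLattice_eq : leechLattice = leechSub := by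
  unfold leechLattice
  exact AddSubgroup.closure_eq leechSub

theorem mem_leechLattice_iff (x : GolayPt → ℤ) : x ∈ leechLattice ↔ x ∈ leechSet := by
  rw [leechLattice_eq]
  rfl

theorem lev_comp_perm (x : GolayPt → ℤ) (σ : Equiv.Perm GolayPt) (k : ℤ) :
    lev (fun i => x (σ i)) k = σ⁻¹ • lev x k := by
  ext i
  rw [Finset.mem_inv_smul_finset_iff, mem_lev, mem_lev]
  rfl

theorem perm_mem_leechSet {σ : Equiv.Perm GolayPt} (hσ : σ ∈ M24) {x : GolayPt → ℤ}
    (hx : x ∈ leechSet) : (fun i => x (σ i)) ∈ leechSet := by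
  rw [mem_leechSet_iff] at hx ⊢
  obtain ⟨m, h1, h2, h3⟩ := hx
  refine ⟨m, fun i => h1 (σ i), ?_, fun k => ?_⟩
  · rw [Equiv.sum_comp σ x]
    exact h2
  · rw [lev_comp_perm]
    exact smul_mem_supports (M24.inv_mem hσ) (h3 k)

end Cfsg.Agent.Lib.Helper3.Leech
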