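import Mathlib
import Cfsg.Prelude.Def_Sporadic_a
import Cfsg.Agent.Lib.Helper3.Golay
import Cfsg.Agent.Lib.Helper3.Golay2
import Cfsg.Agent.Lib.Helper3.Leech

set_option autoImplicit false

namespace Cfsg.Agent.Lib.Helper3.Leech2

open Cfsg Cfsg.Agent.Lib.Helper3.Golay Cfsg.Agent.Lib.Helper3.Golay2
open Cfsg.Agent.Lib.Helper3.Leech

theorem four_dvd_card {c : Finset GolayPt} (hc : c ∈ Cset) : 4 ∣ c.card := by
  rcases card_cases hc with h | h | h | h | h <;> rw [h] <;> decide

theorem sum_indicator (c E : Finset GolayPt) :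
    ∑ i ∈ c, (if i ∈ E then (1 : ℤ) else 0) = ((c ∩ E).card : ℤ) := by
  rw [Finset.sum_boole, Finset.filter_mem_eq_inter]

theorem sum_on_cset {x : GolayPt → ℤ} {m : ℤ} (h1 : ∀ i, x i ≡ m [ZMOD 2])
    (h3 : ∀ k : ℤ, lev x k ∈ Cset) {c : Finset GolayPt} (hc : c ∈ Cset) :
    ∑ i ∈ c, x i ≡ 0 [ZMOD 4] := by
  have hpt : ∀ i ∈ c, x i ≡ m + 2 * (if i ∈ lev x (m + 2) then (1 : ℤ) else 0) [ZMOD 4] := by
    intro i _
    have h := h1 i
    by_cases hi : i ∈ lev x (m + 2)
    · rw [if_pos hi]
      rw [mem_lev] at hi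
      simpa using hi
    · rw [if_neg hi]
      rw [mem_lev] at hi
      unfold Int.ModEq at *
      omega
  have hsum := Int.ModEq.sum hpt
  rw [Finset.sum_add_distrib, Finset.sum_const, ← Finset.mul_sum, sum_indicator, nsmul_eq_mul] at hsum
  obtain ⟨a, ha⟩ := four_dvd_card hc
  have he := even_card_inter hc (h3 (m + 2))
  obtain ⟨b, hb⟩ := he
  rw [ha, hb] at hsum
  push_cast at hsum
  refine hsum.trans ?_
  rw [Int.modEq_zero_iff_dvd]
  exact ⟨a * m + b, by ring⟩

theorem sign_mem_leechSet {c : Finset GolayPt} (hc : c ∈ Cset) {x : GolayPt → ℤ}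
    (hx : x ∈ leechSet) : (fun i => if i ∈ c then -x i else x i) ∈ leechSet := by
  rw [mem_leechSet_iff] at hx ⊢
  obtain ⟨m, h1, h2, h3⟩ := hx
  refine ⟨m, fun i => ?_, ?_, fun k => ?_⟩
  · have h := h1 i
    by_cases hi : i ∈ c
    · simp only [if_pos hi]
      unfold Int.ModEq at *
      omega
    · simp only [if_neg hi]
      exact h
  · have hS := sum_on_cset h1 h3 hc
    have hsum : ∑ i, (if i ∈ c then -x i else x i) = ∑ i, x i - 2 * ∑ i ∈ c, x i := by
      have h4 : ∀ i, (if i ∈ c then -x i else x i) = x i - 2 * (if i ∈ c then x i else 0) := by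
        intro i
        by_cases hi : i ∈ c
        · simp only [if_pos hi]
          ring
        · simp only [if_neg hi]
          ring
      simp only [h4, Finset.sum_sub_distrib, ← Finset.mul_sum]
      rw [Finset.sum_ite_mem, Finset.univ_inter]
    rw [hsum]
    unfold Int.ModEq at *
    omega
  · have hlev : ∀ j : ℤ, lev x j ∈ Cset := h3
    rcases Int.emod_two_eq_zero_or_one k with hk | hk
    · have : lev (fun i => if i ∈ c then -x i else x i) k = lev x k := by
        ext i
        simp only [mem_lev]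
        by_cases hi : i ∈ c
        · simp only [if_pos hi]
          unfold Int.ModEq
          omega
        · simp only [if_neg hi]
      rw [this]
      exact h3 k
    · have hform : lev (fun i => if i ∈ c then -x i else x i) k =
          (c ∩ lev x (k + 2)) ∪ (cᶜ ∩ lev x k) := by
        ext i
        simp only [mem_lev, Finset.mem_union, Finset.mem_inter, Finset.mem_compl]
        by_cases hi : i ∈ c
        · rw [if_pos hi]
          simp only [hi, true_and, not_true_eq_false, false_and, or_false]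
          unfold Int.ModEq
          omega
        · rw [if_neg hi]
          simp only [hi, false_and, not_false_eq_true, true_and, false_or]
      rw [hform]
      by_cases hkm : k ≡ m [ZMOD 2]
      · rw [lev_add_two h1 k hkm]
        have h5 := symmDiff_mem_supports hc (h3 k)
        have h6 : symmDiff c (lev x k) = (c ∩ (lev x k)ᶜ) ∪ (cᶜ ∩ lev x k) := by
          ext i
          simp only [Finset.mem_symmDiff, Finset.mem_union, Finset.mem_inter, Finset.mem_compl]
          tauto
        rwa [h6] at h5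
      · rw [lev_eq_empty h1 k hkm, lev_eq_empty h1 (k + 2) (by
          unfold Int.ModEq at *
          omega)]
        simp only [Finset.inter_empty, Finset.union_empty]
        exact empty_mem_supports

theorem sq_mod16 (z : ℤ) : z ^ 2 ≡ (z % 2) * (2 * z - 1) + 4 * (z % 4 / 2) [ZMOD 16] := by
  have h1 : z ≡ z % 16 [ZMOD 16] := (Int.mod_modEq z 16).symm
  have h2 : z % 2 = z % 16 % 2 := (Int.emod_emod_of_dvd z (by norm_num)).symm
  have h4 : z % 4 = z % 16 % 4 := (Int.emod_emod_of_dvd z (by norm_num)).symm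
  rw [h2, h4]
  have hb : 0 ≤ z % 16 ∧ z % 16 < 16 :=
    ⟨Int.emod_nonneg _ (by norm_num), Int.emod_lt_of_pos _ (by norm_num)⟩
  generalize z % 16 = r at h1 hb
  have h5 : z ^ 2 ≡ r ^ 2 [ZMOD 16] := h1.pow 2
  have h6 : r % 2 * (2 * z - 1) + 4 * (r % 4 / 2) ≡
      r % 2 * (2 * r - 1) + 4 * (r % 4 / 2) [ZMOD 16] :=
    (((h1.mul_left 2).sub_right 1).mul_left _).add_right _
  refine h5.trans (Int.ModEq.trans ?_ h6.symm)
  obtain ⟨h0, h16⟩ := hb
  interval_cases r <;> decide

theorem sq_mod32 (z : ℤ) (hz : z % 4 = 0) : z ^ 2 ≡ 4 * z [ZMOD 32] := by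
  have h1 : z ≡ z % 32 [ZMOD 32] := (Int.mod_modEq z 32).symm
  have h4 : z % 4 = z % 32 % 4 := (Int.emod_emod_of_dvd z (by norm_num)).symm
  rw [h4] at hz
  have hb : 0 ≤ z % 32 ∧ z % 32 < 32 :=
    ⟨Int.emod_nonneg _ (by norm_num), Int.emod_lt_of_pos _ (by norm_num)⟩
  generalize z % 32 = r at h1 hb hz
  have h5 : z ^ 2 ≡ r ^ 2 [ZMOD 32] := h1.pow 2
  have h6 : 4 * z ≡ 4 * r [ZMOD 32] := h1.mul_left 4
  refine h5.trans (Int.ModEq.trans ?_ h6.symm)
  obtain ⟨h0, h32⟩ := hb
  interval_cases r <;> first | omega | decide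

theorem sixteen_dvd_sqNorm {x : GolayPt → ℤ} (hx : x ∈ leechSet) : (16 : ℤ) ∣ sqNorm x := by
  rw [mem_leechSet_iff] at hx
  obtain ⟨m, h1, h2, h3⟩ := hx
  have hpt : ∀ i ∈ (Finset.univ : Finset GolayPt), x i ^ 2 ≡
      (m % 2) * (2 * x i - 1) + 4 * (if i ∈ lev x (m % 2 + 2) then (1 : ℤ) else 0) [ZMOD 16] := by
    intro i _
    have h := h1 i
    have hsq := sq_mod16 (x i)
    have e1 : x i % 2 = m % 2 := h
    have e2 : x i % 4 / 2 = (if i ∈ lev x (m % 2 + 2) then (1 : ℤ) else 0) := by
      by_cases hi : i ∈ lev x (m % 2 + 2)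
      · rw [if_pos hi]
        rw [mem_lev] at hi
        unfold Int.ModEq at hi
        omega
      · rw [if_neg hi]
        rw [mem_lev] at hi
        unfold Int.ModEq at hi
        omega
    rw [e1, e2] at hsq
    exact hsq
  have hsum := Int.ModEq.sum hpt
  rw [Finset.sum_add_distrib, ← Finset.mul_sum, ← Finset.mul_sum, sum_indicator,
    Finset.univ_inter, Finset.sum_sub_distrib, ← Finset.mul_sum, Finset.sum_const,
    Finset.card_univ, card_golayPt] at hsum
  obtain ⟨a, ha⟩ := four_dvd_card (h3 (m % 2 + 2))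
  rw [ha] at hsum
  simp only [nsmul_eq_mul, mul_one] at hsum
  push_cast at hsum
  rw [← Int.modEq_zero_iff_dvd]
  unfold sqNorm
  refine hsum.trans ?_
  rcases Int.emod_two_eq_zero_or_one m with hm | hm
  · rw [hm]
    unfold Int.ModEq at *
    omega
  · rw [hm]
    have hm4 : (4 * m) % 8 = 4 := by omega
    unfold Int.ModEq at *
    omega

theorem sqNorm_pos {x : GolayPt → ℤ} (h0 : x ≠ 0) : 0 < sqNorm x := by
  unfold sqNorm
  have hex : ∃ i, x i ≠ 0 := by
    by_contra hcon
    push Not at hcon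
    exact h0 (funext hcon)
  obtain ⟨i, hi⟩ := hex
  exact Finset.sum_pos' (fun j _ => sq_nonneg (x j)) ⟨i, Finset.mem_univ i, by positivity⟩

theorem thirtytwo_le_sqNorm {x : GolayPt → ℤ} (hx : x ∈ leechSet) (h0 : x ≠ 0) :
    32 ≤ sqNorm x := by
  have h16 := sixteen_dvd_sqNorm hx
  have hpos := sqNorm_pos h0
  rw [mem_leechSet_iff] at hx
  obtain ⟨m, h1, h2, h3⟩ := hx
  rcases Int.emod_two_eq_zero_or_one m with hm | hm
  · by_cases hne : (lev x 2).Nonempty
    · have hcard : 8 ≤ (lev x 2).card := by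
        have hc0 : (lev x 2).card ≠ 0 := Finset.card_ne_zero.mpr hne
        rcases card_cases (h3 2) with h | h | h | h | h <;> omega
      have hle : ∑ i ∈ lev x 2, (4 : ℤ) ≤ ∑ i ∈ lev x 2, x i ^ 2 := by
        apply Finset.sum_le_sum
        intro i hi
        rw [mem_lev] at hi
        unfold Int.ModEq at hi
        have h2' : 2 ≤ x i ∨ x i ≤ -2 := by omega
        rcases h2' with h2' | h2'
        · nlinarith
        · nlinarith
      have hle2 : ∑ i ∈ lev x 2, x i ^ 2 ≤ sqNorm x := by
        unfold sqNorm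
        exact Finset.sum_le_sum_of_subset_of_nonneg (Finset.subset_univ _)
          (fun i _ _ => sq_nonneg (x i))
      rw [Finset.sum_const, nsmul_eq_mul] at hle
      have : (8 : ℤ) ≤ ((lev x 2).card : ℤ) := by exact_mod_cast hcard
      linarith
    · rw [Finset.not_nonempty_iff_eq_empty] at hne
      have hpt : ∀ i ∈ (Finset.univ : Finset GolayPt), x i ^ 2 ≡ 4 * x i [ZMOD 32] := by
        intro i _
        apply sq_mod32
        have h := h1 i
        have hi : i ∉ lev x 2 := by rw [hne]; simp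
        rw [mem_lev] at hi
        unfold Int.ModEq at *
        omega
      have hsum := Int.ModEq.sum hpt
      rw [← Finset.mul_sum] at hsum
      have h32 : sqNorm x % 32 = 0 := by
        unfold sqNorm
        unfold Int.ModEq at *
        omega
      omega
  · have hle : ∑ i : GolayPt, (1 : ℤ) ≤ sqNorm x := by
      unfold sqNorm
      apply Finset.sum_le_sum
      intro i _
      have h := h1 i
      unfold Int.ModEq at h
      have h2' : x i ≠ 0 := by omega
      have := sq_nonneg (x i)
      by_contra hcon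
      push Not at hcon
      have h3' : x i ^ 2 = 0 := by omega
      exact h2' (pow_eq_zero_iff (by norm_num) |>.mp h3')
    rw [Finset.sum_const, Finset.card_univ, card_golayPt] at hle
    obtain ⟨a, ha⟩ := h16
    simp only [nsmul_eq_mul, Nat.cast_ofNat, mul_one] at hle
    omega

end Cfsg.Agent.Lib.Helper3.Leech2
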