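import Mathlib
import Cfsg.Prelude.Def_Sporadic_a
import Cfsg.Agent.Lib.Helper3.Golay
import Cfsg.Agent.Lib.Helper3.Golay2
import Cfsg.Agent.Lib.Helper3.Leech
import Cfsg.Agent.Lib.Helper3.Leech2

set_option autoImplicit false

namespace Cfsg.Agent.Lib.Helper3.Leech3

open Cfsg Cfsg.Agent.Lib.Helper3.Golay Cfsg.Agent.Lib.Helper3.Golay2
open Cfsg.Agent.Lib.Helper3.Leech Cfsg.Agent.Lib.Helper3.Leech2

/-- reduction modulo 2. -/
def red : (GolayPt → ℤ) →+ (GolayPt → ZMod 2) := (Int.castAddHom (ZMod 2)).compLeft GolayPt

theorem red_apply (x : GolayPt → ℤ) (i : GolayPt) : red x i = ((x i : ℤ) : ZMod 2) := rfl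

theorem red_surj : Function.Surjective red := by
  intro w
  refine ⟨fun i => ((w i).val : ℤ), funext fun i => ?_⟩
  rw [red_apply]
  simp

theorem red_eq_zero_iff (x : GolayPt → ℤ) (i : GolayPt) : red x i = 0 ↔ x i % 2 = 0 := by
  rw [red_apply, ZMod.intCast_zmod_eq_zero_iff_dvd]
  push_cast
  omega

theorem mem_support_red (y : GolayPt → ℤ) (i : GolayPt) : i ∈ support₂ (red y) ↔ y i % 2 = 1 := by
  simp only [support₂, Finset.mem_filter, Finset.mem_univ, true_and]
  rw [Ne, red_eq_zero_iff]
  omega

theorem sum_eq_card (w : GolayPt → ZMod 2) : ∑ i, w i = ((support₂ w).card : ZMod 2) := by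
  unfold support₂
  rw [Finset.card_filter]
  push_cast
  apply Finset.sum_congr rfl
  intro i _
  rcases zmod2_cases (w i) with h | h <;> simp [h]

theorem index_code : (golayCode.toAddSubgroup).index = 2 ^ 12 := by
  have h := AddSubgroup.card_mul_index (golayCode.toAddSubgroup)
  have h1 : Nat.card ↥(golayCode.toAddSubgroup) = 4096 :=
    Cfsg.Agent.Lib.Helper3.Golay.natCard_golayCode
  have h2 : Nat.card (GolayPt → ZMod 2) = 2 ^ 24 := by
    rw [Nat.card_eq_fintype_card, Fintype.card_fun, ZMod.card, card_golayPt]
  rw [h1, h2] at h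
  norm_num at h ⊢
  omega

/-- integer vectors reducing to a word of the code. -/
def D1 : AddSubgroup (GolayPt → ℤ) := (golayCode.toAddSubgroup).comap red

theorem mem_D1 {y : GolayPt → ℤ} : y ∈ D1 ↔ red y ∈ golayCode := Iff.rfl

theorem index_D1 : D1.index = 2 ^ 12 := by
  rw [D1, AddSubgroup.index_comap_of_surjective _ red_surj, index_code]

/-- the coordinate sum modulo 4. -/
def sum4 : (GolayPt → ℤ) →+ ZMod 4 where
  toFun x := ((∑ i, x i : ℤ) : ZMod 4)
  map_zero' := by simp
  map_add' x y := by simp [Finset.sum_add_distrib]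

theorem sum4_apply (x : GolayPt → ℤ) : sum4 x = ((∑ i, x i : ℤ) : ZMod 4) := rfl

/-- integer vectors reducing to a word of the code, with coordinate sum divisible by 4. -/
def D : AddSubgroup (GolayPt → ℤ) := D1 ⊓ sum4.ker

theorem mem_D {y : GolayPt → ℤ} : y ∈ D ↔ red y ∈ golayCode ∧ (∑ i, y i) % 4 = 0 := by
  rw [D, AddSubgroup.mem_inf, AddMonoidHom.mem_ker, sum4_apply, mem_D1,
    ZMod.intCast_zmod_eq_zero_iff_dvd]
  push_cast
  constructor
  · rintro ⟨h1, h2⟩
    exact ⟨h1, by omega⟩
  · rintro ⟨h1, h2⟩
    exact ⟨h1, by omega⟩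

theorem sum_even_of_mem_D1 {y : GolayPt → ℤ} (hy : y ∈ D1) : (∑ i, y i) % 2 = 0 := by
  have h1 : ((∑ i, y i : ℤ) : ZMod 2) = ∑ i, red y i := by
    rw [Int.cast_sum]
    rfl
  rw [sum_eq_card] at h1
  have h2 : support₂ (red y) ∈ Cset := ⟨red y, hy, rfl⟩
  have h3 : ((support₂ (red y)).card : ZMod 2) = 0 := by
    rcases card_cases h2 with h | h | h | h | h <;> rw [h] <;> decide
  rw [h3, ZMod.intCast_zmod_eq_zero_iff_dvd] at h1
  push_cast at h1
  omega

theorem relIndex_D : D.relIndex D1 = 2 := by
  have h1 : D.addSubgroupOf D1 = (sum4.comp D1.subtype).ker := by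
    ext y
    rw [AddSubgroup.mem_addSubgroupOf, AddMonoidHom.mem_ker]
    show (y : GolayPt → ℤ) ∈ D1 ⊓ sum4.ker ↔ sum4 y = 0
    rw [AddSubgroup.mem_inf, AddMonoidHom.mem_ker]
    exact ⟨fun h => h.2, fun h => ⟨y.2, h⟩⟩
  rw [AddSubgroup.relIndex, h1, AddSubgroup.index_ker]
  have h2 : ((sum4.comp D1.subtype).range : Set (ZMod 4)) = {0, 2} := by
    ext a
    constructor
    · rintro ⟨y, rfl⟩
      have h3 := sum_even_of_mem_D1 y.2
      show sum4 (y : GolayPt → ℤ) ∈ ({0, 2} : Set (ZMod 4))
      rw [sum4_apply, ← ZMod.intCast_mod]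
      have h4 : (∑ i, (y : GolayPt → ℤ) i) % ((4 : ℕ) : ℤ) = 0 ∨
          (∑ i, (y : GolayPt → ℤ) i) % ((4 : ℕ) : ℤ) = 2 := by
        push_cast
        omega
      rcases h4 with h4 | h4
      · rw [h4]
        left
        rfl
      · rw [h4]
        right
        rfl
    · rintro (rfl | rfl)
      · exact ⟨0, map_zero _⟩
      · refine ⟨⟨Pi.single (none : GolayPt) 2, ?_⟩, ?_⟩
        · rw [mem_D1]
          have h5 : red (Pi.single (none : GolayPt) 2) = 0 := by
            funext i
            rw [red_apply]
            by_cases hi : i = none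
            · rw [hi, Pi.single_eq_same]
              rfl
            · rw [Pi.single_eq_of_ne hi]
              rfl
          rw [h5]
          exact Submodule.zero_mem _
        · show sum4 (Pi.single (none : GolayPt) 2) = 2
          rw [sum4_apply, Finset.sum_pi_single']
          simp
  have h6 : Nat.card ↥(sum4.comp D1.subtype).range =
      ((sum4.comp D1.subtype).range : Set (ZMod 4)).ncard := (Nat.card_coe_set_eq _)
  rw [h6, h2, Set.ncard_pair (by decide)]

theorem index_D : D.index = 2 ^ 13 := by
  have h := AddSubgroup.relIndex_mul_index (H := D) (K := D1) inf_le_left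
  rw [relIndex_D, index_D1] at h
  rw [← h]
  norm_num

/-- doubling. -/
def dbl : (GolayPt → ℤ) →+ (GolayPt → ℤ) where
  toFun x := fun i => 2 * x i
  map_zero' := by
    funext i
    simp
  map_add' x y := by
    funext i
    simp [mul_add]

theorem dbl_apply (x : GolayPt → ℤ) (i : GolayPt) : dbl x i = 2 * x i := rfl

theorem dbl_inj : Function.Injective dbl := by
  intro x y h
  funext i
  have h1 := congrFun h i
  rw [dbl_apply, dbl_apply] at h1
  omega

theorem range_dbl : dbl.range = red.ker := by
  ext x
  rw [AddMonoidHom.mem_range, AddMonoidHom.mem_ker]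
  constructor
  · rintro ⟨y, rfl⟩
    funext i
    rw [Pi.zero_apply, red_eq_zero_iff, dbl_apply]
    omega
  · intro h
    refine ⟨fun i => x i / 2, funext fun i => ?_⟩
    have h1 := congrFun h i
    rw [Pi.zero_apply, red_eq_zero_iff] at h1
    rw [dbl_apply]
    omega

theorem index_range_dbl : dbl.range.index = 2 ^ 24 := by
  rw [range_dbl, AddSubgroup.index_ker, AddMonoidHom.range_eq_top.mpr red_surj,
    AddSubgroup.card_top, Nat.card_eq_fintype_card, Fintype.card_fun, ZMod.card, card_golayPt]

theorem index_map_dbl : (D.map dbl).index = 2 ^ 37 := by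
  rw [AddSubgroup.index_map, (AddMonoidHom.ker_eq_bot_iff dbl).mpr dbl_inj, sup_bot_eq, index_D,
    index_range_dbl]
  norm_num

/-- an odd vector of the lattice. -/
def u0 : GolayPt → ℤ := fun i => if i = none then -3 else 1

theorem u0_mod4 (i : GolayPt) : u0 i % 4 = 1 := by
  unfold u0
  by_cases h : i = none
  · rw [if_pos h]
    rfl
  · rw [if_neg h]
    rfl

theorem u0_mem : u0 ∈ leechLattice := by
  rw [mem_leechLattice_iff, mem_leechSet_iff]
  refine ⟨1, fun i => ?_, ?_, fun k => ?_⟩
  · have := u0_mod4 i
    unfold Int.ModEq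
    omega
  · have h : ∑ i, u0 i = 20 := by
      unfold u0
      rw [Fintype.sum_option]
      simp
    rw [h]
    decide
  · by_cases hk : k % 4 = 1
    · have h : lev u0 k = Finset.univ := by
        ext i
        rw [mem_lev]
        have := u0_mod4 i
        unfold Int.ModEq
        simp only [Finset.mem_univ, iff_true]
        omega
      rw [h]
      exact univ_mem_supports
    · have h : lev u0 k = ∅ := by
        ext i
        rw [mem_lev]
        have := u0_mod4 i
        unfold Int.ModEq
        simp only [Finset.notMem_empty, iff_false]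
        omega
      rw [h]
      exact empty_mem_supports

/-- the parity of a lattice vector. -/
def par : ↥leechLattice →+ ZMod 2 :=
  (Pi.evalAddMonoidHom (fun _ : GolayPt => ZMod 2) none).comp (red.comp leechLattice.subtype)

theorem par_apply (z : ↥leechLattice) : par z = red (z : GolayPt → ℤ) none := rfl

theorem par_surj : Function.Surjective par := by
  intro a
  rcases zmod2_cases a with rfl | rfl
  · exact ⟨0, map_zero _⟩
  · refine ⟨⟨u0, u0_mem⟩, ?_⟩
    rw [par_apply, red_apply]
    rfl

theorem index_ker_par : par.ker.index = 2 := by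
  rw [AddSubgroup.index_ker, AddMonoidHom.range_eq_top.mpr par_surj, AddSubgroup.card_top,
    Nat.card_eq_fintype_card, ZMod.card]

theorem map_ker_par : par.ker.map leechLattice.subtype = D.map dbl := by
  ext x
  rw [AddSubgroup.mem_map, AddSubgroup.mem_map]
  constructor
  · rintro ⟨z, hz, rfl⟩
    rw [AddMonoidHom.mem_ker, par_apply, red_eq_zero_iff] at hz
    have hx := z.2
    rw [mem_leechLattice_iff, mem_leechSet_iff] at hx
    obtain ⟨m, h1, h2, h3⟩ := hx
    have hm : m % 2 = 0 := by
      have := h1 none
      unfold Int.ModEq at this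
      have hz' : ((z : GolayPt → ℤ) none) % 2 = 0 := hz
      omega
    have hev : ∀ i, ((z : GolayPt → ℤ) i) % 2 = 0 := by
      intro i
      have := h1 i
      unfold Int.ModEq at this
      omega
    refine ⟨fun i => (z : GolayPt → ℤ) i / 2, ?_, ?_⟩
    · rw [mem_D]
      constructor
      · obtain ⟨w, hw, hs⟩ := h3 2
        have h4 : support₂ (red (fun i => (z : GolayPt → ℤ) i / 2)) = lev (z : GolayPt → ℤ) 2 := by
          ext i
          rw [mem_support_red, mem_lev]
          have := hev i
          unfold Int.ModEq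
          omega
        rw [← support_injective (hs.trans h4.symm)]
        exact hw
      · have h5 : ∑ i, (z : GolayPt → ℤ) i = 2 * ∑ i, (z : GolayPt → ℤ) i / 2 := by
          rw [Finset.mul_sum]
          apply Finset.sum_congr rfl
          intro i _
          have := hev i
          omega
        unfold Int.ModEq at h2
        omega
    · funext i
      rw [dbl_apply]
      have := hev i
      show 2 * ((z : GolayPt → ℤ) i / 2) = (z : GolayPt → ℤ) i
      omega
  · rintro ⟨y, hy, rfl⟩
    rw [mem_D] at hy
    have hmem : dbl y ∈ leechLattice := by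
      rw [mem_leechLattice_iff, mem_leechSet_iff]
      refine ⟨0, fun i => ?_, ?_, fun k => ?_⟩
      · rw [dbl_apply]
        unfold Int.ModEq
        omega
      · have h5 : ∑ i, dbl y i = 2 * ∑ i, y i := by
          rw [Finset.mul_sum]
          rfl
        rw [h5]
        unfold Int.ModEq
        omega
      · have hs : support₂ (red y) ∈ Cset := ⟨red y, hy.1, rfl⟩
        have hk : k % 4 = 0 ∨ k % 4 = 1 ∨ k % 4 = 2 ∨ k % 4 = 3 := by omega
        rcases hk with hk | hk | hk | hk
        · have h : lev (dbl y) k = (support₂ (red y))ᶜ := by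
            ext i
            rw [mem_lev, Finset.mem_compl, mem_support_red, dbl_apply]
            unfold Int.ModEq
            omega
          rw [h]
          exact compl_mem_supports hs
        · have h : lev (dbl y) k = ∅ := by
            ext i
            rw [mem_lev, dbl_apply]
            unfold Int.ModEq
            simp only [Finset.notMem_empty, iff_false]
            omega
          rw [h]
          exact empty_mem_supports
        · have h : lev (dbl y) k = support₂ (red y) := by
            ext i
            rw [mem_lev, mem_support_red, dbl_apply]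
            unfold Int.ModEq
            omega
          rw [h]
          exact hs
        · have h : lev (dbl y) k = ∅ := by
            ext i
            rw [mem_lev, dbl_apply]
            unfold Int.ModEq
            simp only [Finset.notMem_empty, iff_false]
            omega
          rw [h]
          exact empty_mem_supports
    refine ⟨⟨dbl y, hmem⟩, ?_, rfl⟩
    rw [AddMonoidHom.mem_ker, par_apply, red_eq_zero_iff]
    show dbl y none % 2 = 0
    rw [dbl_apply]
    omega

theorem index_leech : leechLattice.index = 2 ^ 36 := by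
  have h1 := AddSubgroup.index_map_subtype par.ker
  rw [map_ker_par, index_map_dbl, index_ker_par] at h1
  norm_num at h1 ⊢
  omega

end Cfsg.Agent.Lib.Helper3.Leech3
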