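import Mathlib
import Cfsg.Prelude.Def_Sporadic_a
import Cfsg.Agent.Lib.Helper3.Golay
import Cfsg.Agent.Lib.Helper3.Golay2
import Cfsg.Agent.Lib.Helper3.Golay3
import Cfsg.Agent.Lib.Helper3.Steiner
import Cfsg.Agent.Lib.Helper3.Leech
import Cfsg.Agent.Lib.Helper3.Leech2

set_option autoImplicit false

namespace Cfsg.Agent.Lib.Helper3.Leech4

open Cfsg Cfsg.Agent.Lib.Helper3.Golay Cfsg.Agent.Lib.Helper3.Golay2
open Cfsg.Agent.Lib.Helper3.Leech Cfsg.Agent.Lib.Helper3.Leech2
open Cfsg.Agent.Lib.Helper3.Steiner (blocks mem_blocks card_blocks)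
open Cfsg.Agent.Lib.Helper3.Golay3 (card_blocks_octads)

/-! ### signed vectors supported on a set -/

/-- the vector with entries `-c` on `s`, `c` on `o \ s` and `0` elsewhere. -/
def vec (c : ℤ) (o s : Finset GolayPt) : GolayPt → ℤ :=
  fun j => if j ∈ s then -c else if j ∈ o then c else 0

theorem vec_sq (c : ℤ) {o s : Finset GolayPt} (hs : s ⊆ o) (j : GolayPt) :
    vec c o s j ^ 2 = if j ∈ o then c ^ 2 else 0 := by
  unfold vec
  by_cases h1 : j ∈ s
  · rw [if_pos h1, if_pos (hs h1)]
    ring
  · rw [if_neg h1]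
    by_cases h2 : j ∈ o
    · rw [if_pos h2, if_pos h2]
    · rw [if_neg h2, if_neg h2]
      ring

theorem sqNorm_vec (c : ℤ) {o s : Finset GolayPt} (hs : s ⊆ o) :
    sqNorm (vec c o s) = c ^ 2 * o.card := by
  unfold sqNorm
  rw [Finset.sum_congr rfl (fun j _ => vec_sq c hs j), Finset.sum_ite_mem, Finset.univ_inter,
    Finset.sum_const, nsmul_eq_mul, mul_comm]

theorem sum_vec (c : ℤ) {o s : Finset GolayPt} (hs : s ⊆ o) :
    ∑ j, vec c o s j = c * (o.card - 2 * s.card) := by
  have h : ∀ j, vec c o s j = (if j ∈ o then c else 0) - (if j ∈ s then 2 * c else 0) := by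
    intro j
    unfold vec
    by_cases h1 : j ∈ s
    · rw [if_pos h1, if_pos (hs h1), if_pos h1]
      ring
    · rw [if_neg h1, if_neg h1, sub_zero]
  rw [Finset.sum_congr rfl (fun j _ => h j), Finset.sum_sub_distrib, Finset.sum_ite_mem,
    Finset.sum_ite_mem, Finset.univ_inter, Finset.univ_inter, Finset.sum_const, Finset.sum_const,
    nsmul_eq_mul, nsmul_eq_mul]
  ring

theorem vec_inj {c : ℤ} (hc : c ≠ 0) {o s o' s' : Finset GolayPt} (hs : s ⊆ o) (hs' : s' ⊆ o')
    (h : vec c o s = vec c o' s') : o = o' ∧ s = s' := by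
  have ho : ∀ {o s : Finset GolayPt}, s ⊆ o → ∀ j, j ∈ o ↔ vec c o s j ≠ 0 := by
    intro o s hs j
    unfold vec
    by_cases h1 : j ∈ s
    · rw [if_pos h1]
      exact ⟨fun _ => by omega, fun _ => hs h1⟩
    · rw [if_neg h1]
      by_cases h2 : j ∈ o
      · rw [if_pos h2]
        exact ⟨fun _ => hc, fun _ => h2⟩
      · rw [if_neg h2]
        exact ⟨fun h3 => absurd h3 h2, fun h3 => absurd rfl h3⟩
  have hsm : ∀ {o s : Finset GolayPt}, ∀ j, j ∈ s ↔ vec c o s j = -c := by
    intro o s j
    unfold vec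
    by_cases h1 : j ∈ s
    · rw [if_pos h1]
      exact ⟨fun _ => rfl, fun _ => h1⟩
    · rw [if_neg h1]
      by_cases h2 : j ∈ o
      · rw [if_pos h2]
        exact ⟨fun h3 => absurd h3 h1, fun h3 => by omega⟩
      · rw [if_neg h2]
        exact ⟨fun h3 => absurd h3 h1, fun h3 => by omega⟩
  constructor
  · ext j
    rw [ho hs j, ho hs' j, h]
  · ext j
    rw [hsm (o := o) j, hsm (o := o') j, h]

theorem vec4_mod (P s : Finset GolayPt) (j : GolayPt) : vec 4 P s j % 4 = 0 := by
  unfold vec
  split_ifs <;> rfl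

theorem vec4_mem {P s : Finset GolayPt} (hP : P.card = 2) (hs : s ⊆ P) : vec 4 P s ∈ leechSet := by
  rw [mem_leechSet_iff]
  refine ⟨0, fun j => ?_, ?_, fun k => ?_⟩
  · have := vec4_mod P s j
    unfold Int.ModEq
    omega
  · rw [sum_vec 4 hs, hP]
    unfold Int.ModEq
    push_cast
    omega
  · by_cases hk : k % 4 = 0
    · have h : lev (vec 4 P s) k = Finset.univ := by
        ext j
        rw [mem_lev]
        have := vec4_mod P s j
        unfold Int.ModEq
        simp only [Finset.mem_univ, iff_true]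
        omega
      rw [h]
      exact univ_mem_supports
    · have h : lev (vec 4 P s) k = ∅ := by
        ext j
        rw [mem_lev]
        have := vec4_mod P s j
        unfold Int.ModEq
        simp only [Finset.notMem_empty, iff_false]
        omega
      rw [h]
      exact empty_mem_supports

theorem vec2_mod {o s : Finset GolayPt} (hs : s ⊆ o) (j : GolayPt) :
    vec 2 o s j % 4 = if j ∈ o then 2 else 0 := by
  unfold vec
  by_cases h1 : j ∈ s
  · rw [if_pos h1, if_pos (hs h1)]
    rfl
  · rw [if_neg h1]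
    by_cases h2 : j ∈ o
    · rw [if_pos h2]
      rfl
    · rw [if_neg h2]
      rfl

theorem vec2_mem {o s : Finset GolayPt} (ho : o ∈ octads) (hs : s ⊆ o) (he : Even s.card) :
    vec 2 o s ∈ leechSet := by
  rw [mem_leechSet_iff]
  refine ⟨0, fun j => ?_, ?_, fun k => ?_⟩
  · have := vec2_mod hs j
    unfold Int.ModEq
    split_ifs at this <;> omega
  · rw [sum_vec 2 hs, ho.2]
    obtain ⟨t, ht⟩ := he
    rw [ht]
    unfold Int.ModEq
    push_cast
    omega
  · have hk : k % 4 = 0 ∨ k % 4 = 1 ∨ k % 4 = 2 ∨ k % 4 = 3 := by omega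
    rcases hk with hk | hk | hk | hk
    · have h : lev (vec 2 o s) k = oᶜ := by
        ext j
        rw [mem_lev, Finset.mem_compl]
        have := vec2_mod hs j
        unfold Int.ModEq
        split_ifs at this with h2
        · exact ⟨fun h3 => by omega, fun h3 => absurd h2 h3⟩
        · exact ⟨fun _ => h2, fun _ => by omega⟩
      rw [h]
      exact compl_mem_supports ho.1
    · have h : lev (vec 2 o s) k = ∅ := by
        ext j
        rw [mem_lev]
        have := vec2_mod hs j
        unfold Int.ModEq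
        simp only [Finset.notMem_empty, iff_false]
        split_ifs at this <;> omega
      rw [h]
      exact empty_mem_supports
    · have h : lev (vec 2 o s) k = o := by
        ext j
        rw [mem_lev]
        have := vec2_mod hs j
        unfold Int.ModEq
        split_ifs at this with h2
        · exact ⟨fun _ => h2, fun _ => by omega⟩
        · exact ⟨fun h3 => by omega, fun h3 => absurd h3 h2⟩
      rw [h]
      exact ho.1
    · have h : lev (vec 2 o s) k = ∅ := by
        ext j
        rw [mem_lev]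
        have := vec2_mod hs j
        unfold Int.ModEq
        simp only [Finset.notMem_empty, iff_false]
        split_ifs at this <;> omega
      rw [h]
      exact empty_mem_supports

/-! ### the odd vectors -/

/-- the vector with entries `±1` (sign `+` on `c`) except for `∓3` at `i`. -/
def oddv (c : Finset GolayPt) (i : GolayPt) : GolayPt → ℤ :=
  fun j => (if j ∈ c then 1 else -1) * (if j = i then -3 else 1)

theorem oddv_mod4 (c : Finset GolayPt) (i j : GolayPt) :
    oddv c i j % 4 = if j ∈ c then 1 else 3 := by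
  unfold oddv
  split_ifs <;> rfl

theorem oddv_sq (c : Finset GolayPt) (i j : GolayPt) :
    oddv c i j ^ 2 = if j = i then 9 else 1 := by
  unfold oddv
  split_ifs <;> norm_num

theorem sqNorm_oddv (c : Finset GolayPt) (i : GolayPt) : sqNorm (oddv c i) = 32 := by
  unfold sqNorm
  have h : ∀ j, (if j = i then (9 : ℤ) else 1) = 1 + if j = i then 8 else 0 := by
    intro j
    split_ifs <;> rfl
  rw [Finset.sum_congr rfl (fun j _ => (oddv_sq c i j).trans (h j)), Finset.sum_add_distrib,
    Finset.sum_ite_eq' Finset.univ i, if_pos (Finset.mem_univ i), Finset.sum_const,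
    Finset.card_univ, card_golayPt]
  norm_num

theorem sum_oddv {c : Finset GolayPt} (hc : c ∈ Cset) (i : GolayPt) :
    (∑ j, oddv c i j) % 8 = 4 := by
  have h : ∀ j, oddv c i j = (if j ∈ c then 2 else 0) - 1 +
      (if j = i then (if i ∈ c then -4 else 4) else 0) := by
    intro j
    unfold oddv
    by_cases h1 : j = i
    · subst h1
      split_ifs <;> rfl
    · rw [if_neg h1, if_neg h1]
      split_ifs <;> rfl
  rw [Finset.sum_congr rfl (fun j _ => h j), Finset.sum_add_distrib, Finset.sum_sub_distrib,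
    Finset.sum_ite_mem, Finset.univ_inter, Finset.sum_const, Finset.sum_const,
    Finset.sum_ite_eq' Finset.univ i, if_pos (Finset.mem_univ i), Finset.card_univ, card_golayPt]
  obtain ⟨t, ht⟩ := four_dvd_card hc
  rw [ht]
  simp only [nsmul_eq_mul, Nat.cast_mul, Nat.cast_ofNat, mul_one]
  split_ifs <;> omega

theorem oddv_mem {c : Finset GolayPt} (hc : c ∈ Cset) (i : GolayPt) : oddv c i ∈ leechSet := by
  rw [mem_leechSet_iff]
  refine ⟨1, fun j => ?_, ?_, fun k => ?_⟩
  · have := oddv_mod4 c i j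
    unfold Int.ModEq
    split_ifs at this <;> omega
  · have := sum_oddv hc i
    unfold Int.ModEq
    omega
  · have hk : k % 4 = 0 ∨ k % 4 = 1 ∨ k % 4 = 2 ∨ k % 4 = 3 := by omega
    rcases hk with hk | hk | hk | hk
    · have h : lev (oddv c i) k = ∅ := by
        ext j
        rw [mem_lev]
        have := oddv_mod4 c i j
        unfold Int.ModEq
        simp only [Finset.notMem_empty, iff_false]
        split_ifs at this <;> omega
      rw [h]
      exact empty_mem_supports
    · have h : lev (oddv c i) k = c := by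
        ext j
        rw [mem_lev]
        have := oddv_mod4 c i j
        unfold Int.ModEq
        split_ifs at this with h2
        · exact ⟨fun _ => h2, fun _ => by omega⟩
        · exact ⟨fun h3 => by omega, fun h3 => absurd h3 h2⟩
      rw [h]
      exact hc
    · have h : lev (oddv c i) k = ∅ := by
        ext j
        rw [mem_lev]
        have := oddv_mod4 c i j
        unfold Int.ModEq
        simp only [Finset.notMem_empty, iff_false]
        split_ifs at this <;> omega
      rw [h]
      exact empty_mem_supports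
    · have h : lev (oddv c i) k = cᶜ := by
        ext j
        rw [mem_lev, Finset.mem_compl]
        have := oddv_mod4 c i j
        unfold Int.ModEq
        split_ifs at this with h2
        · exact ⟨fun h3 => by omega, fun h3 => absurd h2 h3⟩
        · exact ⟨fun _ => h2, fun _ => by omega⟩
      rw [h]
      exact compl_mem_supports hc

theorem oddv_inj {c c' : Finset GolayPt} {i i' : GolayPt} (h : oddv c i = oddv c' i') :
    c = c' ∧ i = i' := by
  constructor
  · ext j
    have h1 := oddv_mod4 c i j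
    have h2 := oddv_mod4 c' i' j
    rw [h] at h1
    split_ifs at h1 h2 with a b <;> first | exact ⟨fun _ => b, fun _ => a⟩ | omega | tauto
  · have h1 := oddv_sq c i i
    have h2 := oddv_sq c' i' i
    rw [h] at h1
    rw [if_pos rfl] at h1
    by_contra hne
    rw [if_neg hne] at h2
    omega

/-! ### the shape of a minimal vector -/

theorem odd_shape {x : GolayPt → ℤ} (hodd : ∀ j, x j % 2 = 1) (hn : sqNorm x = 32) :
    ∃ i, x i ^ 2 = 9 ∧ ∀ j, j ≠ i → x j ^ 2 = 1 := by
  have hg : ∀ j, 0 ≤ x j ^ 2 - 1 := by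
    intro j
    have := hodd j
    have h3 : x j ≤ -1 ∨ 1 ≤ x j := by omega
    rcases h3 with h | h <;> nlinarith
  have hsum : ∑ j, (x j ^ 2 - 1) = 8 := by
    unfold sqNorm at hn
    rw [Finset.sum_sub_distrib, hn, Finset.sum_const, Finset.card_univ, card_golayPt]
    norm_num
  have hex : ∃ i, x i ^ 2 - 1 ≠ 0 := by
    by_contra hc
    push Not at hc
    rw [Finset.sum_congr rfl (fun j _ => hc j)] at hsum
    simp at hsum
  obtain ⟨i, hi⟩ := hex
  have hi8 : 8 ≤ x i ^ 2 - 1 := by
    have := hodd i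
    have h3 : x i ≤ -3 ∨ x i = -1 ∨ x i = 1 ∨ 3 ≤ x i := by omega
    rcases h3 with h | h | h | h
    · nlinarith
    · exfalso
      apply hi
      rw [h]
      norm_num
    · exfalso
      apply hi
      rw [h]
      norm_num
    · nlinarith
  have hsplit := Finset.add_sum_erase Finset.univ (fun j => x j ^ 2 - 1) (Finset.mem_univ i)
  have hnn : 0 ≤ ∑ j ∈ Finset.univ.erase i, (x j ^ 2 - 1) :=
    Finset.sum_nonneg (fun j _ => hg j)
  have hrest : ∑ j ∈ Finset.univ.erase i, (x j ^ 2 - 1) = 0 := by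
    have h5 : x i ^ 2 - 1 + ∑ j ∈ Finset.univ.erase i, (x j ^ 2 - 1) = 8 := by
      rw [← hsum]
      exact hsplit
    linarith
  have hrest0 := (Finset.sum_eq_zero_iff_of_nonneg (fun j _ => hg j)).mp hrest
  refine ⟨i, ?_, fun j hj => ?_⟩
  · have h5 : x i ^ 2 - 1 + ∑ j ∈ Finset.univ.erase i, (x j ^ 2 - 1) = 8 := by
      rw [← hsum]
      exact hsplit
    linarith
  · have := hrest0 j (Finset.mem_erase.mpr ⟨hj, Finset.mem_univ j⟩)
    linarith

theorem sq_eq_iff {a b : ℤ} (hb : 0 ≤ b) (h : a ^ 2 = b ^ 2) : a = b ∨ a = -b := by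
  have h1 : (a - b) * (a + b) = 0 := by ring_nf; linarith
  rcases mul_eq_zero.mp h1 with h2 | h2
  · left
    linarith
  · right
    linarith

theorem odd_case {x : GolayPt → ℤ} (hodd : ∀ j, x j % 2 = 1) (hn : sqNorm x = 32) :
    ∃ i, x = oddv (lev x 1) i := by
  obtain ⟨i, h9, h1⟩ := odd_shape hodd hn
  refine ⟨i, funext fun j => ?_⟩
  unfold oddv
  by_cases hj : j = i
  · rw [if_pos hj, hj]
    have h3 : x i = 3 ∨ x i = -3 := sq_eq_iff (by norm_num) (by rw [h9]; norm_num)
    rcases h3 with h3 | h3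
    · have hni : i ∉ lev x 1 := by
        rw [mem_lev, h3]
        decide
      rw [if_neg hni, h3]
      norm_num
    · have hi : i ∈ lev x 1 := by
        rw [mem_lev, h3]
        decide
      rw [if_pos hi, h3]
      norm_num
  · rw [if_neg hj, mul_one]
    have h3 : x j = 1 ∨ x j = -1 := sq_eq_iff (by norm_num) (by rw [h1 j hj]; norm_num)
    rcases h3 with h3 | h3
    · have hi : j ∈ lev x 1 := by
        rw [mem_lev, h3]
      rw [if_pos hi, h3]
    · have hni : j ∉ lev x 1 := by
        rw [mem_lev, h3]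
        decide
      rw [if_neg hni, h3]

theorem even2_shape {x : GolayPt → ℤ} (hc : lev x 2 ∈ Cset) (hne : (lev x 2).Nonempty)
    (hn : sqNorm x = 32) :
    (lev x 2).card = 8 ∧ ∀ j, (j ∈ lev x 2 → x j ^ 2 = 4) ∧ (j ∉ lev x 2 → x j = 0) := by
  have hg : ∀ j, 0 ≤ x j ^ 2 - (if j ∈ lev x 2 then 4 else 0) := by
    intro j
    by_cases hj : j ∈ lev x 2
    · rw [if_pos hj]
      rw [mem_lev] at hj
      unfold Int.ModEq at hj
      have h3 : x j ≤ -2 ∨ 2 ≤ x j := by omega
      rcases h3 with h | h <;> nlinarith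
    · rw [if_neg hj]
      nlinarith [sq_nonneg (x j)]
  have hsum : ∑ j, (x j ^ 2 - (if j ∈ lev x 2 then (4 : ℤ) else 0)) = 32 - 4 * (lev x 2).card := by
    unfold sqNorm at hn
    rw [Finset.sum_sub_distrib, hn, Finset.sum_ite_mem, Finset.univ_inter, Finset.sum_const,
      nsmul_eq_mul]
    ring
  have hnn : 0 ≤ ∑ j, (x j ^ 2 - (if j ∈ lev x 2 then (4 : ℤ) else 0)) :=
    Finset.sum_nonneg (fun j _ => hg j)
  have hcard : (lev x 2).card = 8 := by
    have hc0 : (lev x 2).card ≠ 0 := Finset.card_ne_zero.mpr hne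
    rw [hsum] at hnn
    rcases card_cases hc with h | h | h | h | h <;> omega
  rw [hcard] at hsum
  have hzero := (Finset.sum_eq_zero_iff_of_nonneg (fun j _ => hg j)).mp (by rw [hsum]; norm_num)
  refine ⟨hcard, fun j => ⟨fun hj => ?_, fun hj => ?_⟩⟩
  · have := hzero j (Finset.mem_univ j)
    rw [if_pos hj] at this
    linarith
  · have := hzero j (Finset.mem_univ j)
    rw [if_neg hj, sub_zero] at this
    exact pow_eq_zero_iff (two_ne_zero) |>.mp this

theorem even2_case {x : GolayPt → ℤ} (hc : lev x 2 ∈ Cset) (hne : (lev x 2).Nonempty)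
    (hn : sqNorm x = 32) (hsum : (∑ j, x j) % 8 = 0) :
    ∃ s, s ⊆ lev x 2 ∧ Even s.card ∧ lev x 2 ∈ octads ∧ x = vec 2 (lev x 2) s := by
  obtain ⟨hcard, hsh⟩ := even2_shape hc hne hn
  have hsub : Finset.univ.filter (fun j => x j = -2) ⊆ lev x 2 := by
    intro j hj
    rw [Finset.mem_filter] at hj
    rw [mem_lev, hj.2]
    decide
  have hx : x = vec 2 (lev x 2) (Finset.univ.filter (fun j => x j = -2)) := by
    funext j
    unfold vec
    by_cases h1 : x j = -2
    · have hps : j ∈ Finset.univ.filter (fun j => x j = -2) :=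
        Finset.mem_filter.mpr ⟨Finset.mem_univ j, h1⟩
      rw [if_pos hps, h1]
    · have hns : j ∉ Finset.univ.filter (fun j => x j = -2) :=
        fun h => h1 (Finset.mem_filter.mp h).2
      rw [if_neg hns]
      by_cases h2 : j ∈ lev x 2
      · rw [if_pos h2]
        have h3 : x j = 2 ∨ x j = -2 := sq_eq_iff (by norm_num) (by rw [(hsh j).1 h2]; norm_num)
        rcases h3 with h3 | h3
        · exact h3
        · exact absurd h3 h1
      · rw [if_neg h2]
        exact (hsh j).2 h2
  refine ⟨_, hsub, ?_, ⟨hc, hcard⟩, hx⟩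
  have h4 := sum_vec 2 hsub
  rw [← hx, hcard] at h4
  rw [h4] at hsum
  rw [Nat.even_iff]
  push_cast at hsum
  omega

theorem even4_case {x : GolayPt → ℤ} (h4 : ∀ j, x j % 4 = 0) (hn : sqNorm x = 32) :
    ∃ P s, P.card = 2 ∧ s ⊆ P ∧ x = vec 4 P s := by
  have hle : ∀ j, x j ^ 2 ≤ 32 := by
    intro j
    rw [← hn]
    unfold sqNorm
    exact Finset.single_le_sum (f := fun j => x j ^ 2) (fun k _ => sq_nonneg (x k))
      (Finset.mem_univ j)
  have hval : ∀ j, x j = -4 ∨ x j = 0 ∨ x j = 4 := by
    intro j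
    have h1 := hle j
    have h2 := h4 j
    have h3 : -6 < x j := by nlinarith
    have h5 : x j < 6 := by nlinarith
    omega
  have hsq : ∀ j, x j ^ 2 = if x j ≠ 0 then 16 else 0 := by
    intro j
    rcases hval j with h | h | h <;> rw [h] <;> norm_num
  have hcard : (Finset.univ.filter (fun j => x j ≠ 0)).card = 2 := by
    unfold sqNorm at hn
    rw [Finset.sum_congr rfl (fun j _ => hsq j), ← Finset.sum_filter, Finset.sum_const,
      nsmul_eq_mul] at hn
    have : ((Finset.univ.filter (fun j => x j ≠ 0)).card : ℤ) = 2 := by linarith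
    exact_mod_cast this
  refine ⟨Finset.univ.filter (fun j => x j ≠ 0), Finset.univ.filter (fun j => x j = -4), hcard,
    ?_, ?_⟩
  · intro j hj
    rw [Finset.mem_filter] at hj ⊢
    exact ⟨hj.1, by rw [hj.2]; norm_num⟩
  · funext j
    unfold vec
    by_cases h1 : x j = -4
    · have hps : j ∈ Finset.univ.filter (fun j => x j = -4) :=
        Finset.mem_filter.mpr ⟨Finset.mem_univ j, h1⟩
      rw [if_pos hps, h1]
    · have hns : j ∉ Finset.univ.filter (fun j => x j = -4) :=
        fun h => h1 (Finset.mem_filter.mp h).2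
      rw [if_neg hns]
      by_cases h2 : x j ≠ 0
      · have hp : j ∈ Finset.univ.filter (fun j => x j ≠ 0) :=
          Finset.mem_filter.mpr ⟨Finset.mem_univ j, h2⟩
        rw [if_pos hp]
        rcases hval j with h | h | h
        · exact absurd h h1
        · exact absurd h h2
        · exact h
      · have hnp : j ∉ Finset.univ.filter (fun j => x j ≠ 0) :=
          fun h => h2 (Finset.mem_filter.mp h).2
        rw [if_neg hnp]
        push Not at h2
        exact h2

/-! ### counting -/

theorem card_even_subsets (o : Finset GolayPt) (h : o.Nonempty) :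
    2 * (o.powerset.filter (fun s => Even s.card)).card = 2 ^ o.card := by
  obtain ⟨p, hp⟩ := h
  have h1 := Finset.card_filter_add_card_filter_not (s := o.powerset)
    (fun s => Even s.card)
  rw [Finset.card_powerset] at h1
  have key : ∀ s : Finset GolayPt, s ⊆ o → symmDiff s {p} ⊆ o ∧
      (Even (symmDiff s {p}).card ↔ ¬ Even s.card) := by
    intro s hs
    refine ⟨?_, ?_⟩
    · intro a ha
      rw [Finset.mem_symmDiff] at ha
      rcases ha with ⟨ha, _⟩ | ⟨ha, _⟩
      · exact hs ha
      · rw [Finset.mem_singleton] at ha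
        rw [ha]
        exact hp
    · have h2 := card_symmDiff_add s {p}
      rw [Finset.card_singleton] at h2
      rw [Nat.even_iff, Nat.even_iff]
      omega
  have hinv : ∀ s : Finset GolayPt, symmDiff (symmDiff s {p}) {p} = s := fun s =>
    symmDiff_symmDiff_cancel_right _ _
  have h2 : (o.powerset.filter (fun s => Even s.card)).card =
      (o.powerset.filter (fun s => ¬ Even s.card)).card := by
    refine Finset.card_nbij' (fun s => symmDiff s {p}) (fun s => symmDiff s {p}) ?_ ?_ ?_ ?_
    · intro s hs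
      rw [Finset.mem_coe, Finset.mem_filter, Finset.mem_powerset] at hs ⊢
      obtain ⟨k1, k2⟩ := key s hs.1
      exact ⟨k1, fun h3 => (k2.mp h3) hs.2⟩
    · intro s hs
      rw [Finset.mem_coe, Finset.mem_filter, Finset.mem_powerset] at hs ⊢
      obtain ⟨k1, k2⟩ := key s hs.1
      exact ⟨k1, k2.mpr hs.2⟩
    · intro s _
      exact hinv s
    · intro s _
      exact hinv s
  omega

theorem card_even8 {o : Finset GolayPt} (ho : o ∈ octads) :
    (o.powerset.filter (fun s => Even s.card)).card = 128 := by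
  have h := card_even_subsets o (Finset.card_pos.mp (by rw [ho.2]; norm_num))
  rw [ho.2] at h
  norm_num at h
  omega

theorem ncard_Cset : Cset.ncard = 4096 := by
  show (support₂ '' (golayCode : Set (GolayPt → ZMod 2))).ncard = 4096
  rw [Set.ncard_image_of_injective _ support_injective, ← Nat.card_coe_set_eq]
  exact Cfsg.Agent.Lib.Helper3.Golay.natCard_golayCode

/-- the minimal vectors. -/
def Mn : Set (GolayPt → ℤ) := {x | x ∈ leechLattice ∧ sqNorm x = 32}

/-- index set of the vectors of shape `(±4, ±4, 0, …)`. -/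
noncomputable def I4 : Finset (Σ _ : Finset GolayPt, Finset GolayPt) :=
  (Finset.powersetCard 2 Finset.univ).sigma (fun P => P.powerset)

/-- index set of the vectors of shape `(±2)^8` on an octad. -/
noncomputable def I2 : Finset (Σ _ : Finset GolayPt, Finset GolayPt) :=
  (blocks octads).sigma (fun o => o.powerset.filter (fun s => Even s.card))

/-- index set of the odd vectors. -/
noncomputable def I1 : Finset (Finset GolayPt × GolayPt) := (blocks Cset) ×ˢ Finset.univ

def f4 (p : Σ _ : Finset GolayPt, Finset GolayPt) : GolayPt → ℤ := vec 4 p.1 p.2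

def f2 (p : Σ _ : Finset GolayPt, Finset GolayPt) : GolayPt → ℤ := vec 2 p.1 p.2

def f1 (p : Finset GolayPt × GolayPt) : GolayPt → ℤ := oddv p.1 p.2

theorem mem_I4 {p : Σ _ : Finset GolayPt, Finset GolayPt} :
    p ∈ I4 ↔ p.1.card = 2 ∧ p.2 ⊆ p.1 := by
  rw [I4, Finset.mem_sigma, Finset.mem_powersetCard, Finset.mem_powerset]
  exact ⟨fun h => ⟨h.1.2, h.2⟩, fun h => ⟨⟨Finset.subset_univ _, h.1⟩, h.2⟩⟩

theorem mem_I2 {p : Σ _ : Finset GolayPt, Finset GolayPt} :
    p ∈ I2 ↔ p.1 ∈ octads ∧ p.2 ⊆ p.1 ∧ Even p.2.card := by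
  rw [I2, Finset.mem_sigma, mem_blocks, Finset.mem_filter, Finset.mem_powerset]

theorem mem_I1 {p : Finset GolayPt × GolayPt} : p ∈ I1 ↔ p.1 ∈ Cset := by
  rw [I1, Finset.mem_product, mem_blocks]
  exact ⟨fun h => h.1, fun h => ⟨h, Finset.mem_univ _⟩⟩

theorem card_I4 : I4.card = 1104 := by
  rw [I4, Finset.card_sigma, Finset.sum_congr rfl (fun P hP => by
    rw [Finset.card_powerset, (Finset.mem_powersetCard.mp hP).2]), Finset.sum_const,
    Finset.card_powersetCard, Finset.card_univ, card_golayPt, smul_eq_mul]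
  norm_num [Nat.choose]

theorem card_I2 : I2.card = 97152 := by
  rw [I2, Finset.card_sigma, Finset.sum_congr rfl (fun o ho => card_even8 (mem_blocks.mp ho)),
    Finset.sum_const, card_blocks_octads, smul_eq_mul]

attribute [irreducible] I4

theorem card_I1 : I1.card = 98304 := by
  rw [I1, Finset.card_product, card_blocks, ncard_Cset, Finset.card_univ, card_golayPt]

theorem inj_f4 : Set.InjOn f4 (I4 : Set (Σ _ : Finset GolayPt, Finset GolayPt)) := by
  rintro ⟨a, b⟩ hp ⟨a', b'⟩ hq h
  rw [Finset.mem_coe, mem_I4] at hp hq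
  obtain ⟨e1, e2⟩ := vec_inj (by norm_num : (4 : ℤ) ≠ 0) hp.2 hq.2 h
  simp only at e1 e2
  subst e1
  subst e2
  rfl

theorem inj_f2 : Set.InjOn f2 (I2 : Set (Σ _ : Finset GolayPt, Finset GolayPt)) := by
  rintro ⟨a, b⟩ hp ⟨a', b'⟩ hq h
  rw [Finset.mem_coe, mem_I2] at hp hq
  obtain ⟨e1, e2⟩ := vec_inj (by norm_num : (2 : ℤ) ≠ 0) hp.2.1 hq.2.1 h
  simp only at e1 e2
  subst e1
  subst e2
  rfl

theorem inj_f1 : Set.InjOn f1 (I1 : Set (Finset GolayPt × GolayPt)) := by
  rintro ⟨a, b⟩ _ ⟨a', b'⟩ _ h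
  obtain ⟨e1, e2⟩ := oddv_inj h
  simp only at e1 e2
  rw [e1, e2]

theorem cover : Mn = f1 '' (I1 : Set (Finset GolayPt × GolayPt)) ∪
    f2 '' (I2 : Set (Σ _ : Finset GolayPt, Finset GolayPt)) ∪
    f4 '' (I4 : Set (Σ _ : Finset GolayPt, Finset GolayPt)) := by
  ext x
  constructor
  · rintro ⟨hx, hn⟩
    rw [mem_leechLattice_iff, mem_leechSet_iff] at hx
    obtain ⟨m, h1, h2, h3⟩ := hx
    rcases Int.emod_two_eq_zero_or_one m with hm | hm
    · have hev : ∀ j, x j % 2 = 0 := by
        intro j
        have := h1 j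
        unfold Int.ModEq at this
        omega
      by_cases hne : (lev x 2).Nonempty
      · have hsum : (∑ j, x j) % 8 = 0 := by
          unfold Int.ModEq at h2
          omega
        obtain ⟨s, hs, he, ho, hxe⟩ := even2_case (h3 2) hne hn hsum
        left
        right
        exact ⟨⟨lev x 2, s⟩, Finset.mem_coe.mpr (mem_I2.mpr ⟨ho, hs, he⟩), hxe.symm⟩
      · rw [Finset.not_nonempty_iff_eq_empty] at hne
        have h4 : ∀ j, x j % 4 = 0 := by
          intro j
          have hj : j ∉ lev x 2 := by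
            rw [hne]
            exact Finset.notMem_empty j
          rw [mem_lev] at hj
          unfold Int.ModEq at hj
          have := hev j
          omega
        obtain ⟨P, s, hP, hs, hxe⟩ := even4_case h4 hn
        right
        exact ⟨⟨P, s⟩, Finset.mem_coe.mpr (mem_I4.mpr ⟨hP, hs⟩), hxe.symm⟩
    · have hodd : ∀ j, x j % 2 = 1 := by
        intro j
        have := h1 j
        unfold Int.ModEq at this
        omega
      obtain ⟨i, hxe⟩ := odd_case hodd hn
      left
      left
      exact ⟨(lev x 1, i), Finset.mem_coe.mpr (mem_I1.mpr (h3 1)), hxe.symm⟩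
  · rintro ((⟨p, hp, rfl⟩ | ⟨p, hp, rfl⟩) | ⟨p, hp, rfl⟩)
    · rw [Finset.mem_coe, mem_I1] at hp
      exact ⟨(mem_leechLattice_iff _).mpr (oddv_mem hp p.2), sqNorm_oddv _ _⟩
    · rw [Finset.mem_coe, mem_I2] at hp
      refine ⟨(mem_leechLattice_iff _).mpr (vec2_mem hp.1 hp.2.1 hp.2.2), ?_⟩
      show sqNorm (vec 2 p.1 p.2) = 32
      rw [sqNorm_vec 2 hp.2.1, hp.1.2]
      norm_num
    · rw [Finset.mem_coe, mem_I4] at hp
      refine ⟨(mem_leechLattice_iff _).mpr (vec4_mem hp.1 hp.2), ?_⟩
      show sqNorm (vec 4 p.1 p.2) = 32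
      rw [sqNorm_vec 4 hp.2, hp.1]
      norm_num

theorem disj12 : Disjoint (f1 '' (I1 : Set (Finset GolayPt × GolayPt)))
    (f2 '' (I2 : Set (Σ _ : Finset GolayPt, Finset GolayPt))) := by
  rw [Set.disjoint_left]
  rintro x ⟨p, _, rfl⟩ ⟨q, hq, h⟩
  rw [Finset.mem_coe, mem_I2] at hq
  have h1 := oddv_mod4 p.1 p.2 none
  have h2 := vec2_mod hq.2.1 none
  have h4 : vec 2 q.1 q.2 none = oddv p.1 p.2 none := congrFun h none
  rw [h4] at h2
  split_ifs at h1 h2 <;> omega

theorem disj4 : Disjoint (f1 '' (I1 : Set (Finset GolayPt × GolayPt)) ∪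
    f2 '' (I2 : Set (Σ _ : Finset GolayPt, Finset GolayPt)))
    (f4 '' (I4 : Set (Σ _ : Finset GolayPt, Finset GolayPt))) := by
  rw [Set.disjoint_left]
  rintro x (⟨p, _, rfl⟩ | ⟨p, hp, rfl⟩) ⟨q, _, h⟩
  · have h1 := oddv_mod4 p.1 p.2 none
    have h2 := vec4_mod q.1 q.2 none
    have h4 : vec 4 q.1 q.2 none = oddv p.1 p.2 none := congrFun h none
    rw [h4] at h2
    split_ifs at h1 <;> omega
  · rw [Finset.mem_coe, mem_I2] at hp
    obtain ⟨j, hj⟩ : p.1.Nonempty := Finset.card_pos.mp (by rw [hp.1.2]; norm_num)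
    have h1 := vec2_mod hp.2.1 j
    rw [if_pos hj] at h1
    have h2 := vec4_mod q.1 q.2 j
    have h4 : vec 4 q.1 q.2 j = vec 2 p.1 p.2 j := congrFun h j
    rw [h4] at h2
    omega

theorem ncard_Mn : Mn.ncard = 196560 := by
  rw [cover, Set.ncard_union_eq disj4 (((Finset.finite_toSet I1).image f1).union
    ((Finset.finite_toSet I2).image f2)) ((Finset.finite_toSet I4).image f4),
    Set.ncard_union_eq disj12 ((Finset.finite_toSet I1).image f1)
    ((Finset.finite_toSet I2).image f2), inj_f1.ncard_image,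
    inj_f2.ncard_image, inj_f4.ncard_image, Set.ncard_coe_finset,
    Set.ncard_coe_finset, Set.ncard_coe_finset, card_I1, card_I2, card_I4]

end Cfsg.Agent.Lib.Helper3.Leech4
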