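import Mathlib
import Cfsg.Prelude.Def_Sporadic_a
import Cfsg.Agent.Lib.Helper3.Golay
import Cfsg.Agent.Lib.Helper3.Golay2
import Cfsg.Agent.Lib.Helper3.Leech
import Cfsg.Agent.Lib.Helper3.Leech2
import Cfsg.Agent.Lib.Helper3.Leech4

set_option autoImplicit false

namespace Cfsg.Agent.Lib.Helper3.Leech5

open Cfsg Cfsg.Agent.Lib.Helper3.Golay Cfsg.Agent.Lib.Helper3.Golay2
open Cfsg.Agent.Lib.Helper3.Leech Cfsg.Agent.Lib.Helper3.Leech2
open Cfsg.Agent.Lib.Helper3.Leech4

/-- the subgroup generated by the minimal vectors. -/
def K : AddSubgroup (GolayPt → ℤ) := AddSubgroup.closure Mn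

theorem K_le : K ≤ leechLattice := (AddSubgroup.closure_le _).mpr (fun _ hx => hx.1)

theorem oddv_mem_K {c : Finset GolayPt} (hc : c ∈ Cset) (i : GolayPt) : oddv c i ∈ K :=
  AddSubgroup.subset_closure ⟨(mem_leechLattice_iff _).mpr (oddv_mem hc i), sqNorm_oddv c i⟩

theorem vec4_mem_K {P s : Finset GolayPt} (hP : P.card = 2) (hs : s ⊆ P) : vec 4 P s ∈ K :=
  AddSubgroup.subset_closure ⟨(mem_leechLattice_iff _).mpr (vec4_mem hP hs), by
    rw [sqNorm_vec 4 hs, hP]; norm_num⟩

/-- `4 e_i - 4 e_∞`. -/
def dv (i : GolayPt) : GolayPt → ℤ :=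
  fun j => (if j = i then 4 else 0) - (if j = none then 4 else 0)

theorem dv_mem (i : GolayPt) : dv i ∈ K := by
  by_cases hi : i = none
  · have h : dv i = 0 := by
      funext j
      unfold dv
      rw [hi]
      simp
    rw [h]
    exact K.zero_mem
  · have h : dv i = vec 4 {i, none} {none} := by
      funext j
      unfold dv vec
      by_cases h1 : j = none
      · subst h1
        rw [if_neg (Ne.symm hi), if_pos rfl, if_pos (Finset.mem_singleton_self _)]
        norm_num
      · have h3 : j ∉ ({none} : Finset GolayPt) := by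
          rw [Finset.mem_singleton]
          exact h1
        rw [if_neg h1, if_neg h3]
        by_cases h2 : j = i
        · have h4 : j ∈ ({i, none} : Finset GolayPt) := by
            rw [h2]
            exact Finset.mem_insert_self _ _
          rw [if_pos h2, if_pos h4]
          norm_num
        · have h4 : j ∉ ({i, none} : Finset GolayPt) := by
            rw [Finset.mem_insert, Finset.mem_singleton]
            tauto
          rw [if_neg h2, if_neg h4]
          norm_num
    rw [h]
    refine vec4_mem_K (Finset.card_pair hi) ?_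
    intro a ha
    rw [Finset.mem_singleton] at ha
    rw [ha]
    exact Finset.mem_insert_of_mem (Finset.mem_singleton_self _)

/-- `8 e_∞`. -/
def e8 : GolayPt → ℤ := fun j => if j = none then 8 else 0

theorem e8_mem : e8 ∈ K := by
  have hne : (some 0 : GolayPt) ≠ none := by simp
  have h : e8 = vec 4 {some 0, none} ∅ - dv (some 0) := by
    funext j
    rw [Pi.sub_apply]
    unfold e8 vec dv
    rw [if_neg (Finset.notMem_empty j)]
    by_cases h1 : j = none
    · subst h1
      rw [if_pos rfl, if_pos (Finset.mem_insert_of_mem (Finset.mem_singleton_self _)),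
        if_neg (Ne.symm hne), if_pos rfl]
      norm_num
    · rw [if_neg h1, if_neg h1]
      by_cases h2 : j = some 0
      · have h4 : j ∈ ({some 0, none} : Finset GolayPt) := by
          rw [h2]
          exact Finset.mem_insert_self _ _
        rw [if_pos h2, if_pos h4]
        norm_num
      · have h4 : j ∉ ({some 0, none} : Finset GolayPt) := by
          rw [Finset.mem_insert, Finset.mem_singleton]
          tauto
        rw [if_neg h2, if_neg h4]
        norm_num
  rw [h]
  exact K.sub_mem (vec4_mem_K (Finset.card_pair hne) (Finset.empty_subset _)) (dv_mem _)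

/-- vectors with all coordinates divisible by `4` and coordinate sum divisible by `8`. -/
theorem four_mem (t : GolayPt → ℤ) (h4 : ∀ j, t j % 4 = 0) (h8 : (∑ j, t j) % 8 = 0) :
    t ∈ K := by
  obtain ⟨k, hk⟩ := Int.dvd_of_emod_eq_zero h8
  have h : t = ∑ i, (t i / 4) • dv i + k • e8 := by
    funext j
    rw [Pi.add_apply, Finset.sum_apply, Pi.smul_apply, smul_eq_mul]
    have h1 : ∀ i, ((t i / 4) • dv i) j =
        (if j = i then t i else 0) - (if j = none then t i else 0) := by
      intro i
      rw [Pi.smul_apply, smul_eq_mul]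
      unfold dv
      have := h4 i
      split_ifs <;> omega
    rw [Finset.sum_congr rfl (fun i _ => h1 i), Finset.sum_sub_distrib,
      Finset.sum_ite_eq Finset.univ j, if_pos (Finset.mem_univ j)]
    unfold e8
    by_cases hj : j = none
    · rw [if_pos hj, Finset.sum_congr rfl (fun i _ => if_pos hj), hk]
      ring
    · rw [if_neg hj, Finset.sum_congr rfl (fun i _ => if_neg hj), Finset.sum_const_zero]
      ring
  rw [h]
  exact K.add_mem (K.sum_mem (fun i _ => K.zsmul_mem (dv_mem i) _)) (K.zsmul_mem e8_mem _)

/-- twice the indicator vector of a codeword. -/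
theorem two_mem {c : Finset GolayPt} (hc : c ∈ Cset) : vec 2 c ∅ ∈ K := by
  have h : vec 2 c ∅ = oddv c none - oddv ∅ none + (if none ∈ c then e8 else 0) := by
    funext j
    rw [Pi.add_apply, Pi.sub_apply]
    unfold vec oddv
    rw [if_neg (Finset.notMem_empty j), if_neg (Finset.notMem_empty j)]
    by_cases h3 : none ∈ c
    · rw [if_pos h3]
      unfold e8
      by_cases h1 : j = none
      · subst h1
        rw [if_pos h3, if_pos h3, if_pos rfl, if_pos rfl]
        norm_num
      · rw [if_neg h1, if_neg h1]
        by_cases h2 : j ∈ c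
        · rw [if_pos h2, if_pos h2]
          norm_num
        · rw [if_neg h2, if_neg h2]
          norm_num
    · rw [if_neg h3]
      by_cases h1 : j = none
      · subst h1
        rw [if_neg h3, if_neg h3, if_pos rfl]
        norm_num
      · rw [if_neg h1]
        by_cases h2 : j ∈ c
        · rw [if_pos h2, if_pos h2]
          norm_num
        · rw [if_neg h2, if_neg h2]
          norm_num
  rw [h]
  refine K.add_mem (K.sub_mem (oddv_mem_K hc none) (oddv_mem_K empty_mem_supports none)) ?_
  split_ifs
  · exact e8_mem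
  · exact K.zero_mem

theorem even_mem {x : GolayPt → ℤ} (hx : x ∈ leechSet) (he : ∀ j, x j % 2 = 0) : x ∈ K := by
  rw [mem_leechSet_iff] at hx
  obtain ⟨m, h1, h2, h3⟩ := hx
  have hm : m % 2 = 0 := by
    have h5 := h1 none
    have h6 := he none
    unfold Int.ModEq at h5
    omega
  have hc := h3 2
  have hcard := four_dvd_card hc
  have hmem : ∀ j, j ∈ lev x 2 ↔ x j % 4 = 2 := by
    intro j
    rw [mem_lev]
    unfold Int.ModEq
    omega
  have hsplit : x = vec 2 (lev x 2) ∅ + (x - vec 2 (lev x 2) ∅) := (add_sub_cancel _ _).symm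
  rw [hsplit]
  refine K.add_mem (two_mem hc) (four_mem _ (fun j => ?_) ?_)
  · rw [Pi.sub_apply]
    unfold vec
    rw [if_neg (Finset.notMem_empty j)]
    have h5 := he j
    by_cases hj : j ∈ lev x 2
    · rw [if_pos hj]
      have h6 := (hmem j).mp hj
      omega
    · rw [if_neg hj]
      have h6 := mt (hmem j).mpr hj
      omega
  · have hs : ∑ j, (x - vec 2 (lev x 2) ∅) j = ∑ j, x j - 2 * ((lev x 2).card : ℤ) := by
      rw [Finset.sum_congr rfl (fun j _ => Pi.sub_apply x _ j), Finset.sum_sub_distrib,
        sum_vec 2 (Finset.empty_subset _), Finset.card_empty]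
      push_cast
      ring
    rw [hs]
    obtain ⟨k, hk⟩ := hcard
    rw [hk]
    unfold Int.ModEq at h2
    push_cast
    omega

theorem le_K : leechLattice ≤ K := by
  intro x hx
  rw [mem_leechLattice_iff] at hx
  have hx' := hx
  rw [mem_leechSet_iff] at hx'
  obtain ⟨m, h1, -, -⟩ := hx'
  by_cases hm : m % 2 = 0
  · refine even_mem hx (fun j => ?_)
    have h5 := h1 j
    unfold Int.ModEq at h5
    omega
  · have hu : oddv ∅ none ∈ leechSet := oddv_mem empty_mem_supports none
    have h : x = (x - oddv ∅ none) + oddv ∅ none := (sub_add_cancel _ _).symm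
    rw [h]
    refine K.add_mem (even_mem ?_ (fun j => ?_)) (oddv_mem_K empty_mem_supports none)
    · have h5 := add_mem_leechSet hx (neg_mem_leechSet hu)
      rwa [← sub_eq_add_neg] at h5
    · rw [Pi.sub_apply]
      have h5 := h1 j
      have h6 := oddv_mod4 ∅ none j
      rw [if_neg (Finset.notMem_empty j)] at h6
      unfold Int.ModEq at h5
      omega

/-- the minimal vectors generate the lattice. -/
theorem closure_Mn : AddSubgroup.closure Mn = leechLattice := le_antisymm K_le le_K

end Cfsg.Agent.Lib.Helper3.Leech5
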