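import Mathlib
import Cfsg.Prelude.Def_Sporadic_a
import Cfsg.Agent.Lib.Helper3.Golay
import Cfsg.Agent.Lib.Helper3.Golay2
import Cfsg.Agent.Lib.Helper3.GolayM24
import Cfsg.Agent.Lib.Helper3.M24Perm
import Cfsg.Agent.Lib.Helper3.M24Cert
import Cfsg.Agent.Lib.Helper3.M24Cert2
import Cfsg.Agent.Lib.Helper3.M24Order

set_option autoImplicit false

namespace Cfsg.Agent.Lib.Helper3.M24Gen

open Cfsg Cfsg.Agent.Lib.Helper3.Golay Cfsg.Agent.Lib.Helper3.Golay2
open Cfsg.Agent.Lib.Helper3.GolayM24 Cfsg.Agent.Lib.Helper3.M24Perm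
open Cfsg.Agent.Lib.Helper3.M24Cert Cfsg.Agent.Lib.Helper3.M24Cert2
open Cfsg.Agent.Lib.Helper3.M24Order
open scoped Pointwise

/-- evaluate a word (list of letter indices into the table list `L`) on a point index -/
def wev (L : List ℕ) : List ℕ → ℕ → ℕ
  | [], i => i
  | j :: w, i => ent (L.getD j 0) (wev L w i)

def wordIs (L w : List ℕ) (T : ℕ) : Bool :=
  w.all (fun j => Nat.blt j L.length) &&
    (List.range 24).all (fun i => Nat.beq (wev L w i) (ent T i))

theorem wev_sound (L : List ℕ) (hL : ∀ T ∈ L, good T = true) (w : List ℕ)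
    (hw : ∀ j ∈ w, j < L.length) (i : ℕ) (hi : i < 24) :
    wev L w i < 24 ∧ (w.map (fun j => tp (L.getD j 0))).prod (pt i) = pt (wev L w i) := by
  induction w with
  | nil => exact ⟨hi, rfl⟩
  | cons j w ih =>
    obtain ⟨h1, h2⟩ := ih (fun j' hj' => hw j' (List.mem_cons_of_mem _ hj'))
    have hj : j < L.length := hw j (by simp)
    have hmem : L.getD j 0 ∈ L := by
      rw [List.getD_eq_getElem _ _ hj]
      exact List.getElem_mem hj
    have hg := hL _ hmem
    refine ⟨good_lt hg _ h1, ?_⟩
    rw [List.map_cons, List.prod_cons, Equiv.Perm.mul_apply, h2, tp_pt hg h1]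
    rfl

theorem word_sound {L w : List ℕ} {T : ℕ} (hL : ∀ T ∈ L, good T = true) (hT : good T = true)
    (h : wordIs L w T = true) : tp T = (w.map (fun j => tp (L.getD j 0))).prod := by
  simp only [wordIs, Bool.and_eq_true, List.all_eq_true] at h
  obtain ⟨h1, h2⟩ := h
  have hw : ∀ j ∈ w, j < L.length := fun j hj => by simpa using h1 j hj
  ext p
  have h3 := wev_sound L hL w hw (idx p) (idx_lt p)
  have h4 := h2 (idx p) (List.mem_range.mpr (idx_lt p))
  have h5 := tp_pt hT (idx_lt p)
  rw [pt_idx] at h3 h5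
  rw [h3.2, h5, Nat.eq_of_beq_eq_true h4]

theorem word_mem {L w : List ℕ} {T : ℕ} (hL : ∀ T ∈ L, good T = true) (hT : good T = true)
    (h : wordIs L w T = true) (H : Subgroup (Equiv.Perm GolayPt)) (hH : ∀ T ∈ L, tp T ∈ H) :
    tp T ∈ H := by
  rw [word_sound hL hT h]
  apply Subgroup.list_prod_mem
  intro x hx
  rw [List.mem_map] at hx
  obtain ⟨j, hj, rfl⟩ := hx
  simp only [wordIs, Bool.and_eq_true, List.all_eq_true] at h
  have hj' : j < L.length := by simpa using h.1 j hj
  apply hH
  rw [List.getD_eq_getElem _ _ hj']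
  exact List.getElem_mem hj'

theorem tp_mul_eq_one {T1 T2 : ℕ} (h1 : good T1 = true) (h2 : good T2 = true)
    (h : (List.range 24).all (fun i => Nat.beq (ent T1 (ent T2 i)) i) = true) :
    tp T1 * tp T2 = 1 := by
  rw [List.all_eq_true] at h
  ext p
  have h3 := h (idx p) (List.mem_range.mpr (idx_lt p))
  have h4 := tp_pt h2 (idx_lt p)
  rw [pt_idx] at h4
  rw [Equiv.Perm.mul_apply, h4, tp_pt h1 (good_lt h2 _ (idx_lt p)), Nat.eq_of_beq_eq_true h3,
    pt_idx]
  rfl

/-- one stripping step -/
theorem strip_step (H : Subgroup (Equiv.Perm GolayPt)) {Ds F ts : List ℕ} {b target n : ℕ}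
    (h : levelCheck Ds F ts b target n = true) (hbF : ∀ i ∈ F, i ≠ b)
    (hts : ∀ T ∈ ts, inFix Ds F T = true → tp T ∈ H)
    (hnext : ∀ g ∈ fixG Ds (b :: F), g ∈ H) : ∀ g ∈ fixG Ds F, g ∈ H := by
  intro g hg
  obtain ⟨T, hT, h1, h2⟩ := level_strip h hbF hg
  have h3 := H.mul_mem (hts T hT h1) (hnext _ h2)
  rwa [mul_inv_cancel_left] at h3

def TA : ℕ := 956302485175575353788796878166559809

def TAi : ℕ := 983478296959358443554250846857397270

def TB : ℕ := 1795248432537898728475572672376535

def TC : ℕ := 974380510768821363662145534143076928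

def TCi : ℕ := 980275914351787324191492553553580224

def letters : List ℕ := [TA, TAi, TB, TC, TCi]

def prs1 : List (ℕ × List ℕ) := [(984818244535754528103549039458486304, []), (956302485175575353788796878166559809, [0]), (956709441910203461498593497208492130, [0, 0]), (958020233522794296771657265635857539, [0, 0, 0]), (963195377114051715561686249958000740, [4, 0, 0]), (984676296717505552981297274273957989, [1, 4, 0]), (956160537357326378666545112982031494, [4, 0]), (957500484933721614665615914943746215, [0, 4, 0]), (958839521386248785175031781789406408, [0, 0, 4, 0]), (1887869362175226852015690067619305, [2, 1, 4, 0]), (942037241080947810501063386140525002, [1, 2, 0, 0]), (29492376736006929088146330296305131, [2, 0, 0]), (10645900714548972716251708628098092, [2, 1, 1]), (980437867787330065105992249233295053, [1, 3, 1]), (981777815363726149655290441834383374, [3, 1]), (983088606976316984928354210261748783, [0, 3, 1]), (983152117779141782165456988088042640, [1, 1, 3, 0]), (984492065355537866714755179917379761, [1, 3,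 0]), (955976305995358692400003018625453266, [3, 0]), (962738855677243781453175209801685011, [4, 1]), (980798401806566274455654461655243444, [1, 1, 1]), (982138349382962359004952654256308949, [1, 1]), (983478296959358443554250846857397270, [1]), (1795248432537898728475572672376535, [2])]

def prs2 : List (ℕ × List ℕ) := [(984818244535754528103549039458486304, []), (969952412052033243847481939299780672, [4, 4]), (921841040779540204408771860564877408, [2, 0, 3, 2]), (977864963184960973661438897150854272, [3, 3]), (750656702741329247351360250289734816, [3, 2, 1, 3, 2]), (980275914351787324191492553553580224, [4]), (47262741706065662830885121292843232, [2, 1, 3, 2]), (777801734501304420622289444139054336, [3, 0, 2, 0]), (279269025784547372634341899570815264, [4, 0, 2, 0]), (467974103786776826016790683084534080, [2, 0, 0, 3, 2]), (645267317966049346622286219446798688, [2, 0, 0, 0, 2]), (71492056680133066869724754691572096, [0, 2, 0]), (113673423800671061928254259305066912, [4, 4, 0, 2, 0]), (54035761012835621109457026874419648,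 [2, 1, 4, 2]), (718267961499543993155408709344759264, [2, 0, 0, 0, 0, 2]), (196065326550792329092421710532126208, [3, 3, 0, 2, 0]), (583248065648477679285724359547034144, [2, 1, 4, 1, 2]), (974380510768821363662145534143076928, [3]), (725675049090850571863790881748888160, [4, 2, 0, 0, 2]), (901000497301225483862908679163741824, [2, 0, 4, 4, 1, 2]), (512234834070819196783810307534590624, [2, 1, 1, 3, 2]), (477144491347695089491217979027889856, [2, 0, 0, 2]), (928413874498667716355043516223936224, [1, 2, 1])]

def prs3 : List (ℕ × List ℕ) := [(984818244535754528103549039458486304, []), (984493369334060478447889424982281248, [3, 0, 3, 0, 3, 0]), (962466657604444599622550278829576224, [0, 3, 1, 3, 3, 1, 3, 0, 0]), (430166736302492307431647008563336224, [2, 0, 0, 3, 1, 2]), (626390818534990231288977156952168480, [3, 2, 1, 1, 4, 1, 1, 2]), (759546350256521753387502049232591904, [4, 2, 1, 3, 0, 3, 2]), (630422028889344611264198255755862048, [2, 0, 0, 0, 4, 2]), (979086029861645515049347850276545568, [3, 1, 3, 1, 4, 4, 1, 1]),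 (675866266812294776168851771390306336, [3, 2, 1, 1, 1, 2]), (543087571659445850527680118957190176, [2, 0, 4, 0, 4, 2]), (550599590953755361979249898332631072, [4, 2, 1, 4, 0, 3, 2]), (178650695139721841999090747176563744, [2, 1, 3, 0, 2]), (818480800510764304017671758639347744, [3, 2, 0, 0, 3, 3, 2]), (969948108926309948518270745543654432, [1, 1, 4, 4, 0, 4, 4]), (264377534414962000394923668833386528, [2, 0, 4, 1, 4, 1, 1, 2]), (112507149118360119482138379534222368, [0, 2, 1, 4, 4, 2, 1]), (800119766652513598442882925682903072, [2, 0, 4, 1, 1, 2]), (178489700291289946307718026121989152, [2, 1, 1, 4, 1, 4, 2]), (393465023254853140546941875360550944, [2, 1, 4, 0, 2]), (919567949732340458250564702791881760, [2, 1, 4, 4, 0, 2]), (231761403235377024711390263645558816, [3, 2, 1, 3, 1, 2]), (777116890712175666172299693716266016, [0, 3, 3, 1, 2, 1, 1])]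

def prs4 : List (ℕ × List ℕ) := [(984818244535754528103549039458486304, []), (974422238081544939122441376219924512, [4, 1, 4, 1, 4, 1]), (523539843334956300979449952240568352, [4, 2, 1, 1, 1, 3, 3, 2]), (981563544338578773660441081710577696, [4, 4, 0, 0, 3, 0, 4, 0, 0]), (339423731210982210315572011383097376, [3, 2, 0, 3, 3, 0, 4, 0, 0, 4, 2]), (379499243100779628469086650235095072, [0, 0, 0, 4, 0, 2, 0, 0, 0, 0, 0]), (306799559382010528654683005413263392, [4, 2, 0, 4, 1, 3, 3, 1, 2]), (222108513377072883390835412657571872, [2, 0, 0, 0, 0, 3, 0, 4, 0, 2]), (981473988778430737395726997924448288, [2, 1, 3, 1, 3, 1, 4, 4, 1, 2]), (808142657167580517422000508671232032, [4, 1, 4, 2, 0, 0, 0, 3, 1, 3, 0]), (439123646137318742659859448397727776, [2, 0, 4, 4, 0, 3, 1, 3, 2]), (969230734367802084062008899275261984, [3, 0, 0, 0, 3, 3, 1, 4, 0]), (854316894270893805294351665054844960, [0, 3, 2, 0, 0, 3, 3, 2, 1]), (777693085096396660330996520015366176, [2, 1, 1, 4, 1, 4, 1, 3, 0, 2]), (966624404310788219917185392308684832, [1,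 3, 0, 4, 4, 1, 1, 1, 4]), (153883565682713105501307978322085920, [0, 0, 2, 1, 4, 4, 2, 1, 1]), (640686708447926916167065947366590496, [4, 4, 2, 0, 0, 0, 3, 2]), (510355393284864701916778918421596192, [1, 4, 2, 1, 4, 0, 3, 2, 0, 4]), (972640828999828289679814619323598880, [4, 1, 3, 1, 3, 1, 4, 0, 3, 0]), (844402641096330157728268866622785568, [3, 3, 0, 2, 1, 3, 2, 1, 3, 2, 1]), (818361401632695826709629394574084128, [0, 0, 3, 3, 1, 2, 1, 1, 1])]

def prs5 : List (ℕ × List ℕ) := [(984818244535754528103549039458486304, []), (178465764388246049219584176799451168, [2, 0, 4, 0, 4, 0, 0, 3, 0, 0, 4, 2]), (518883083974777233938794043913898016, [3, 2, 0, 0, 0, 0, 3, 0, 4, 1, 1, 4, 2]), (819913499695175823355100807149226016, [4, 1, 2, 0, 3, 0, 4, 1, 1, 4, 0, 0]), (422328465285653677112255727873919008, [2, 0, 0, 4, 0, 4, 1, 3, 1, 3, 3, 2]), (692105835552860372121761488842098720, [2, 0, 3, 1, 1, 4, 0, 3, 1, 4, 2]), (714779504765739530547128581499226144, [0, 0, 4, 0, 2, 1, 3, 2, 0, 0, 3, 2, 0]), (979037747421335847153138073498388512,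 [1, 3, 3, 1, 4, 0, 3, 0, 0, 0, 0]), (970499966350631336865513127433832480, [3, 3, 1, 4, 1, 1, 1, 3, 0, 3, 3, 0]), (384450725906006111125412284007024672, [0, 3, 0, 4, 1, 1, 4, 0, 4, 2, 0, 4, 2]), (836751698788145288111536649279735840, [2, 1, 4, 4, 0, 4, 4, 1, 1, 4, 2]), (844648959219484505333127564403771424, [3, 2, 0, 4, 1, 3, 0, 0, 4, 1, 2]), (195468142847917814532155631636416544, [4, 1, 4, 0, 0, 0, 3, 2, 1, 4, 0, 0]), (181213921954708486798546969822332960, [3, 3, 2, 1, 3, 3, 0, 0, 0, 3, 1, 1, 2]), (528949020781894515397114233503189024, [2, 0, 0, 4, 1, 3, 2, 0, 0, 0, 0, 4, 1]), (190238046788852435141939349955905568, [0, 0, 0, 2, 1, 4, 4, 2, 1, 1, 1]), (968621477650857569167789942210922528, [1, 1, 1, 1, 4, 1, 3, 0, 4, 4, 0]), (924948091847453911283766110075324448, [4, 1, 4, 1, 3, 3, 2, 1, 1, 4, 2, 1]), (523721810311161253610924659699714080, [3, 2, 0, 0, 3, 3, 1, 3, 3, 0, 2]), (850496130172703712028616732376664096, [0, 0, 0, 3, 3, 1, 2, 1, 1, 1, 1])]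

def prs6 : List (ℕ × List ℕ) := [(984818244535754528103549039458486304, [1, 0]), (233256162770680474255234529480509472, [0, 4, 1, 4, 0, 0, 0, 3, 2, 1, 4, 0]), (734193695561696696727012081653614624, [1, 3, 0, 2, 4, 1, 1, 1, 3, 0, 3, 1])]

def prs7 : List (ℕ × List ℕ) := [(984818244535754528103549039458486304, [1, 0]), (479663310730678034207776437455390752, [1, 3, 3, 0, 0, 2, 0, 0, 3, 1, 4, 1, 1, 1, 1, 1, 3, 2]), (651239579074641248992907580101724192, [1, 3, 1, 3, 1, 3, 1, 2, 0, 3, 3, 0, 4, 1, 4, 0]), (944319304547998642267612847938832416, [1, 2, 4, 0, 0, 0, 4, 1, 4, 4, 0, 4, 0, 4]), (268195153026948482477577069584812064, [3, 0, 3, 1, 4, 4, 1, 1, 4, 4, 2, 0, 0, 0, 3, 3, 1]), (772944516003414818434737759861180448, [1, 4, 1, 2, 4, 1, 1, 1, 4, 0, 4, 1, 4, 1, 4, 4]), (720981692062171673584743151055243296, [2, 1, 4, 1, 2, 4, 0, 0, 2, 1, 4, 0, 3, 0, 2, 0, 0]), (358662142733855540651195105552730144, [0, 0, 4, 0, 2, 3, 3, 0, 0, 3, 1, 1, 3, 0, 0]), (812852730107173232200347929486133280, [0, 4, 1, 2, 0, 3, 0, 2, 0, 0, 4, 2, 1,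 4, 0]), (590072960059042287979885064796342304, [2, 0, 4, 0, 2, 1, 1, 3, 0, 4, 4, 2, 0, 3, 1]), (561475773312554808336860583768983584, [1, 1, 1, 2, 0, 0, 4, 0, 2, 0, 0, 0, 4, 2, 0, 0]), (681942991418186671700734416290678816, [0, 2, 0, 4, 4, 0, 4, 0, 0, 3, 1, 4, 0, 4, 2, 1]), (892716570080838209712931004353710112, [0, 2, 0, 3, 1, 4, 1, 4, 1, 4, 4, 1, 2, 1]), (841384528646309054241536335100872736, [1, 4, 4, 0, 4, 4, 0, 4, 4, 1, 1, 4, 2, 0, 3, 1]), (380679813245078647833929983948064800, [1, 1, 2, 0, 0, 2, 4, 4, 0, 3, 1, 3, 0, 4, 1, 1, 3, 0]), (220213109803259289183002082616117280, [3, 0, 4, 1, 4, 1, 3, 1, 3, 1, 3, 0, 2, 1, 1, 3, 1])]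

theorem glvl1 : levelCheck [] [] (prs1.map Prod.fst) 0 16777215 24 = true := by
  decide +kernel

theorem gw1 : prs1.all (fun pw => wordIs letters pw.2 pw.1) = true := by
  decide +kernel

theorem glvl2 : levelCheck [] [0] (prs2.map Prod.fst) 1 16777214 23 = true := by
  decide +kernel

theorem gw2 : prs2.all (fun pw => wordIs letters pw.2 pw.1) = true := by
  decide +kernel

theorem glvl3 : levelCheck [] [1, 0] (prs3.map Prod.fst) 2 16777212 22 = true := by
  decide +kernel

theorem gw3 : prs3.all (fun pw => wordIs letters pw.2 pw.1) = true := by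
  decide +kernel

theorem glvl4 : levelCheck [] [2, 1, 0] (prs4.map Prod.fst) 3 16777208 21 = true := by
  decide +kernel

theorem gw4 : prs4.all (fun pw => wordIs letters pw.2 pw.1) = true := by
  decide +kernel

theorem glvl5 : levelCheck [] [3, 2, 1, 0] (prs5.map Prod.fst) 4 16777200 20 = true := by
  decide +kernel

theorem gw5 : prs5.all (fun pw => wordIs letters pw.2 pw.1) = true := by
  decide +kernel

theorem glvl6 : levelCheck [cw 345] [4, 3, 2, 1, 0] (prs6.map Prod.fst) 7 5248 3 = true := by
  decide +kernel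

theorem gw6 : prs6.all (fun pw => wordIs letters pw.2 pw.1) = true := by
  decide +kernel

theorem glvl7 : levelCheck [cw 345] [7, 4, 3, 2, 1, 0] (prs7.map Prod.fst) 5 16771936 16 = true := by
  decide +kernel

theorem gw7 : prs7.all (fun pw => wordIs letters pw.2 pw.1) = true := by
  decide +kernel

theorem letters_good : ∀ T ∈ letters, good T = true := by
  decide +kernel

theorem goodA : good TA = true := letters_good TA (by simp [letters])
theorem goodAi : good TAi = true := letters_good TAi (by simp [letters])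
theorem goodB : good TB = true := letters_good TB (by simp [letters])
theorem goodC : good TC = true := letters_good TC (by simp [letters])
theorem goodCi : good TCi = true := letters_good TCi (by simp [letters])

theorem tfunA : ∀ p : GolayPt, tfun TA p = Equiv.optionCongr (Equiv.addRight (1 : ZMod 23)) p := by
  decide +kernel

theorem tfunB : ∀ p : GolayPt, tfun TB p = projInvFun p := by
  decide +kernel

theorem tfunC : ∀ p : GolayPt, tfun TC p = cubeTwistFun p := by
  decide +kernel

theorem tpA : tp TA = Equiv.optionCongr (Equiv.addRight (1 : ZMod 23)) := by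
  ext p
  rw [tp_apply goodA, tfunA]

theorem tpB : tp TB = projInv := by
  ext p
  rw [tp_apply goodB, tfunB]
  rfl

theorem tpC : tp TC = cubeTwist := by
  ext p
  rw [tp_apply goodC, tfunC]
  rfl

theorem invA : (List.range 24).all (fun i => Nat.beq (ent TA (ent TAi i)) i) = true := by
  decide +kernel

theorem invC : (List.range 24).all (fun i => Nat.beq (ent TC (ent TCi i)) i) = true := by
  decide +kernel

theorem tpAi : tp TAi = (tp TA)⁻¹ :=
  (inv_eq_of_mul_eq_one_right (tp_mul_eq_one goodA goodAi invA)).symm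

theorem tpCi : tp TCi = (tp TC)⁻¹ :=
  (inv_eq_of_mul_eq_one_right (tp_mul_eq_one goodC goodCi invC)).symm

/-- the subgroup generated by the three named permutations -/
def genH : Subgroup (Equiv.Perm GolayPt) :=
  Subgroup.closure {Equiv.optionCongr (Equiv.addRight (1 : ZMod 23)), projInv, cubeTwist}

theorem letters_mem : ∀ T ∈ letters, tp T ∈ genH := by
  have hA : tp TA ∈ genH := by
    rw [tpA]
    exact Subgroup.subset_closure (by simp)
  have hB : tp TB ∈ genH := by
    rw [tpB]
    exact Subgroup.subset_closure (by simp)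
  have hC : tp TC ∈ genH := by
    rw [tpC]
    exact Subgroup.subset_closure (by simp)
  intro T hT
  simp only [letters, List.mem_cons, List.not_mem_nil, or_false] at hT
  rcases hT with rfl | rfl | rfl | rfl | rfl
  · exact hA
  · rw [tpAi]
    exact genH.inv_mem hA
  · exact hB
  · exact hC
  · rw [tpCi]
    exact genH.inv_mem hC

theorem prs_mem {prs : List (ℕ × List ℕ)} {Ds F : List ℕ}
    (h : prs.all (fun pw => wordIs letters pw.2 pw.1) = true) :
    ∀ T ∈ prs.map Prod.fst, inFix Ds F T = true → tp T ∈ genH := by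
  intro T hT hfix
  rw [List.mem_map] at hT
  obtain ⟨⟨T', w⟩, hpw, rfl⟩ := hT
  rw [List.all_eq_true] at h
  exact word_mem letters_good (inFix_good hfix) (h _ hpw) genH letters_mem

theorem M24_le_genH : M24 ≤ genH := by
  have h7 : ∀ g ∈ fixG [cw 345] [5, 7, 4, 3, 2, 1, 0], g ∈ genH := by
    intro g hg
    rw [fix7_eq_bot, Subgroup.mem_bot] at hg
    rw [hg]
    exact genH.one_mem
  have h6 := strip_step genH glvl7 (by decide) (prs_mem gw7) h7
  have h5 := strip_step genH glvl6 (by decide) (prs_mem gw6) h6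
  rw [← fix5_eq] at h5
  have h4 := strip_step genH glvl5 (by decide) (prs_mem gw5) h5
  have h3 := strip_step genH glvl4 (by decide) (prs_mem gw4) h4
  have h2 := strip_step genH glvl3 (by decide) (prs_mem gw3) h3
  have h1 := strip_step genH glvl2 (by decide) (prs_mem gw2) h2
  have h0 := strip_step genH glvl1 (by decide) (prs_mem gw1) h1
  rw [fixG_nil] at h0
  exact h0

theorem genH_eq : genH = M24 := by
  apply le_antisymm
  · unfold genH
    rw [Subgroup.closure_le]
    intro x hx
    simp only [Set.mem_insert_iff, Set.mem_singleton_iff] at hx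
    rcases hx with rfl | rfl | rfl
    · exact shift_mem
    · exact projInv_mem
    · exact cubeTwist_mem
  · exact M24_le_genH

end Cfsg.Agent.Lib.Helper3.M24Gen
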