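import Mathlib
import Cfsg.Prelude.Def_Sporadic_a
import Cfsg.Agent.Lib.Helper3.Golay
import Cfsg.Agent.Lib.Helper3.M24Perm
import Cfsg.Agent.Lib.Helper3.M24Cert
import Cfsg.Agent.Lib.Helper3.M24Cert2
import Cfsg.Agent.Lib.Helper3.M24Gen

set_option autoImplicit false

namespace Cfsg.Agent.Lib.Helper3.SimpleCert

open Cfsg Cfsg.Agent.Lib.Helper3.Golay Cfsg.Agent.Lib.Helper3.M24Perm Cfsg.Agent.Lib.Helper3.M24Cert
open Cfsg.Agent.Lib.Helper3.M24Cert2 Cfsg.Agent.Lib.Helper3.M24Gen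
open scoped Pointwise

theorem tp_comp_eq {T1 T2 T3 T4 : ℕ} (h1 : good T1 = true) (h2 : good T2 = true)
    (h3 : good T3 = true) (h4 : good T4 = true)
    (h : (List.range 24).all (fun i => Nat.beq (ent T1 (ent T2 i)) (ent T3 (ent T4 i))) = true) :
    tp T1 * tp T2 = tp T3 * tp T4 := by
  rw [List.all_eq_true] at h
  apply Equiv.ext
  intro p
  have h5 := h (idx p) (List.mem_range.mpr (idx_lt p))
  have e2 := tp_pt h2 (idx_lt p)
  have e4 := tp_pt h4 (idx_lt p)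
  rw [pt_idx] at e2 e4
  rw [Equiv.Perm.mul_apply, Equiv.Perm.mul_apply, e2, e4,
    tp_pt h1 (good_lt h2 _ (idx_lt p)), tp_pt h3 (good_lt h4 _ (idx_lt p)),
    Nat.eq_of_beq_eq_true h5]

theorem tp_pow_pt {T : ℕ} (hg : good T = true) (n : ℕ) :
    ∀ i < 24, (ent T)^[n] i < 24 ∧ (tp T ^ n) (pt i) = pt ((ent T)^[n] i) := by
  induction n with
  | zero =>
    intro i hi
    exact ⟨hi, rfl⟩
  | succ n ih =>
    intro i hi
    have h1 := ih (ent T i) (good_lt hg i hi)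
    rw [Function.iterate_succ_apply]
    refine ⟨h1.1, ?_⟩
    rw [pow_succ, Equiv.Perm.mul_apply, tp_pt hg hi, h1.2]

theorem tp_pow_eq_one {T : ℕ} (hg : good T = true) (n : ℕ)
    (h : (List.range 24).all (fun i => Nat.beq ((ent T)^[n] i) i) = true) : tp T ^ n = 1 := by
  rw [List.all_eq_true] at h
  apply Equiv.ext
  intro p
  have h1 := (tp_pow_pt hg n (idx p) (idx_lt p)).2
  rw [pt_idx] at h1
  rw [h1, Nat.eq_of_beq_eq_true (h (idx p) (List.mem_range.mpr (idx_lt p))), pt_idx]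
  rfl

theorem tp_ne_one {T : ℕ} (hg : good T = true)
    (h : (List.range 24).any (fun i => !(Nat.beq (ent T i) i)) = true) : tp T ≠ 1 := by
  rw [List.any_eq_true] at h
  obtain ⟨i, hi, h1⟩ := h
  have hi' : i < 24 := List.mem_range.mp hi
  intro hc
  have h2 := tp_pt hg hi'
  rw [hc] at h2
  have h3 : i = ent T i := pt_injOn hi' (good_lt hg i hi') h2
  rw [← h3] at h1
  simp at h1

/-- order of an explicit element of prime order -/
theorem orderOf_tp {K : Subgroup (Equiv.Perm GolayPt)} {T : ℕ} (hK : tp T ∈ K)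
    (hg : good T = true) (p : ℕ) [hp : Fact p.Prime]
    (h1 : (List.range 24).all (fun i => Nat.beq ((ent T)^[p] i) i) = true)
    (h2 : (List.range 24).any (fun i => !(Nat.beq (ent T i) i)) = true) :
    orderOf (⟨tp T, hK⟩ : ↥K) = p := by
  apply orderOf_eq_prime
  · apply Subtype.ext
    rw [Subgroup.coe_pow]
    exact tp_pow_eq_one hg p h1
  · intro hc
    exact tp_ne_one hg h2 (congrArg Subtype.val hc)

def conjCheck (Ds F : List ℕ) (Tz : ℕ) (conjs : List (ℕ × ℕ)) : Bool :=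
  conjs.all (fun lg => good lg.1 && inFix Ds F lg.2 &&
    (List.range 24).all (fun i => Nat.beq (ent lg.1 (ent lg.2 i)) (ent lg.2 (ent Tz i))))

def invCheck (conjs invs : List (ℕ × ℕ)) : Bool :=
  invs.all (fun li => good li.1 && conjs.any (fun lg => Nat.beq lg.1 li.2) &&
    (List.range 24).all (fun i => Nat.beq (ent li.2 (ent li.1 i)) i))

def coverCheck (conjs invs : List (ℕ × ℕ)) (L : List ℕ) : Bool :=
  L.all (fun T => conjs.any (fun lg => Nat.beq lg.1 T) || invs.any (fun li => Nat.beq li.1 T))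

/-- the normal closure of `z` inside `K`, as a subgroup of the ambient group -/
def nc (K : Subgroup (Equiv.Perm GolayPt)) (z : ↥K) : Subgroup (Equiv.Perm GolayPt) :=
  (Subgroup.normalClosure {z}).map K.subtype

theorem conj_mem_nc {Ds F : List ℕ} {Tz : ℕ} (hz : inFix Ds F Tz = true)
    {conjs : List (ℕ × ℕ)} (h1 : conjCheck Ds F Tz conjs = true) :
    ∀ lg ∈ conjs, good lg.1 = true ∧ tp lg.1 ∈ nc (fixG Ds F) ⟨tp Tz, tp_mem_fixG hz⟩ := by
  intro lg hlg
  unfold conjCheck at h1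
  rw [List.all_eq_true] at h1
  have h2 := h1 lg hlg
  simp only [Bool.and_eq_true] at h2
  obtain ⟨⟨hgl, hfix⟩, heq⟩ := h2
  refine ⟨hgl, ?_⟩
  have hgg := inFix_good hfix
  have hgz := inFix_good hz
  have e1 := tp_comp_eq hgl hgg hgg hgz heq
  have e2 : tp lg.1 = tp lg.2 * tp Tz * (tp lg.2)⁻¹ := by
    rw [← e1]
    group
  unfold nc
  rw [Subgroup.mem_map]
  refine ⟨⟨tp lg.2, tp_mem_fixG hfix⟩ * ⟨tp Tz, tp_mem_fixG hz⟩ * ⟨tp lg.2, tp_mem_fixG hfix⟩⁻¹,
    ?_, ?_⟩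
  · exact (Subgroup.normalClosure_normal).conj_mem _
      (Subgroup.subset_normalClosure (Set.mem_singleton _)) _
  · rw [e2]
    rfl

theorem letters_mem_nc {Ds F : List ℕ} {Tz : ℕ} (hz : inFix Ds F Tz = true)
    {conjs invs : List (ℕ × ℕ)} {L : List ℕ} (h1 : conjCheck Ds F Tz conjs = true)
    (h2 : invCheck conjs invs = true) (h3 : coverCheck conjs invs L = true) :
    ∀ T ∈ L, good T = true ∧ tp T ∈ nc (fixG Ds F) ⟨tp Tz, tp_mem_fixG hz⟩ := by
  intro T hT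
  unfold coverCheck at h3
  rw [List.all_eq_true] at h3
  have h4 := h3 T hT
  simp only [Bool.or_eq_true, List.any_eq_true] at h4
  rcases h4 with ⟨lg, hlg, h5⟩ | ⟨li, hli, h5⟩
  · rw [← Nat.eq_of_beq_eq_true h5]
    exact conj_mem_nc hz h1 lg hlg
  · rw [← Nat.eq_of_beq_eq_true h5]
    unfold invCheck at h2
    rw [List.all_eq_true] at h2
    have h6 := h2 li hli
    simp only [Bool.and_eq_true, List.any_eq_true] at h6
    obtain ⟨⟨hgi, ⟨lg, hlg, h7⟩⟩, h8⟩ := h6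
    have h9 := conj_mem_nc hz h1 lg hlg
    rw [Nat.eq_of_beq_eq_true h7] at h9
    refine ⟨hgi, ?_⟩
    have e1 := tp_mul_eq_one h9.1 hgi h8
    have e2 : tp li.1 = (tp li.2)⁻¹ := (inv_eq_of_mul_eq_one_right e1).symm
    rw [e2]
    exact Subgroup.inv_mem _ h9.2

theorem nc_eq_top {K : Subgroup (Equiv.Perm GolayPt)} {z : ↥K} (h : ∀ g ∈ K, g ∈ nc K z) :
    Subgroup.normalClosure {z} = ⊤ := by
  rw [Subgroup.eq_top_iff']
  intro k
  have h1 := h k.1 k.2
  unfold nc at h1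
  rw [Subgroup.mem_map] at h1
  obtain ⟨k', hk', h2⟩ := h1
  have h3 : k' = k := Subtype.ext h2
  rw [← h3]
  exact hk'

theorem prs_mem' {L : List ℕ} {H : Subgroup (Equiv.Perm GolayPt)}
    (hL : ∀ T ∈ L, good T = true ∧ tp T ∈ H) {prs : List (ℕ × List ℕ)} {Ds F : List ℕ}
    (h : prs.all (fun pw => wordIs L pw.2 pw.1) = true) :
    ∀ T ∈ prs.map Prod.fst, inFix Ds F T = true → tp T ∈ H := by
  intro T hT hfix
  rw [List.mem_map] at hT
  obtain ⟨⟨T', w⟩, hpw, rfl⟩ := hT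
  rw [List.all_eq_true] at h
  exact word_mem (fun T hT => (hL T hT).1) (inFix_good hfix) (h _ hpw) H
    (fun T hT => (hL T hT).2)

end Cfsg.Agent.Lib.Helper3.SimpleCert
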