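import Mathlib
import Cfsg.Prelude.Def_Sporadic_a
import Cfsg.Agent.Lib.Helper3.Golay
import Cfsg.Agent.Lib.Helper3.Golay2
import Cfsg.Agent.Lib.Helper3.GolayM24
import Cfsg.Agent.Lib.Helper3.M24Perm
import Cfsg.Agent.Lib.Helper3.M24Cert
import Cfsg.Agent.Lib.Helper3.M24Cert2
import Cfsg.Agent.Lib.Helper3.M24Order
import Cfsg.Agent.Lib.Helper3.M24Trans
import Cfsg.Agent.Lib.Helper3.M24Dod
import Cfsg.Agent.Lib.Helper3.M24Oct
import Cfsg.Agent.Lib.Helper3.M24Gen
import Cfsg.Agent.Lib.Helper3.SimpleTools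
import Cfsg.Agent.Lib.Helper3.SimpleCert
import Cfsg.Agent.Lib.Helper3.M24Simple1

set_option autoImplicit false

namespace Cfsg.Agent.Lib.Helper3.M24Simple2

open Cfsg Cfsg.Agent.Lib.Helper3.Golay Cfsg.Agent.Lib.Helper3.Golay2
open Cfsg.Agent.Lib.Helper3.GolayM24 Cfsg.Agent.Lib.Helper3.M24Perm
open Cfsg.Agent.Lib.Helper3.M24Cert Cfsg.Agent.Lib.Helper3.M24Cert2
open Cfsg.Agent.Lib.Helper3.M24Order Cfsg.Agent.Lib.Helper3.M24Trans
open Cfsg.Agent.Lib.Helper3.M24Dod Cfsg.Agent.Lib.Helper3.M24Gen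
open Cfsg.Agent.Lib.Helper3.SimpleTools Cfsg.Agent.Lib.Helper3.SimpleCert
open Cfsg.Agent.Lib.Helper3.M24Simple1
open scoped Pointwise

theorem pt01 : pt 0 ≠ pt 1 := by decide

/-! ### M23 = stabiliser of `pt 0` -/

theorem trans23 (p q p' q' : GolayPt) (hp : p ≠ pt 0) (hq : q ≠ pt 0) (hp' : p' ≠ pt 0)
    (hq' : q' ≠ pt 0) (hpq : p ≠ q) (hpq' : p' ≠ q') :
    ∃ g : ↥(fixG [] [0]), g • p = p' ∧ g • q = q' := by
  obtain ⟨g, hg, h0, h1, h2⟩ := trans3 (pt 0) p q (pt 0) p' q' (Ne.symm hp) (Ne.symm hq) hpq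
    (Ne.symm hp') (Ne.symm hq') hpq'
  exact ⟨⟨g, hg, by simp, by simpa using h0⟩, h1, h2⟩

theorem simple23 : IsSimpleGroup ↥(fixG [] [0]) := by
  have : Fact (Nat.Prime 23) := ⟨by norm_num⟩
  apply simple_of_normalClosure 23 (by rw [card23]; norm_num) _ order23 nc23
  intro N hn hbot
  have hS : ∀ g : ↥(fixG [] [0]), ∀ x ∈ ({pt 0}ᶜ : Set GolayPt), g • x ∈ ({pt 0}ᶜ : Set GolayPt) := by
    intro g x hx
    rw [Set.mem_compl_iff, Set.mem_singleton_iff] at hx ⊢
    intro hc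
    apply hx
    have h0 : (g : Equiv.Perm GolayPt) (pt 0) = pt 0 := g.2.2.2 0 (by simp)
    have hc' : (g : Equiv.Perm GolayPt) x = pt 0 := hc
    rw [← h0] at hc'
    exact (g : Equiv.Perm GolayPt).injective hc'
  have ht := normal_trans (G := ↥(fixG [] [0])) ({pt 0}ᶜ : Set GolayPt) hS
    (fun p hp q hq p' hp' q' hq' hpq hpq' => trans23 p q p' q' hp hq hp' hq' hpq hpq')
    (by
      intro g hg
      by_contra hcon
      push Not at hcon
      apply hg
      apply Subtype.ext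
      apply Equiv.ext
      intro x
      by_cases hx : x = pt 0
      · rw [hx]
        exact g.2.2.2 0 (by simp)
      · exact hcon x hx) N hbot
  have h1 : pt 1 ∈ ({pt 0}ᶜ : Set GolayPt) := by
    rw [Set.mem_compl_iff, Set.mem_singleton_iff]
    exact Ne.symm pt01
  have hd := card_dvd_of_trans N ({pt 0}ᶜ : Set GolayPt) (pt 1) (fun n _ => hS n _ h1)
    (ht _ h1)
  rw [Set.ncard_compl, Set.ncard_singleton, Nat.card_eq_fintype_card, card_golayPt] at hd
  exact hd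

/-! ### M22 = stabiliser of `pt 0` and `pt 1` -/

theorem trans22 (p q p' q' : GolayPt) (hp : p ∉ ({pt 0, pt 1} : Set GolayPt))
    (hq : q ∉ ({pt 0, pt 1} : Set GolayPt)) (hp' : p' ∉ ({pt 0, pt 1} : Set GolayPt))
    (hq' : q' ∉ ({pt 0, pt 1} : Set GolayPt)) (hpq : p ≠ q) (hpq' : p' ≠ q') :
    ∃ g : ↥(fixG [] [1, 0]), g • p = p' ∧ g • q = q' := by
  simp only [Set.mem_insert_iff, Set.mem_singleton_iff, not_or] at hp hq hp' hq'
  obtain ⟨σ, hσ, e0, e1, e2, e3⟩ := map4 (pt 0) (pt 1) p q pt01 (Ne.symm hp.1) (Ne.symm hp.2)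
    (Ne.symm hq.1) (Ne.symm hq.2) hpq
  obtain ⟨τ, hτ, f0, f1, f2, f3⟩ := map4 (pt 0) (pt 1) p' q' pt01 (Ne.symm hp'.1)
    (Ne.symm hp'.2) (Ne.symm hq'.1) (Ne.symm hq'.2) hpq'
  rw [fixG_nil] at hσ hτ
  have a0 : (τ * σ⁻¹) (pt 0) = pt 0 := by
    rw [Equiv.Perm.mul_apply]
    conv_lhs => rw [← e0]
    rw [Equiv.Perm.coe_inv, Equiv.symm_apply_apply, f0]
  have a1 : (τ * σ⁻¹) (pt 1) = pt 1 := by
    rw [Equiv.Perm.mul_apply]
    conv_lhs => rw [← e1]
    rw [Equiv.Perm.coe_inv, Equiv.symm_apply_apply, f1]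
  refine ⟨⟨τ * σ⁻¹, M24.mul_mem hτ (M24.inv_mem hσ), by simp, ?_⟩, ?_, ?_⟩
  · intro i hi
    simp only [List.mem_cons, List.not_mem_nil, or_false] at hi
    rcases hi with rfl | rfl
    · exact a1
    · exact a0
  · show (τ * σ⁻¹) p = p'
    rw [Equiv.Perm.mul_apply, ← e2, Equiv.Perm.coe_inv, Equiv.symm_apply_apply, f2]
  · show (τ * σ⁻¹) q = q'
    rw [Equiv.Perm.mul_apply, ← e3, Equiv.Perm.coe_inv, Equiv.symm_apply_apply, f3]

theorem simple22 : IsSimpleGroup ↥(fixG [] [1, 0]) := by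
  have : Fact (Nat.Prime 11) := ⟨by norm_num⟩
  apply simple_of_normalClosure 11 (by rw [card22]; norm_num) _ order22 nc22
  intro N hn hbot
  have hfix0 : ∀ g : ↥(fixG [] [1, 0]), (g : Equiv.Perm GolayPt) (pt 0) = pt 0 :=
    fun g => g.2.2.2 0 (by simp)
  have hfix1 : ∀ g : ↥(fixG [] [1, 0]), (g : Equiv.Perm GolayPt) (pt 1) = pt 1 :=
    fun g => g.2.2.2 1 (by simp)
  have hS : ∀ g : ↥(fixG [] [1, 0]), ∀ x ∈ ({pt 0, pt 1}ᶜ : Set GolayPt),
      g • x ∈ ({pt 0, pt 1}ᶜ : Set GolayPt) := by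
    intro g x hx
    simp only [Set.mem_compl_iff, Set.mem_insert_iff, Set.mem_singleton_iff, not_or] at hx ⊢
    constructor
    · intro hc
      apply hx.1
      have hc' : (g : Equiv.Perm GolayPt) x = pt 0 := hc
      rw [← hfix0 g] at hc'
      exact (g : Equiv.Perm GolayPt).injective hc'
    · intro hc
      apply hx.2
      have hc' : (g : Equiv.Perm GolayPt) x = pt 1 := hc
      rw [← hfix1 g] at hc'
      exact (g : Equiv.Perm GolayPt).injective hc'
  have ht := normal_trans (G := ↥(fixG [] [1, 0])) ({pt 0, pt 1}ᶜ : Set GolayPt) hS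
    (fun p hp q hq p' hp' q' hq' hpq hpq' => trans22 p q p' q' hp hq hp' hq' hpq hpq')
    (by
      intro g hg
      by_contra hcon
      push Not at hcon
      apply hg
      apply Subtype.ext
      apply Equiv.ext
      intro x
      by_cases hx : x ∈ ({pt 0, pt 1} : Set GolayPt)
      · simp only [Set.mem_insert_iff, Set.mem_singleton_iff] at hx
        rcases hx with rfl | rfl
        · exact hfix0 g
        · exact hfix1 g
      · exact hcon x hx) N hbot
  have h2 : pt 2 ∈ ({pt 0, pt 1}ᶜ : Set GolayPt) := by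
    simp only [Set.mem_compl_iff, Set.mem_insert_iff, Set.mem_singleton_iff, not_or]
    decide
  have hd := card_dvd_of_trans N ({pt 0, pt 1}ᶜ : Set GolayPt) (pt 2) (fun n _ => hS n _ h2)
    (ht _ h2)
  rw [Set.ncard_compl, Set.ncard_pair pt01, Nat.card_eq_fintype_card, card_golayPt] at hd
  exact Dvd.dvd.trans (by norm_num) hd

/-! ### M12 = stabiliser of the standard dodecad, M11 = stabiliser of a point in it -/

theorem d0_bit (i : ℕ) (hi : i ∈ ([0, 1, 2, 3, 4] : List ℕ)) : pt i ∈ ms (cw 1) := by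
  have h24 : i < 24 := by
    revert i
    decide
  rw [pt_mem_ms h24]
  exact d0_bits i hi

/-- two prescribed images in the standard dodecad. -/
theorem dframe2 (p q : GolayPt) (hp : p ∈ ms (cw 1)) (hq : q ∈ ms (cw 1)) (hpq : p ≠ q) :
    ∃ τ ∈ fixG [cw 1] [], τ (pt 0) = p ∧ τ (pt 1) = q := by
  have hy2 : ∀ (y : GolayPt), y ∈ ms (cw 1) → ∀ (b : ℕ), b ∈ ([0, 1, 2, 3, 4] : List ℕ) →
      ∀ D ∈ [cw 1], (y ∈ ms D ↔ D.testBit b = true) := by
    intro y hy b hb D hD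
    rw [List.mem_singleton] at hD
    subst hD
    exact iff_of_true hy (d0_bits b hb)
  obtain ⟨τ1, hτ1, a1, -⟩ := level_extend dl1 (σ := 1) (fixG [cw 1] []).one_mem (y := p)
    (by simp) (hy2 p hp 0 (by simp))
  obtain ⟨τ2, hτ2, a2, b2⟩ := level_extend dl2 hτ1 (y := q)
    (by
      simp only [List.mem_singleton, forall_eq]
      rw [a1]
      exact hpq) (hy2 q hq 1 (by simp))
  simp only [List.mem_singleton, forall_eq] at b2
  exact ⟨τ2, hτ2, by rw [b2, a1], a2⟩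

/-- two prescribed images in the standard dodecad, fixing `pt 0`. -/
theorem dframe3 (p q : GolayPt) (hp : p ∈ ms (cw 1)) (hq : q ∈ ms (cw 1)) (hp0 : p ≠ pt 0)
    (hq0 : q ≠ pt 0) (hpq : p ≠ q) :
    ∃ τ ∈ fixG [cw 1] [0], τ (pt 1) = p ∧ τ (pt 2) = q := by
  have hy2 : ∀ (y : GolayPt), y ∈ ms (cw 1) → ∀ (b : ℕ), b ∈ ([0, 1, 2, 3, 4] : List ℕ) →
      ∀ D ∈ [cw 1], (y ∈ ms D ↔ D.testBit b = true) := by
    intro y hy b hb D hD
    rw [List.mem_singleton] at hD
    subst hD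
    exact iff_of_true hy (d0_bits b hb)
  obtain ⟨τ1, hτ1, a1, b1⟩ := level_extend dl2 (σ := 1) (fixG [cw 1] []).one_mem (y := p)
    (by
      simp only [List.mem_singleton, forall_eq]
      exact Ne.symm hp0) (hy2 p hp 1 (by simp))
  simp only [List.mem_singleton, forall_eq] at b1
  have b1' : τ1 (pt 0) = pt 0 := b1
  obtain ⟨τ2, hτ2, a2, b2⟩ := level_extend dl3 hτ1 (y := q)
    (by
      simp only [List.forall_mem_cons, List.not_mem_nil, false_imp_iff, implies_true, and_true]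
      rw [a1, b1']
      exact ⟨hpq, Ne.symm hq0⟩) (hy2 q hq 2 (by simp))
  simp only [List.forall_mem_cons, List.not_mem_nil, false_imp_iff, implies_true, and_true] at b2
  refine ⟨τ2, ⟨hτ2.1, hτ2.2.1, ?_⟩, by rw [b2.1, a1], a2⟩
  intro i hi
  rw [List.mem_singleton] at hi
  rw [hi, b2.2, b1']

/-- an element of `M24` fixing the standard dodecad pointwise is trivial. -/
theorem eq_one_of_fix_d0 {g : Equiv.Perm GolayPt} (hg : g ∈ M24)
    (h : ∀ x ∈ ms (cw 1), g x = x) : g = 1 := by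
  have h1 : g ∈ fixG [cw 1] [4, 3, 2, 1, 0] := by
    refine ⟨hg, ?_, ?_⟩
    · intro D hD
      rw [List.mem_singleton] at hD
      rw [hD]
      exact Cfsg.Agent.Lib.Helper3.M24Oct.smul_eq_of_fix h
    · intro i hi
      apply h
      apply d0_bit
      simp only [List.mem_cons, List.not_mem_nil, or_false] at hi ⊢
      omega
  rw [fixd5_bot, Subgroup.mem_bot] at h1
  exact h1

theorem smul_mem_d0 {Ds F : List ℕ} (hD : cw 1 ∈ Ds) (g : ↥(fixG Ds F)) {x : GolayPt}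
    (hx : x ∈ ms (cw 1)) : (g : Equiv.Perm GolayPt) x ∈ ms (cw 1) := by
  have h1 := g.2.2.1 (cw 1) hD
  have h2 : (g : Equiv.Perm GolayPt) x ∈ (g : Equiv.Perm GolayPt) • ms (cw 1) :=
    Finset.smul_mem_smul_finset hx
  rwa [h1] at h2

theorem simple11 : IsSimpleGroup ↥(fixG [cw 1] [0]) := by
  have : Fact (Nat.Prime 11) := ⟨by norm_num⟩
  apply simple_of_normalClosure 11 (by rw [card_M11]; norm_num) _ order11 nc11
  intro N hn hbot
  have hfix0 : ∀ g : ↥(fixG [cw 1] [0]), (g : Equiv.Perm GolayPt) (pt 0) = pt 0 :=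
    fun g => g.2.2.2 0 (by simp)
  have hS : ∀ g : ↥(fixG [cw 1] [0]), ∀ x ∈ (((ms (cw 1)).erase (pt 0) : Finset GolayPt) : Set GolayPt),
      g • x ∈ (((ms (cw 1)).erase (pt 0) : Finset GolayPt) : Set GolayPt) := by
    intro g x hx
    rw [Finset.mem_coe, Finset.mem_erase] at hx ⊢
    refine ⟨?_, smul_mem_d0 (by simp) g hx.2⟩
    intro hc
    apply hx.1
    have hc' : (g : Equiv.Perm GolayPt) x = pt 0 := hc
    rw [← hfix0 g] at hc'
    exact (g : Equiv.Perm GolayPt).injective hc'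
  have ht := normal_trans (G := ↥(fixG [cw 1] [0]))
    (((ms (cw 1)).erase (pt 0) : Finset GolayPt) : Set GolayPt) hS
    (by
      intro p hp q hq p' hp' q' hq' hpq hpq'
      rw [Finset.mem_coe, Finset.mem_erase] at hp hq hp' hq'
      obtain ⟨σ, hσ, e1, e2⟩ := dframe3 p q hp.2 hq.2 hp.1 hq.1 hpq
      obtain ⟨τ, hτ, f1, f2⟩ := dframe3 p' q' hp'.2 hq'.2 hp'.1 hq'.1 hpq'
      refine ⟨⟨τ * σ⁻¹, (fixG [cw 1] [0]).mul_mem hτ ((fixG [cw 1] [0]).inv_mem hσ)⟩, ?_, ?_⟩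
      · show (τ * σ⁻¹) p = p'
        rw [Equiv.Perm.mul_apply, ← e1, Equiv.Perm.coe_inv, Equiv.symm_apply_apply, f1]
      · show (τ * σ⁻¹) q = q'
        rw [Equiv.Perm.mul_apply, ← e2, Equiv.Perm.coe_inv, Equiv.symm_apply_apply, f2])
    (by
      intro g hg
      by_contra hcon
      push Not at hcon
      apply hg
      apply Subtype.ext
      apply eq_one_of_fix_d0 g.2.1
      intro x hx
      by_cases hx0 : x = pt 0
      · rw [hx0]
        exact hfix0 g
      · exact hcon x (by rw [Finset.mem_coe, Finset.mem_erase]; exact ⟨hx0, hx⟩)) N hbot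
  have h1 : pt 1 ∈ (((ms (cw 1)).erase (pt 0) : Finset GolayPt) : Set GolayPt) := by
    rw [Finset.mem_coe, Finset.mem_erase]
    exact ⟨Ne.symm pt01, d0_bit 1 (by simp)⟩
  have hd := card_dvd_of_trans N _ (pt 1) (fun n _ => hS n _ h1) (ht _ h1)
  rw [Set.ncard_coe_finset, Finset.card_erase_of_mem (d0_bit 0 (by simp)), card_ms, pc_d0] at hd
  exact hd

theorem simple12 : IsSimpleGroup ↥(fixG [cw 1] []) := by
  have : Fact (Nat.Prime 2) := ⟨by norm_num⟩
  have : Fact (Nat.Prime 3) := ⟨by norm_num⟩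
  have hS : ∀ g : ↥(fixG [cw 1] []), ∀ x ∈ ((ms (cw 1) : Finset GolayPt) : Set GolayPt),
      g • x ∈ ((ms (cw 1) : Finset GolayPt) : Set GolayPt) := by
    intro g x hx
    exact smul_mem_d0 (by simp) g hx
  have hnt : Nontrivial ↥(fixG [cw 1] []) := by
    rw [← Finite.one_lt_card_iff_nontrivial, card_M12]
    norm_num
  have hst : IsSimpleGroup ↥(MulAction.stabilizer ↥(fixG [cw 1] []) (pt 0)) := by
    have := simple11
    exact (stabEquiv [cw 1] [] 0).isSimpleGroup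
  apply simple_of_stabilizer (G := ↥(fixG [cw 1] [])) ((ms (cw 1) : Finset GolayPt) : Set GolayPt)
    (pt 0) (d0_bit 0 (by simp)) hS
    (by
      intro p hp q hq p' hp' q' hq' hpq hpq'
      rw [Finset.mem_coe] at hp hq hp' hq'
      obtain ⟨σ, hσ, e1, e2⟩ := dframe2 p q hp hq hpq
      obtain ⟨τ, hτ, f1, f2⟩ := dframe2 p' q' hp' hq' hpq'
      refine ⟨⟨τ * σ⁻¹, (fixG [cw 1] []).mul_mem hτ ((fixG [cw 1] []).inv_mem hσ)⟩, ?_, ?_⟩
      · show (τ * σ⁻¹) p = p'
        rw [Equiv.Perm.mul_apply, ← e1, Equiv.Perm.coe_inv, Equiv.symm_apply_apply, f1]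
      · show (τ * σ⁻¹) q = q'
        rw [Equiv.Perm.mul_apply, ← e2, Equiv.Perm.coe_inv, Equiv.symm_apply_apply, f2])
    (by
      intro g hg
      by_contra hcon
      push Not at hcon
      apply hg
      apply Subtype.ext
      apply eq_one_of_fix_d0 g.2.1
      intro x hx
      exact hcon x (Finset.mem_coe.mpr hx))
    hst 2 3 (by norm_num)
    (by rw [Set.ncard_coe_finset, card_ms, pc_d0]; norm_num)
    (by rw [Set.ncard_coe_finset, card_ms, pc_d0]; norm_num) hnt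

/-! ### M24 -/

theorem simple24' : IsSimpleGroup ↥(fixG [] []) := by
  have : Fact (Nat.Prime 2) := ⟨by norm_num⟩
  have : Fact (Nat.Prime 3) := ⟨by norm_num⟩
  have hnt : Nontrivial ↥(fixG [] []) := by
    rw [← Finite.one_lt_card_iff_nontrivial, fixG_nil, card_M24]
    norm_num
  have hst : IsSimpleGroup ↥(MulAction.stabilizer ↥(fixG [] []) (pt 0)) := by
    have := simple23
    exact (stabEquiv [] [] 0).isSimpleGroup
  apply simple_of_stabilizer (G := ↥(fixG [] [])) (Set.univ : Set GolayPt)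
    (pt 0) (Set.mem_univ _) (fun _ _ _ => Set.mem_univ _)
    (by
      intro p _ q _ p' _ q' _ hpq hpq'
      obtain ⟨g, hg, e1, e2⟩ := trans2 p q p' q' hpq hpq'
      exact ⟨⟨g, by rw [fixG_nil]; exact hg⟩, e1, e2⟩)
    (by
      intro g hg
      by_contra hcon
      push Not at hcon
      apply hg
      apply Subtype.ext
      apply Equiv.ext
      intro x
      exact hcon x (Set.mem_univ _))
    hst 2 3 (by norm_num)
    (by rw [Set.ncard_univ, Nat.card_eq_fintype_card, card_golayPt]; norm_num)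
    (by rw [Set.ncard_univ, Nat.card_eq_fintype_card, card_golayPt]; norm_num) hnt

theorem simple24 : IsSimpleGroup ↥M24 := by
  have h := simple24'
  rw [fixG_nil] at h
  exact h

end Cfsg.Agent.Lib.Helper3.M24Simple2
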