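import Mathlib
import Cfsg.Prelude.Def_Sporadic_a
import Cfsg.Agent.Lib.Helper3.M24Perm
import Cfsg.Agent.Lib.Helper3.M24Cert

set_option autoImplicit false

namespace Cfsg.Agent.Lib.Helper3.SimpleTools

open Cfsg Cfsg.Agent.Lib.Helper3.M24Perm Cfsg.Agent.Lib.Helper3.M24Cert
open scoped Pointwise

/-- A nontrivial normal subgroup of a group acting 2-transitively (and faithfully) on an
invariant set `S` is transitive on `S`. -/
theorem normal_trans {G Ω : Type*} [Group G] [MulAction G Ω] (S : Set Ω)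
    (hS : ∀ g : G, ∀ x ∈ S, g • x ∈ S)
    (h2 : ∀ p ∈ S, ∀ q ∈ S, ∀ p' ∈ S, ∀ q' ∈ S, p ≠ q → p' ≠ q' →
      ∃ g : G, g • p = p' ∧ g • q = q')
    (hf : ∀ g : G, g ≠ 1 → ∃ x ∈ S, g • x ≠ x)
    (N : Subgroup G) [hn : N.Normal] (hN : N ≠ ⊥) :
    ∀ p ∈ S, ∀ q ∈ S, ∃ n ∈ N, n • p = q := by
  obtain ⟨n, hn1⟩ := (Subgroup.ne_bot_iff_exists_ne_one.mp hN)
  have hn1' : (n : G) ≠ 1 := fun h => hn1 (Subtype.ext h)
  obtain ⟨x, hx, hnx⟩ := hf n hn1'
  intro p hp q hq
  by_cases hpq : p = q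
  · exact ⟨1, N.one_mem, by rw [one_smul, hpq]⟩
  · obtain ⟨g, hg1, hg2⟩ := h2 x hx ((n : G) • x) (hS n x hx) p hp q hq (Ne.symm hnx) hpq
    refine ⟨g * n * g⁻¹, hn.conj_mem n n.2 g, ?_⟩
    rw [mul_smul, mul_smul, ← hg1, inv_smul_smul, hg2]

theorem card_dvd_of_trans {G Ω : Type*} [Group G] [MulAction G Ω] (N : Subgroup G) (S : Set Ω)
    (p : Ω) (hS : ∀ n ∈ N, n • p ∈ S) (ht : ∀ q ∈ S, ∃ n ∈ N, n • p = q) :
    S.ncard ∣ Nat.card N := by
  have h := card_eq_ncard_mul N (N ⊓ MulAction.stabilizer G p) p S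
    (fun g => by rw [Subgroup.mem_inf, MulAction.mem_stabilizer_iff]) hS ht
  exact Dvd.intro _ h.symm

/-- If `p` divides `|G|` exactly once, a normal subgroup of order divisible by `p` contains
every element of order `p`. -/
theorem mem_of_orderOf_eq {G : Type*} [Group G] [Finite G] (p : ℕ) [hp : Fact p.Prime]
    (hp2 : ¬ p ^ 2 ∣ Nat.card G) (z : G) (hz : orderOf z = p)
    (N : Subgroup G) [hn : N.Normal] (hN : p ∣ Nat.card N) : z ∈ N := by
  obtain ⟨y, hy⟩ := exists_prime_orderOf_dvd_card' p hN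
  have hy' : orderOf (y : G) = p := by rw [Subgroup.orderOf_coe, hy]
  have key : ∀ w : G, orderOf w = p → ∀ Q : Sylow p G, Subgroup.zpowers w ≤ Q →
      Subgroup.zpowers w = Q := by
    intro w hw Q hle
    have hc1 : Nat.card (Subgroup.zpowers w) = p := by rw [Nat.card_zpowers, hw]
    obtain ⟨k, hk⟩ := (IsPGroup.iff_card.mp Q.2)
    have hdvd : p ^ k ∣ Nat.card G := by
      rw [← hk]
      exact Subgroup.card_subgroup_dvd_card _
    have hk1 : k ≤ 1 := by
      by_contra hcon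
      push Not at hcon
      exact hp2 (dvd_trans (pow_dvd_pow p hcon) hdvd)
    apply Subgroup.eq_of_le_of_card_ge hle
    rw [hc1, hk]
    calc p ^ k ≤ p ^ 1 := Nat.pow_le_pow_right hp.out.pos hk1
      _ = p := pow_one p
  have hpg : ∀ w : G, orderOf w = p → IsPGroup p (Subgroup.zpowers w) := by
    intro w hw
    apply IsPGroup.of_card (n := 1)
    rw [Nat.card_zpowers, hw, pow_one]
  obtain ⟨Q1, hQ1⟩ := (hpg _ hy').exists_le_sylow
  obtain ⟨Q2, hQ2⟩ := (hpg _ hz).exists_le_sylow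
  have e1 := key _ hy' Q1 hQ1
  have e2 := key _ hz Q2 hQ2
  obtain ⟨g, hg⟩ := MulAction.exists_smul_eq G Q1 Q2
  have hzQ2 : z ∈ (Q2 : Subgroup G) := by
    rw [← e2]
    exact Subgroup.mem_zpowers z
  rw [← hg, Sylow.coe_subgroup_smul, Subgroup.mem_pointwise_smul_iff_inv_smul_mem, ← e1] at hzQ2
  have h1 : (MulAut.conj g)⁻¹ • z ∈ N := by
    refine (Subgroup.zpowers_le.mpr ?_) hzQ2
    exact y.2
  have h2 : z = g * ((MulAut.conj g)⁻¹ • z) * g⁻¹ := by
    simp [MulAut.smul_def]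
    group
  rw [h2]
  exact hn.conj_mem _ h1 g

/-- simplicity from a Sylow argument and a normal closure computation. -/
theorem simple_of_normalClosure {G : Type*} [Group G] [Finite G] (p : ℕ) [hp : Fact p.Prime]
    (hp2 : ¬ p ^ 2 ∣ Nat.card G) (z : G) (hz : orderOf z = p)
    (hcl : Subgroup.normalClosure {z} = ⊤)
    (hN : ∀ N : Subgroup G, N.Normal → N ≠ ⊥ → p ∣ Nat.card N) : IsSimpleGroup G := by
  have hz1 : z ≠ 1 := by
    intro h
    rw [h, orderOf_one] at hz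
    exact hp.out.one_lt.ne hz
  have : Nontrivial G := ⟨⟨z, 1, hz1⟩⟩
  refine ⟨fun N hn => ?_⟩
  by_cases hbot : N = ⊥
  · exact Or.inl hbot
  · right
    have hzN : z ∈ N := mem_of_orderOf_eq p hp2 z hz N (hN N hn hbot)
    have h1 : Subgroup.normalClosure {z} ≤ N :=
      Subgroup.normalClosure_le_normal (Set.singleton_subset_iff.mpr hzN)
    rw [hcl] at h1
    exact top_le_iff.mp h1

/-- simplicity from simplicity of a point stabiliser, for a 2-transitive action on a set whose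
size is not a prime power. -/
theorem simple_of_stabilizer {G Ω : Type*} [Group G] [Finite G] [MulAction G Ω] (S : Set Ω)
    (p : Ω) (hp : p ∈ S)
    (hS : ∀ g : G, ∀ x ∈ S, g • x ∈ S)
    (h2 : ∀ p ∈ S, ∀ q ∈ S, ∀ p' ∈ S, ∀ q' ∈ S, p ≠ q → p' ≠ q' →
      ∃ g : G, g • p = p' ∧ g • q = q')
    (hf : ∀ g : G, g ≠ 1 → ∃ x ∈ S, g • x ≠ x)
    (hsimp : IsSimpleGroup (MulAction.stabilizer G p))
    (r s : ℕ) [hr : Fact r.Prime] [hs : Fact s.Prime] (hrs : r ≠ s) (hrd : r ∣ S.ncard)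
    (hsd : s ∣ S.ncard) (hnt : Nontrivial G) : IsSimpleGroup G := by
  refine ⟨fun N hn => ?_⟩
  by_cases hbot : N = ⊥
  · exact Or.inl hbot
  right
  have ht := normal_trans S hS h2 hf N hbot
  have hnorm : (N.subgroupOf (MulAction.stabilizer G p)).Normal := inferInstance
  rcases hsimp.eq_bot_or_eq_top_of_normal _ hnorm with h | h
  · exfalso
    rw [Subgroup.subgroupOf_eq_bot, Subgroup.disjoint_def] at h
    have hfree : ∀ n ∈ N, n • p = p → n = 1 := fun n hn1 hn2 => h hn1 hn2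
    have hcard := card_eq_ncard_mul N (N ⊓ MulAction.stabilizer G p) p S
      (fun g => by rw [Subgroup.mem_inf, MulAction.mem_stabilizer_iff])
      (fun n _ => hS n p hp) (ht p hp)
    have hbot2 : N ⊓ MulAction.stabilizer G p = ⊥ := by
      rw [Subgroup.eq_bot_iff_forall]
      intro x hx
      rw [Subgroup.mem_inf, MulAction.mem_stabilizer_iff] at hx
      exact hfree x hx.1 hx.2
    rw [hbot2, Subgroup.card_bot, mul_one] at hcard
    obtain ⟨a, ha⟩ := exists_prime_orderOf_dvd_card' r (hcard ▸ hrd)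
    obtain ⟨b, hb⟩ := exists_prime_orderOf_dvd_card' s (hcard ▸ hsd)
    have ha' : orderOf (a : G) = r := by rw [Subgroup.orderOf_coe, ha]
    have hb' : orderOf (b : G) = s := by rw [Subgroup.orderOf_coe, hb]
    have hap : (a : G) • p ≠ p := by
      intro hc
      have := hfree a a.2 hc
      rw [this, orderOf_one] at ha'
      exact hr.out.one_lt.ne ha'
    have hbp : (b : G) • p ≠ p := by
      intro hc
      have := hfree b b.2 hc
      rw [this, orderOf_one] at hb'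
      exact hs.out.one_lt.ne hb'
    obtain ⟨g, hg1, hg2⟩ := h2 p hp ((a : G) • p) (hS a p hp) p hp ((b : G) • p) (hS b p hp)
      (Ne.symm hap) (Ne.symm hbp)
    have hc : (b : G)⁻¹ * (g * a * g⁻¹) = 1 := by
      apply hfree _ (N.mul_mem (N.inv_mem b.2) (hn.conj_mem a a.2 g))
      rw [mul_smul, mul_smul, mul_smul]
      have hg3 : g⁻¹ • p = p := by
        rw [inv_smul_eq_iff, hg1]
      rw [hg3, hg2, inv_smul_smul]
    have hc2 : g * a * g⁻¹ = (b : G) := by
      rw [inv_mul_eq_one] at hc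
      exact hc.symm
    have hord : orderOf (g * (a : G) * g⁻¹) = orderOf (a : G) := by
      have := MulEquiv.orderOf_eq (MulAut.conj g) (a : G)
      rwa [MulAut.conj_apply] at this
    rw [hc2, hb', ha'] at hord
    exact hrs hord.symm
  · rw [Subgroup.subgroupOf_eq_top] at h
    rw [Subgroup.eq_top_iff']
    intro g
    obtain ⟨n, hn1, hn2⟩ := ht p hp (g • p) (hS g p hp)
    have h3 : n⁻¹ * g ∈ MulAction.stabilizer G p := by
      rw [MulAction.mem_stabilizer_iff, mul_smul, ← hn2, inv_smul_smul]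
    have h4 := N.mul_mem hn1 (h h3)
    rwa [mul_inv_cancel_left] at h4

/-- the stabiliser of `pt b` inside `fixG Ds F` is `fixG Ds (b :: F)`. -/
def stabEquiv (Ds F : List ℕ) (b : ℕ) :
    ↥(MulAction.stabilizer ↥(fixG Ds F) (pt b)) ≃* ↥(fixG Ds (b :: F)) where
  toFun x := ⟨x.1.1, mem_fixG_cons.mpr ⟨x.1.2, x.2⟩⟩
  invFun y := ⟨⟨y.1, (mem_fixG_cons.mp y.2).1⟩, (mem_fixG_cons.mp y.2).2⟩
  left_inv _ := rfl
  right_inv _ := rfl
  map_mul' _ _ := rfl

/-- conjugating a subgroup of `M24` (given inside `Perm GolayPt`) into a subgroup of `↥M24`. -/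
def conjEquiv (K : Subgroup (Equiv.Perm GolayPt)) (hK : K ≤ M24) (h : Equiv.Perm GolayPt)
    (hh : h ∈ M24) (K' : Subgroup ↥M24)
    (hK' : ∀ x : ↥M24, x ∈ K' ↔ h⁻¹ * (x : Equiv.Perm GolayPt) * h ∈ K) : ↥K' ≃* ↥K where
  toFun x := ⟨h⁻¹ * (x.1 : Equiv.Perm GolayPt) * h, (hK' x.1).mp x.2⟩
  invFun y := ⟨⟨h * y.1 * h⁻¹, M24.mul_mem (M24.mul_mem hh (hK y.2)) (M24.inv_mem hh)⟩, by
    rw [hK']
    have : h⁻¹ * (h * y.1 * h⁻¹) * h = y.1 := by group
    simp only [this]
    exact y.2⟩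
  left_inv x := by
    apply Subtype.ext
    apply Subtype.ext
    simp only
    group
  right_inv y := by
    apply Subtype.ext
    simp only
    group
  map_mul' x y := by
    apply Subtype.ext
    simp only [Subgroup.coe_mul]
    group

end Cfsg.Agent.Lib.Helper3.SimpleTools
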