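import Mathlib
import Cfsg.Prelude.Def_Sporadic_a
import Cfsg.Agent.Lib.Helper3.Golay
import Cfsg.Agent.Lib.Helper3.Golay2
import Cfsg.Agent.Lib.Helper3.GolayM24
import Cfsg.Agent.Lib.Helper3.M24Perm
import Cfsg.Agent.Lib.Helper3.M24Cert
import Cfsg.Agent.Lib.Helper3.M24Order
import Cfsg.Agent.Lib.Helper3.M24Trans
import Cfsg.Agent.Lib.Helper3.M24Dod
import Cfsg.Agent.Lib.Helper3.SimpleTools
import Cfsg.Agent.Lib.Helper3.M24Simple2

set_option autoImplicit false

namespace Cfsg.Agent.Lib.Helper3.M24Simple3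

open Cfsg Cfsg.Agent.Lib.Helper3.Golay Cfsg.Agent.Lib.Helper3.Golay2
open Cfsg.Agent.Lib.Helper3.GolayM24 Cfsg.Agent.Lib.Helper3.M24Perm
open Cfsg.Agent.Lib.Helper3.M24Cert
open Cfsg.Agent.Lib.Helper3.M24Order Cfsg.Agent.Lib.Helper3.M24Trans
open Cfsg.Agent.Lib.Helper3.M24Dod
open Cfsg.Agent.Lib.Helper3.SimpleTools
open Cfsg.Agent.Lib.Helper3.M24Simple2
open scoped Pointwise

theorem conj_pt {h x : Equiv.Perm GolayPt} {i : ℕ} {p : GolayPt} (hp : h (pt i) = p) :
    (h⁻¹ * x * h) (pt i) = pt i ↔ x p = p := by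
  rw [Equiv.Perm.mul_apply, Equiv.Perm.mul_apply, hp, Equiv.Perm.inv_eq_iff_eq, hp]

theorem conj_set {h x : Equiv.Perm GolayPt} {s d : Finset GolayPt} (hd : h • s = d) :
    (h⁻¹ * x * h) • s = s ↔ x • d = d := by
  rw [mul_smul, mul_smul, hd, inv_smul_eq_iff, hd]

theorem conj_mem {h : Equiv.Perm GolayPt} (hh : h ∈ M24) (x : ↥M24) :
    h⁻¹ * (x : Equiv.Perm GolayPt) * h ∈ M24 :=
  M24.mul_mem (M24.mul_mem (M24.inv_mem hh) x.2) hh

/-- the group of the length-24 code is simple. -/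
theorem simple_M24 : IsSimpleGroup ↥M24 := simple24

/-- point stabilisers are simple. -/
theorem simple_M23 (p : GolayPt) : IsSimpleGroup ↥(MulAction.stabilizer ↥M24 p) := by
  obtain ⟨h, hh, hp⟩ := trans1 (pt 0) p
  have := simple23
  refine (conjEquiv (fixG [] [0]) (fun g hg => hg.1) h hh (MulAction.stabilizer ↥M24 p)
    ?_).isSimpleGroup
  intro x
  rw [MulAction.mem_stabilizer_iff, mem_fixG]
  simp only [List.not_mem_nil, false_imp_iff, implies_true, true_and, List.mem_singleton,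
    forall_eq]
  rw [conj_pt hp]
  exact ⟨fun hx => ⟨conj_mem hh x, hx⟩, fun hx => hx.2⟩

/-- two-point stabilisers are simple. -/
theorem simple_M22 (p q : GolayPt) (hpq : p ≠ q) :
    IsSimpleGroup ↥(MulAction.stabilizer ↥M24 p ⊓ MulAction.stabilizer ↥M24 q) := by
  obtain ⟨h, hh, hp, hq⟩ := map2 p q hpq
  rw [fixG_nil] at hh
  have := simple22
  refine (conjEquiv (fixG [] [1, 0]) (fun g hg => hg.1) h hh
    (MulAction.stabilizer ↥M24 p ⊓ MulAction.stabilizer ↥M24 q) ?_).isSimpleGroup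
  intro x
  rw [Subgroup.mem_inf, MulAction.mem_stabilizer_iff, MulAction.mem_stabilizer_iff, mem_fixG]
  simp only [List.not_mem_nil, false_imp_iff, implies_true, true_and, List.forall_mem_cons,
    and_true]
  rw [conj_pt hp, conj_pt hq]
  exact ⟨fun hx => ⟨conj_mem hh x, hx.2, hx.1⟩, fun hx => ⟨hx.2.2, hx.2.1⟩⟩

/-- dodecad stabilisers are simple. -/
theorem simple_M12 (d : Finset GolayPt) (hd : d ∈ dodecads) :
    IsSimpleGroup ↥(MulAction.stabilizer ↥M24 d) := by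
  obtain ⟨h, hh, hdd⟩ := dodecad_orbit hd
  have := simple12
  refine (conjEquiv (fixG [cw 1] []) (fun g hg => hg.1) h hh (MulAction.stabilizer ↥M24 d)
    ?_).isSimpleGroup
  intro x
  rw [MulAction.mem_stabilizer_iff, mem_fixG]
  simp only [List.not_mem_nil, false_imp_iff, implies_true, and_true, List.mem_singleton,
    forall_eq]
  rw [conj_set hdd]
  exact ⟨fun hx => ⟨conj_mem hh x, hx⟩, fun hx => hx.2⟩

/-- the stabiliser of a dodecad and a point on it is simple. -/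
theorem simple_M11 (d : Finset GolayPt) (hd : d ∈ dodecads) (p : GolayPt) (hp : p ∈ d) :
    IsSimpleGroup ↥(MulAction.stabilizer ↥M24 d ⊓ MulAction.stabilizer ↥M24 p) := by
  obtain ⟨h, hh, hdd, hp0⟩ := exists_std hd hp
  have := simple11
  refine (conjEquiv (fixG [cw 1] [0]) (fun g hg => hg.1) h hh
    (MulAction.stabilizer ↥M24 d ⊓ MulAction.stabilizer ↥M24 p) ?_).isSimpleGroup
  intro x
  rw [Subgroup.mem_inf, MulAction.mem_stabilizer_iff, MulAction.mem_stabilizer_iff, mem_fixG]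
  simp only [List.mem_singleton, forall_eq]
  rw [conj_pt hp0, conj_set hdd]
  exact ⟨fun hx => ⟨conj_mem hh x, hx.1, hx.2⟩, fun hx => ⟨hx.2.1, hx.2.2⟩⟩

end Cfsg.Agent.Lib.Helper3.M24Simple3
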