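import Mathlib

set_option autoImplicit false

namespace Cfsg.Agent.Lib.Helper3.Coatom

open scoped Pointwise

/-- general orbit counting: `H` acts, `K` is the stabiliser of `a` in `H`, `S` is the orbit. -/
theorem card_orbit_mul {G α : Type*} [Group G] [MulAction G α] (H K : Subgroup G) (a : α)
    (S : Set α) (hK : ∀ g, g ∈ K ↔ g ∈ H ∧ g • a = a) (hsub : ∀ g ∈ H, g • a ∈ S)
    (hsup : ∀ s ∈ S, ∃ g ∈ H, g • a = s) : Nat.card H = S.ncard * Nat.card K := by
  have h1 := Subgroup.card_mul_index (MulAction.stabilizer H a)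
  have h2 := MulAction.index_stabilizer H a
  have h3 : MulAction.orbit H a = S := by
    ext s
    constructor
    · rintro ⟨g, rfl⟩
      exact hsub g.1 g.2
    · intro hs
      obtain ⟨g, hg, rfl⟩ := hsup s hs
      exact ⟨⟨g, hg⟩, rfl⟩
  have h4 : Nat.card (MulAction.stabilizer H a) = Nat.card K := by
    apply Nat.card_congr
    refine ⟨fun x => ⟨x.1.1, (hK _).mpr ⟨x.1.2, x.2⟩⟩,
      fun y => ⟨⟨y.1, ((hK _).mp y.2).1⟩, ((hK _).mp y.2).2⟩, fun x => rfl, fun y => rfl⟩
  rw [h2, h3, h4] at h1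
  rw [← h1, mul_comm]

/-- Maximality from suborbit sizes. `G` is transitive on the finite set `S ∋ a`; `K` contains the
stabiliser of `a` and `B` is the `K`-orbit of `a`; `K` is transitive on each class `cl = l` of
`S`, the classes have sizes `N l`, and no union of classes containing the class of `a` has a size
dividing `|S|` other than sizes `≤ |B|` and `|S|`. Then `K` is a maximal subgroup. -/
theorem coatom_of_suborbits {G Ω : Type*} [Group G] [Finite G] [MulAction G Ω] (K : Subgroup G)
    (a : Ω) (S B : Set Ω) (hfin : S.Finite)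
    (hS : ∀ g : G, g • a ∈ S) (htr : ∀ s ∈ S, ∃ g : G, g • a = s)
    (hK : ∀ g : G, g • a = a → g ∈ K)
    (hB : ∀ k ∈ K, k • a ∈ B) (hB' : ∀ b ∈ B, ∃ k ∈ K, k • a = b)
    (cl : Ω → ℕ) (hcl : ∀ x ∈ S, ∀ y ∈ S, cl x = cl y → ∃ k ∈ K, k • x = y)
    (labels : Finset ℕ) (N : ℕ → ℕ) (hlab : ∀ x ∈ S, cl x ∈ labels)
    (hN : ∀ l ∈ labels, {x | x ∈ S ∧ cl x = l}.ncard = N l)
    (la n b : ℕ) (hla : cl a = la) (hn : S.ncard = n) (hb : B.ncard = b) (hlt : b < n)
    (hdiv : ∀ L ∈ labels.powerset, la ∈ L → (∑ l ∈ L, N l) ∣ n →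
      (∑ l ∈ L, N l) ≤ b ∨ (∑ l ∈ L, N l) = n) : IsCoatom K := by
  classical
  have haS : a ∈ S := by simpa using hS 1
  have hBS : B ⊆ S := fun b hb => by
    obtain ⟨k, -, rfl⟩ := hB' b hb
    exact hS k
  have hBfin : B.Finite := hfin.subset hBS
  constructor
  · intro htop
    have h1 : S ⊆ B := by
      intro s hs
      obtain ⟨g, rfl⟩ := htr s hs
      exact hB g (by rw [htop]; exact Subgroup.mem_top g)
    have h2 := Set.ncard_le_ncard h1 hBfin
    omega
  · intro H hKH
    set X : Set Ω := {x | ∃ h ∈ H, h • a = x} with hX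
    have hXS : X ⊆ S := by
      rintro x ⟨h, -, rfl⟩
      exact hS h
    have hXfin : X.Finite := hfin.subset hXS
    have hKH' : K ≤ H := le_of_lt hKH
    have hd : X.ncard ∣ n := by
      have e1 := card_orbit_mul H (MulAction.stabilizer G a) a X (fun g => by
        rw [MulAction.mem_stabilizer_iff]
        exact ⟨fun h => ⟨hKH' (hK g h), h⟩, fun h => h.2⟩) (fun g hg => ⟨g, hg, rfl⟩)
        (fun s hs => hs)
      have e2 := card_orbit_mul (⊤ : Subgroup G) (MulAction.stabilizer G a) a S (fun g => by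
        rw [MulAction.mem_stabilizer_iff]
        simp) (fun g _ => hS g) (fun s hs => by
          obtain ⟨g, hg⟩ := htr s hs
          exact ⟨g, Subgroup.mem_top g, hg⟩)
      have e3 : Nat.card H ∣ Nat.card (⊤ : Subgroup G) := by
        rw [Subgroup.card_top]
        exact Subgroup.card_subgroup_dvd_card H
      rw [e1, e2, hn] at e3
      have hpos : 0 < Nat.card (MulAction.stabilizer G a) := Nat.card_pos
      exact Nat.dvd_of_mul_dvd_mul_right hpos e3
    let L : Finset ℕ := labels.filter (fun l => ∃ x ∈ X, cl x = l)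
    have hXeq : X = {x | x ∈ S ∧ cl x ∈ L} := by
      ext x
      constructor
      · intro hx
        exact ⟨hXS hx, Finset.mem_filter.mpr ⟨hlab x (hXS hx), x, hx, rfl⟩⟩
      · rintro ⟨hxS, hxL⟩
        obtain ⟨-, y, hy, hyx⟩ := Finset.mem_filter.mp hxL
        obtain ⟨k, hk, rfl⟩ := hcl y (hXS hy) x hxS hyx
        obtain ⟨h, hh, rfl⟩ := hy
        exact ⟨k * h, H.mul_mem (hKH' hk) hh, mul_smul k h a⟩
    have hcard : X.ncard = ∑ l ∈ L, N l := by
      have e : X = ((hfin.toFinset.filter (fun x => cl x ∈ L) : Finset Ω) : Set Ω) := by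
        rw [hXeq]
        ext x
        simp
      rw [e, Set.ncard_coe_finset, Finset.card_eq_sum_card_fiberwise (f := cl)
        (s := hfin.toFinset.filter (fun x => cl x ∈ L)) (t := L)
        (fun x hx => (Finset.mem_filter.mp (Finset.mem_coe.mp hx)).2)]
      apply Finset.sum_congr rfl
      intro l hl
      rw [← hN l (Finset.mem_filter.mp hl).1, ← Set.ncard_coe_finset]
      congr 1
      ext x
      simp only [Finset.coe_filter, Finset.mem_filter, Set.Finite.mem_toFinset, Set.mem_setOf_eq]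
      constructor
      · rintro ⟨⟨h1, -⟩, h2⟩
        exact ⟨h1, h2⟩
      · rintro ⟨h1, h2⟩
        exact ⟨⟨h1, by rw [h2]; exact hl⟩, h2⟩
    have hLmem : L ∈ labels.powerset := Finset.mem_powerset.mpr (Finset.filter_subset _ _)
    have haX : a ∈ X := ⟨1, H.one_mem, one_smul _ _⟩
    have hla' : la ∈ L := by
      rw [← hla]
      exact Finset.mem_filter.mpr ⟨hlab a haS, a, haX, rfl⟩
    rw [hcard] at hd
    rcases hdiv L hLmem hla' hd with h1 | h1
    · exfalso
      have hBX : B ⊆ X := by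
        intro b hb
        obtain ⟨k, hk, rfl⟩ := hB' b hb
        exact ⟨k, hKH' hk, rfl⟩
      have hXB : B = X := Set.eq_of_subset_of_ncard_le hBX (by rw [hcard, hb]; exact h1) hXfin
      have hHK : H ≤ K := by
        intro h hh
        have h3 : h • a ∈ B := by
          rw [hXB]
          exact ⟨h, hh, rfl⟩
        obtain ⟨k, hk, e⟩ := hB' _ h3
        have h2 : k⁻¹ * h ∈ K := hK _ (by rw [mul_smul, ← e, inv_smul_smul])
        have h4 := K.mul_mem hk h2
        rwa [mul_inv_cancel_left] at h4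
      exact lt_irrefl _ (lt_of_lt_of_le hKH hHK)
    · have hXS' : X = S := Set.eq_of_subset_of_ncard_le hXS (by rw [hcard, hn, h1]) hfin
      rw [eq_top_iff]
      intro g _
      have h3 : g • a ∈ X := by
        rw [hXS']
        exact hS g
      obtain ⟨h, hh, e⟩ := h3
      have h2 : h⁻¹ * g ∈ K := hK _ (by rw [mul_smul, ← e, inv_smul_smul])
      have h4 := H.mul_mem hh (hKH' h2)
      rwa [mul_inv_cancel_left] at h4

end Cfsg.Agent.Lib.Helper3.Coatom
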