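import Mathlib

set_option autoImplicit false

namespace Cfsg.Agent.Lib.Helper3.Jordan4

open MulAction

/-- pointwise sharp transitivity on injective `ι`-tuples. -/
def ST (G Ω ι : Type*) [Group G] [MulAction G Ω] : Prop :=
  (∀ x y : ι ↪ Ω, ∃ g : G, ∀ i, g • x i = y i) ∧
    (∀ x : ι ↪ Ω, ∀ g : G, (∀ i, g • x i = x i) → g = 1)

section

variable {G Ω : Type*} [Group G] [MulAction G Ω]

theorem ST.congr {ι ι' : Type*} (e : ι' ≃ ι) (h : ST G Ω ι) : ST G Ω ι' := by
  refine ⟨fun x y => ?_, fun x g hg => ?_⟩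
  · obtain ⟨g, hg⟩ := h.1 (e.symm.toEmbedding.trans x) (e.symm.toEmbedding.trans y)
    refine ⟨g, fun i => ?_⟩
    have h1 := hg (e i)
    simpa using h1
  · apply h.2 (e.symm.toEmbedding.trans x) g
    intro i
    simpa using hg (e.symm i)

/-- the tuple `(B, u, v)`. -/
def embFun (B : Finset Ω) (u v : Ω) : Option (Option B) → Ω
  | none => v
  | some none => u
  | some (some x) => x.1

theorem embFun_inj (B : Finset Ω) (u v : Ω) (hu : u ∉ B) (hv : v ∉ B) (huv : u ≠ v) :
    Function.Injective (embFun B u v) := by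
  intro i j hij
  rcases i with _ | _ | ⟨x, hx⟩ <;> rcases j with _ | _ | ⟨y, hy⟩
  · rfl
  · exact absurd hij.symm huv
  · exact absurd (show v = y from hij) (fun h => hv (h ▸ hy))
  · exact absurd hij huv
  · rfl
  · exact absurd (show u = y from hij) (fun h => hu (h ▸ hy))
  · exact absurd (show x = v from hij) (fun h => hv (h ▸ hx))
  · exact absurd (show x = u from hij) (fun h => hu (h ▸ hx))
  · have h1 : x = y := hij
    subst h1
    rfl

variable [DecidableEq Ω] [Fintype Ω]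

/-- the centraliser of the involution `t` inside the pointwise stabiliser of the `t`-invariant
set `B` (with `|B| + 2 = k`) acts regularly both on pairs of fixed points and on moved points
outside `B`. -/
theorem key (k : ℕ) (h : ST G Ω (Fin k)) (t : G) (ht : t * t = 1)
    (B : Finset Ω) (hB : B.card + 2 = k) (hBt : ∀ x ∈ B, t • x ∈ B)
    (F' M' : Finset Ω) (hF' : ∀ p, p ∈ F' ↔ p ∉ B ∧ t • p = p)
    (hM' : ∀ w, w ∈ M' ↔ w ∉ B ∧ t • w ≠ w)
    (hF2 : 2 ≤ F'.card) (hM1 : M'.Nonempty) :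
    F'.card * (F'.card - 1) = M'.card := by
  classical
  have e : Option (Option B) ≃ Fin k := Fintype.equivFinOfCardEq (by simp [hB])
  have h' : ST G Ω (Option (Option B)) := h.congr e
  obtain ⟨p₀, hp₀, q₀, hq₀, hpq⟩ := Finset.one_lt_card.mp hF2
  obtain ⟨w₀, hw₀⟩ := hM1
  rw [hF'] at hp₀ hq₀
  rw [hM'] at hw₀
  have htt : ∀ x : Ω, t • t • x = x := fun x => by rw [← mul_smul, ht, one_smul]
  have htB : ∀ w : Ω, w ∉ B → t • w ∉ B := by
    intro w hw hh
    have h1 := hBt _ hh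
    rw [htt] at h1
    exact hw h1
  -- existence
  have key1 : ∀ (u v : Ω) (hu : u ∉ B) (hv : v ∉ B) (huv : u ≠ v) (u' v' : Ω) (hu' : u' ∉ B)
      (hv' : v' ∉ B) (huv' : u' ≠ v'),
      ((t • u = u ∧ t • v = v ∧ t • u' = u' ∧ t • v' = v') ∨ (t • u = v ∧ t • u' = v')) →
      ∃ g : G, g * t = t * g ∧ (∀ x ∈ B, g • x = x) ∧ g • u = u' ∧ g • v = v' := by
    intro u v hu hv huv u' v' hu' hv' huv' hcase
    obtain ⟨g, hg⟩ := h'.1 ⟨embFun B u v, embFun_inj B u v hu hv huv⟩
      ⟨embFun B u' v', embFun_inj B u' v' hu' hv' huv'⟩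
    have hgB : ∀ x ∈ B, g • x = x := fun x hx => hg (some (some ⟨x, hx⟩))
    have hgu : g • u = u' := hg (some none)
    have hgv : g • v = v' := hg none
    refine ⟨g, ?_, hgB, hgu, hgv⟩
    have h1 : (t * g)⁻¹ * (g * t) = 1 := by
      apply h'.2 ⟨embFun B u v, embFun_inj B u v hu hv huv⟩
      intro i
      rw [mul_smul, inv_smul_eq_iff, mul_smul, mul_smul]
      rcases i with _ | _ | ⟨x, hx⟩
      · show g • t • v = t • g • v
        rcases hcase with ⟨h1, h2, h3, h4⟩ | ⟨h1, h2⟩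
        · rw [h2, hgv, h4]
        · subst h1
          subst h2
          rw [htt, hgu, hgv, htt]
      · show g • t • u = t • g • u
        rcases hcase with ⟨h1, h2, h3, h4⟩ | ⟨h1, h2⟩
        · rw [h1, hgu, h3]
        · subst h1
          subst h2
          rw [hgv, hgu]
      · show g • t • x = t • g • x
        rw [hgB _ (hBt x hx), hgB x hx]
    exact (inv_mul_eq_one.mp h1).symm
  -- uniqueness
  have key2 : ∀ (u v : Ω) (hu : u ∉ B) (hv : v ∉ B) (huv : u ≠ v) (g : G),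
      (∀ x ∈ B, g • x = x) → g • u = u → g • v = v → g = 1 := by
    intro u v hu hv huv g hgB hgu hgv
    apply h'.2 ⟨embFun B u v, embFun_inj B u v hu hv huv⟩
    intro i
    rcases i with _ | _ | ⟨x, hx⟩
    · exact hgv
    · exact hgu
    · exact hgB x hx
  have hCB : ∀ g : G, (∀ x ∈ B, g • x = x) → ∀ x : Ω, x ∉ B → g • x ∉ B := by
    intro g hg x hx hh
    have h1 := hg _ hh
    have h2 : g • x = x := smul_left_cancel g h1
    rw [h2] at hh
    exact hx hh
  have hcomm : ∀ g : G, g * t = t * g → ∀ x : Ω, t • g • x = g • t • x := by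
    intro g hg x
    rw [← mul_smul, ← mul_smul, hg]
  have hinvB : ∀ g : G, (∀ x ∈ B, g • x = x) → ∀ x ∈ B, g⁻¹ • x = x := by
    intro g hg x hx
    rw [inv_smul_eq_iff, hg x hx]
  have hΦ₁ : Function.Bijective
      (fun g : {g : G // g * t = t * g ∧ ∀ x ∈ B, g • x = x} =>
        (⟨(g.1 • p₀, g.1 • q₀), by
          rw [Finset.mem_offDiag]
          refine ⟨(hF' _).mpr ⟨hCB g.1 g.2.2 _ hp₀.1, ?_⟩,
            (hF' _).mpr ⟨hCB g.1 g.2.2 _ hq₀.1, ?_⟩, fun hh => hpq (smul_left_cancel g.1 hh)⟩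
          · show t • g.1 • p₀ = g.1 • p₀
            rw [hcomm g.1 g.2.1, hp₀.2]
          · show t • g.1 • q₀ = g.1 • q₀
            rw [hcomm g.1 g.2.1, hq₀.2]⟩ : {pq : Ω × Ω // pq ∈ F'.offDiag})) := by
    constructor
    · rintro ⟨g, hg1, hg2⟩ ⟨g', hg1', hg2'⟩ hgg
      have h1 : g • p₀ = g' • p₀ := congrArg (fun z => z.1.1) hgg
      have h2 : g • q₀ = g' • q₀ := congrArg (fun z => z.1.2) hgg
      have h3 : g'⁻¹ * g = 1 := by
        apply key2 p₀ q₀ hp₀.1 hq₀.1 hpq
        · intro x hx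
          rw [mul_smul, hg2 x hx, hinvB g' hg2' x hx]
        · rw [mul_smul, h1, inv_smul_smul]
        · rw [mul_smul, h2, inv_smul_smul]
      exact Subtype.ext (inv_mul_eq_one.mp h3).symm
    · rintro ⟨⟨p, q⟩, hpq'⟩
      rw [Finset.mem_offDiag] at hpq'
      obtain ⟨hp, hq, hne⟩ := hpq'
      rw [hF'] at hp hq
      obtain ⟨g, hg1, hg2, hg3, hg4⟩ := key1 p₀ q₀ hp₀.1 hq₀.1 hpq p q hp.1 hq.1 hne
        (Or.inl ⟨hp₀.2, hq₀.2, hp.2, hq.2⟩)
      exact ⟨⟨g, hg1, hg2⟩, Subtype.ext (Prod.ext hg3 hg4)⟩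
  have hΦ₂ : Function.Bijective
      (fun g : {g : G // g * t = t * g ∧ ∀ x ∈ B, g • x = x} =>
        (⟨g.1 • w₀, by
          rw [hM']
          refine ⟨hCB g.1 g.2.2 _ hw₀.1, ?_⟩
          rw [hcomm g.1 g.2.1]
          exact fun hh => hw₀.2 (smul_left_cancel g.1 hh)⟩ : {w : Ω // w ∈ M'})) := by
    constructor
    · rintro ⟨g, hg1, hg2⟩ ⟨g', hg1', hg2'⟩ hgg
      have h1 : g • w₀ = g' • w₀ := congrArg (fun z => z.1) hgg
      have h3 : g'⁻¹ * g = 1 := by
        apply key2 w₀ (t • w₀) hw₀.1 (htB _ hw₀.1) (Ne.symm hw₀.2)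
        · intro x hx
          rw [mul_smul, hg2 x hx, hinvB g' hg2' x hx]
        · rw [mul_smul, h1, inv_smul_smul]
        · rw [mul_smul, ← hcomm g hg1, h1, hcomm g' hg1', inv_smul_smul]
      exact Subtype.ext (inv_mul_eq_one.mp h3).symm
    · rintro ⟨w, hw⟩
      rw [hM'] at hw
      obtain ⟨g, hg1, hg2, hg3, hg4⟩ := key1 w₀ (t • w₀) hw₀.1 (htB _ hw₀.1) (Ne.symm hw₀.2)
        w (t • w) hw.1 (htB _ hw.1) (Ne.symm hw.2) (Or.inr ⟨rfl, rfl⟩)
      exact ⟨⟨g, hg1, hg2⟩, Subtype.ext hg3⟩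
  have e1 := Nat.card_congr (Equiv.ofBijective _ hΦ₁)
  have e2 := Nat.card_congr (Equiv.ofBijective _ hΦ₂)
  rw [Nat.card_eq_fintype_card (α := {pq : Ω × Ω // pq ∈ F'.offDiag}), Fintype.card_coe] at e1
  rw [Nat.card_eq_fintype_card (α := {w : Ω // w ∈ M'}), Fintype.card_coe] at e2
  rw [Nat.mul_sub_one, ← Finset.offDiag_card, ← e1, e2]

/-- version with `B = S ∪ P`, `S` fixed points and `P` a `t`-invariant set of moved points. -/
theorem key' (k : ℕ) (h : ST G Ω (Fin k)) (t : G) (ht : t * t = 1)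
    (S P F M : Finset Ω) (hF : ∀ x, x ∈ F ↔ t • x = x) (hM : ∀ x, x ∈ M ↔ t • x ≠ x)
    (hS : S ⊆ F) (hP : P ⊆ M) (hPt : ∀ x ∈ P, t • x ∈ P) (hcard : S.card + P.card + 2 = k)
    (hF2 : S.card + 2 ≤ F.card) (hM1 : P.card < M.card) :
    (F.card - S.card) * (F.card - S.card - 1) = M.card - P.card := by
  classical
  have hdisj : Disjoint S P := by
    rw [Finset.disjoint_left]
    intro x hx hx'
    exact (hM x).mp (hP hx') ((hF x).mp (hS hx))
  have h1 := key k h t ht (S ∪ P) (by rw [Finset.card_union_of_disjoint hdisj]; exact hcard)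
    (by
      intro x hx
      rcases Finset.mem_union.mp hx with hx | hx
      · rw [(hF x).mp (hS hx)]
        exact Finset.mem_union_left _ hx
      · exact Finset.mem_union_right _ (hPt x hx))
    (F \ S) (M \ P)
    (by
      intro p
      rw [Finset.mem_sdiff, Finset.mem_union, hF]
      constructor
      · rintro ⟨h1, h2⟩
        refine ⟨fun h3 => ?_, h1⟩
        rcases h3 with h3 | h3
        · exact h2 h3
        · exact (hM p).mp (hP h3) h1
      · rintro ⟨h1, h2⟩
        exact ⟨h2, fun h3 => h1 (Or.inl h3)⟩)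
    (by
      intro w
      rw [Finset.mem_sdiff, Finset.mem_union, hM]
      constructor
      · rintro ⟨h1, h2⟩
        refine ⟨fun h3 => ?_, h1⟩
        rcases h3 with h3 | h3
        · exact h1 ((hF w).mp (hS h3))
        · exact h2 h3
      · rintro ⟨h1, h2⟩
        exact ⟨h2, fun h3 => h1 (Or.inr h3)⟩)
    (by rw [Finset.card_sdiff_of_subset hS]; omega)
    (by rw [← Finset.card_pos, Finset.card_sdiff_of_subset hP]; omega)
  rw [Finset.card_sdiff_of_subset hS, Finset.card_sdiff_of_subset hP] at h1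
  exact h1

omit [Fintype Ω] in
theorem step (t : G) (ht : t * t = 1) (M P : Finset Ω) (hM : ∀ x, x ∈ M ↔ t • x ≠ x)
    (hP : P ⊆ M) (hPt : ∀ x ∈ P, t • x ∈ P) (a : Ω) (haM : a ∈ M) (haP : a ∉ P) :
    ∃ P' : Finset Ω, P' ⊆ M ∧ (∀ x ∈ P', t • x ∈ P') ∧ P'.card = P.card + 2 := by
  have htt : ∀ x : Ω, t • t • x = x := fun x => by rw [← mul_smul, ht, one_smul]
  have hta : t • a ≠ a := (hM a).mp haM
  have htaP : t • a ∉ P := fun hh => haP (by have := hPt _ hh; rwa [htt] at this)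
  refine ⟨insert a (insert (t • a) P), ?_, ?_, ?_⟩
  · intro x hx
    rcases Finset.mem_insert.mp hx with rfl | hx
    · exact haM
    rcases Finset.mem_insert.mp hx with rfl | hx
    · rw [hM, htt]
      exact fun hh => hta hh.symm
    · exact hP hx
  · intro x hx
    rcases Finset.mem_insert.mp hx with rfl | hx
    · exact Finset.mem_insert_of_mem (Finset.mem_insert_self _ _)
    rcases Finset.mem_insert.mp hx with rfl | hx
    · rw [htt]
      exact Finset.mem_insert_self _ _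
    · exact Finset.mem_insert_of_mem (Finset.mem_insert_of_mem (hPt x hx))
  · rw [Finset.card_insert_of_notMem, Finset.card_insert_of_notMem htaP]
    rw [Finset.mem_insert]
    rintro (hh | hh)
    · exact hta hh.symm
    · exact haP hh

/-- **Jordan**: a sharply `k`-transitive group (`k ≥ 4`) has degree `k`, `k+1`, `k+2`, or
`k + 7` with `k ∈ {4, 5}`. -/
theorem main (k : ℕ) (hk : 4 ≤ k) (h : ST G Ω (Fin k)) (hn : k ≤ Fintype.card Ω) :
    Fintype.card Ω = k ∨ Fintype.card Ω = k + 1 ∨ Fintype.card Ω = k + 2 ∨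
      (Fintype.card Ω = k + 7 ∧ k < 6) := by
  classical
  obtain ⟨x₁⟩ : Nonempty (Fin k ↪ Ω) :=
    Function.Embedding.nonempty_of_card_le (by simpa using hn)
  have hi : (⟨0, by omega⟩ : Fin k) ≠ ⟨1, by omega⟩ := by
    intro hh
    exact absurd (congrArg Fin.val hh) (by norm_num)
  generalize (⟨0, by omega⟩ : Fin k) = i₀ at hi
  generalize (⟨1, by omega⟩ : Fin k) = i₁ at hi
  obtain ⟨t, ht⟩ := h.1 x₁ ((Equiv.swap i₀ i₁).toEmbedding.trans x₁)
  have ht' : ∀ i, t • x₁ i = x₁ (Equiv.swap i₀ i₁ i) := ht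
  have htt : t * t = 1 := by
    apply h.2 x₁
    intro i
    rw [mul_smul, ht', ht', Equiv.swap_apply_self]
  obtain ⟨F, hF⟩ : ∃ F : Finset Ω, ∀ x, x ∈ F ↔ t • x = x :=
    ⟨Finset.univ.filter (fun x => t • x = x), fun x => by simp⟩
  obtain ⟨M, hM⟩ : ∃ M : Finset Ω, ∀ x, x ∈ M ↔ t • x ≠ x :=
    ⟨Finset.univ.filter (fun x => t • x ≠ x), fun x => by simp⟩
  have hFM : F.card + M.card = Fintype.card Ω := by
    have hd : Disjoint F M := by
      rw [Finset.disjoint_left]
      intro x hx hx'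
      exact (hM x).mp hx' ((hF x).mp hx)
    rw [← Finset.card_union_of_disjoint hd, ← Finset.card_univ]
    congr 1
    ext x
    simp only [Finset.mem_union, Finset.mem_univ, iff_true, hF, hM]
    exact em _
  have hta : t • x₁ i₀ ≠ x₁ i₀ := by
    rw [ht', Equiv.swap_apply_left]
    exact fun hh => hi (x₁.injective hh).symm
  have haM : x₁ i₀ ∈ M := (hM _).mpr hta
  have hf1 : F.card < k := by
    by_contra hcon
    push_neg at hcon
    obtain ⟨y⟩ : Nonempty (Fin k ↪ F) :=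
      Function.Embedding.nonempty_of_card_le (by simpa using hcon)
    have h1 : t = 1 :=
      h.2 (y.trans (Function.Embedding.subtype _)) t (fun i => (hF _).mp (y i).2)
    rw [h1, one_smul] at hta
    exact hta rfl
  have hf2 : k ≤ F.card + 2 := by
    have hsub : ((Finset.univ.erase i₀).erase i₁).map x₁ ⊆ F := by
      intro y hy
      rw [Finset.mem_map] at hy
      obtain ⟨i, hi', rfl⟩ := hy
      rw [Finset.mem_erase, Finset.mem_erase] at hi'
      rw [hF, ht', Equiv.swap_apply_of_ne_of_ne hi'.2.1 hi'.1]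
    have h1 := Finset.card_le_card hsub
    rw [Finset.card_map, Finset.card_erase_of_mem (by simp [hi.symm]),
      Finset.card_erase_of_mem (Finset.mem_univ _), Finset.card_univ, Fintype.card_fin] at h1
    omega
  obtain ⟨P₁, hP₁M, hP₁t, hP₁c⟩ := step t htt M ∅ hM (Finset.empty_subset _)
    (fun x hx => absurd hx (Finset.notMem_empty x)) (x₁ i₀) haM (Finset.notMem_empty _)
  rw [Finset.card_empty] at hP₁c
  by_cases hsmall : Fintype.card Ω ≤ k + 2
  · omega
  push_neg at hsmall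
  obtain ⟨S₁, hS₁F, hS₁c⟩ := Finset.exists_subset_card_eq (show k - 4 ≤ F.card by omega)
  have e1 := key' k h t htt S₁ P₁ F M hF hM hS₁F hP₁M hP₁t (by omega) (by omega) (by omega)
  rw [hS₁c, hP₁c] at e1
  have hcase : F.card = k - 2 ∨ F.card = k - 1 := by omega
  rcases hcase with hf | hf
  · have e2 : F.card - (k - 4) = 2 := by omega
    rw [e2] at e1
    omega
  · have e2 : F.card - (k - 4) = 3 := by omega
    rw [e2] at e1
    have hm : M.card = 8 := by omega
    right; right; right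
    refine ⟨by omega, ?_⟩
    by_contra hk6
    push_neg at hk6
    obtain ⟨a', ha'M, ha'P⟩ : ∃ a' ∈ M, a' ∉ P₁ := by
      by_contra hcon
      push_neg at hcon
      have h1 := Finset.card_le_card (show M ⊆ P₁ from hcon)
      omega
    obtain ⟨P₂, hP₂M, hP₂t, hP₂c⟩ := step t htt M P₁ hM hP₁M hP₁t a' ha'M ha'P
    obtain ⟨S₂, hS₂F, hS₂c⟩ := Finset.exists_subset_card_eq (show k - 6 ≤ F.card by omega)
    have e3 := key' k h t htt S₂ P₂ F M hF hM hS₂F hP₂M hP₂t (by omega) (by omega) (by omega)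
    rw [hS₂c, hP₂c, hP₁c] at e3
    have e4 : F.card - (k - 6) = 5 := by omega
    rw [e4, hm] at e3
    omega

end

/-- transfer from the `Subgroup (Equiv.Perm α)` formulation. -/
theorem st_of_sharp {α : Type*} [Fintype α] [DecidableEq α] (G : Subgroup (Equiv.Perm α)) (k : ℕ)
    [MulAction.IsMultiplyPretransitive G α k]
    (hsharp : ∀ x : Fin k ↪ α, MulAction.stabilizer G x = ⊥) : ST G α (Fin k) := by
  refine ⟨fun x y => ?_, fun x g hg => ?_⟩
  · obtain ⟨g, hg⟩ := exists_smul_eq G x y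
    exact ⟨g, fun i => congrArg (fun e : Fin k ↪ α => e i) hg⟩
  · have h1 : g ∈ stabilizer G x := by
      rw [mem_stabilizer_iff]
      ext i
      exact hg i
    rw [hsharp, Subgroup.mem_bot] at h1
    exact h1

/-- `S0415`/`S0416`/`S0417` in one statement. -/
theorem jordan {α : Type*} [Fintype α] [DecidableEq α] (G : Subgroup (Equiv.Perm α)) (k : ℕ)
    (hk : 4 ≤ k) (hn : k ≤ Fintype.card α) [MulAction.IsMultiplyPretransitive G α k]
    (hsharp : ∀ x : Fin k ↪ α, MulAction.stabilizer G x = ⊥) :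
    Fintype.card α = k ∨ Fintype.card α = k + 1 ∨ Fintype.card α = k + 2 ∨
      (Fintype.card α = k + 7 ∧ k < 6) :=
  main k hk (st_of_sharp G k hsharp) hn

end Cfsg.Agent.Lib.Helper3.Jordan4
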