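import Mathlib
import Cfsg.Agent.Lib.Helper3.Jordan4

set_option autoImplicit false

namespace Cfsg.Agent.Lib.Helper3.Jordan4b

open MulAction Cfsg.Agent.Lib.Helper3.Jordan4

variable {G Ω : Type*} [Group G] [MulAction G Ω]

/-- transfer from `IsMultiplyPretransitive` + trivial stabilisers, abstract action. -/
theorem st_of_sharp' (k : ℕ) (h : IsMultiplyPretransitive G Ω k)
    (hsharp : ∀ x : Fin k ↪ Ω, stabilizer G x = ⊥) : ST G Ω (Fin k) := by
  refine ⟨fun x y => ?_, fun x g hg => ?_⟩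
  · obtain ⟨g, hg⟩ := h.exists_smul_eq x y
    exact ⟨g, fun i => congrArg (fun e : Fin k ↪ Ω => e i) hg⟩
  · have h1 : g ∈ stabilizer G x := by
      rw [mem_stabilizer_iff]
      ext i
      exact hg i
    rw [hsharp, Subgroup.mem_bot] at h1
    exact h1

/-- a set carrying a sharply 4-transitive group is finite. -/
theorem finite_of_st4 (h : ST G Ω (Fin 4)) (hne : Nonempty (Fin 4 ↪ Ω)) : Finite Ω := by
  classical
  obtain ⟨x₁⟩ := hne
  obtain ⟨t, ht⟩ := h.1 x₁ ((Equiv.swap (2 : Fin 4) 3).toEmbedding.trans x₁)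
  have ht' : ∀ i, t • x₁ i = x₁ (Equiv.swap (2 : Fin 4) 3 i) := ht
  have htt : t * t = 1 := by
    apply h.2 x₁
    intro i
    rw [mul_smul, ht', ht', Equiv.swap_apply_self]
  have htsm : ∀ x : Ω, t • t • x = x := fun x => by rw [← mul_smul, htt, one_smul]
  have hp : t • x₁ 0 = x₁ 0 := by
    rw [ht']
    rfl
  have hq : t • x₁ 1 = x₁ 1 := by
    rw [ht']
    rfl
  have ha : t • x₁ 2 = x₁ 3 := by
    rw [ht']
    rfl
  have hc : t • x₁ 3 = x₁ 2 := by
    rw [ht']
    rfl
  have h01 : x₁ 0 ≠ x₁ 1 := fun hh => absurd (x₁.injective hh) (by decide)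
  have h02 : x₁ 0 ≠ x₁ 2 := fun hh => absurd (x₁.injective hh) (by decide)
  have h03 : x₁ 0 ≠ x₁ 3 := fun hh => absurd (x₁.injective hh) (by decide)
  have h12 : x₁ 1 ≠ x₁ 2 := fun hh => absurd (x₁.injective hh) (by decide)
  have h13 : x₁ 1 ≠ x₁ 3 := fun hh => absurd (x₁.injective hh) (by decide)
  have h23 : x₁ 2 ≠ x₁ 3 := fun hh => absurd (x₁.injective hh) (by decide)
  generalize x₁ 0 = p₀ at *
  generalize x₁ 1 = q₀ at *
  generalize x₁ 2 = a at *
  generalize x₁ 3 = c at *
  have hFfin : Finite {x : Ω // t • x = x} := by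
    by_contra hinf
    rw [not_finite_iff_infinite] at hinf
    have y : Fin 4 ↪ {x : Ω // t • x = x} := Fin.valEmbedding.trans (Infinite.natEmbedding _)
    have h1 : t = 1 := h.2 (y.trans (Function.Embedding.subtype _)) t (fun i => (y i).2)
    rw [h1, one_smul] at ha
    exact h23 ha
  obtain ⟨B, hBdef⟩ : ∃ B : Finset Ω, B = {a, c} := ⟨_, rfl⟩
  have hBmem : ∀ x, x ∈ B ↔ x = a ∨ x = c := by
    intro x
    rw [hBdef, Finset.mem_insert, Finset.mem_singleton]
  have hBt : ∀ x ∈ B, t • x ∈ B := by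
    intro x hx
    rcases (hBmem x).mp hx with rfl | rfl
    · rw [ha]
      exact (hBmem _).mpr (Or.inr rfl)
    · rw [hc]
      exact (hBmem _).mpr (Or.inl rfl)
  have htB : ∀ w : Ω, w ∉ B → t • w ∉ B := by
    intro w hw hh
    have h1 := hBt _ hh
    rw [htsm] at h1
    exact hw h1
  have hpB : p₀ ∉ B := fun hh => by
    rcases (hBmem _).mp hh with h1 | h1
    · exact h02 h1
    · exact h03 h1
  have hqB : q₀ ∉ B := fun hh => by
    rcases (hBmem _).mp hh with h1 | h1
    · exact h12 h1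
    · exact h13 h1
  have hBc : B.card + 2 = 4 := by
    rw [hBdef, Finset.card_pair h23]
  have e : Option (Option B) ≃ Fin 4 := Fintype.equivFinOfCardEq (by simp [hBc])
  have h' : ST G Ω (Option (Option B)) := h.congr e
  have hMfin : Finite {w : Ω // t • w ≠ w ∧ w ∉ B} := by
    by_cases hw₀ : ∃ w₀ : Ω, t • w₀ ≠ w₀ ∧ w₀ ∉ B
    · obtain ⟨w₀, hw₀m, hw₀B⟩ := hw₀
      have hex : ∀ w : {w : Ω // t • w ≠ w ∧ w ∉ B}, ∃ g : G, g * t = t * g ∧
          (∀ x ∈ B, g • x = x) ∧ g • w₀ = w.1 := by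
        rintro ⟨w, hwm, hwB⟩
        obtain ⟨g, hg⟩ := h'.1
          ⟨embFun B w₀ (t • w₀), embFun_inj B w₀ (t • w₀) hw₀B (htB _ hw₀B) (Ne.symm hw₀m)⟩
          ⟨embFun B w (t • w), embFun_inj B w (t • w) hwB (htB _ hwB) (Ne.symm hwm)⟩
        have hgB : ∀ x ∈ B, g • x = x := fun x hx => hg (some (some ⟨x, hx⟩))
        have hgu : g • w₀ = w := hg (some none)
        have hgv : g • t • w₀ = t • w := hg none
        refine ⟨g, ?_, hgB, hgu⟩
        have h1 : (t * g)⁻¹ * (g * t) = 1 := by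
          apply h'.2
            ⟨embFun B w₀ (t • w₀), embFun_inj B w₀ (t • w₀) hw₀B (htB _ hw₀B) (Ne.symm hw₀m)⟩
          intro i
          rw [mul_smul, inv_smul_eq_iff, mul_smul, mul_smul]
          rcases i with _ | _ | ⟨x, hx⟩
          · show g • t • t • w₀ = t • g • t • w₀
            rw [htsm, hgu, hgv, htsm]
          · show g • t • w₀ = t • g • w₀
            rw [hgv, hgu]
          · show g • t • x = t • g • x
            rw [hgB _ (hBt x hx), hgB x hx]
        exact (inv_mul_eq_one.mp h1).symm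
      choose γ hγ1 hγ2 hγ3 using hex
      have hinj : Function.Injective
          (fun w : {w : Ω // t • w ≠ w ∧ w ∉ B} =>
            ((⟨γ w • p₀, by
                show t • γ w • p₀ = γ w • p₀
                rw [← mul_smul, ← hγ1 w, mul_smul, hp]⟩,
              ⟨γ w • q₀, by
                show t • γ w • q₀ = γ w • q₀
                rw [← mul_smul, ← hγ1 w, mul_smul, hq]⟩) :
              {x : Ω // t • x = x} × {x : Ω // t • x = x})) := by
        intro w w' hww
        have e1 : γ w • p₀ = γ w' • p₀ := congrArg (fun z => z.1.1) hww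
        have e2 : γ w • q₀ = γ w' • q₀ := congrArg (fun z => z.2.1) hww
        have h3 : (γ w')⁻¹ * γ w = 1 := by
          apply h'.2 ⟨embFun B p₀ q₀, embFun_inj B p₀ q₀ hpB hqB h01⟩
          intro i
          rcases i with _ | _ | ⟨x, hx⟩
          · show ((γ w')⁻¹ * γ w) • q₀ = q₀
            rw [mul_smul, e2, inv_smul_smul]
          · show ((γ w')⁻¹ * γ w) • p₀ = p₀
            rw [mul_smul, e1, inv_smul_smul]
          · show ((γ w')⁻¹ * γ w) • x = x
            rw [mul_smul, hγ2 w x hx, inv_smul_eq_iff, hγ2 w' x hx]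
        have h4 : γ w = γ w' := (inv_mul_eq_one.mp h3).symm
        apply Subtype.ext
        rw [← hγ3 w, ← hγ3 w', h4]
      exact Finite.of_injective _ hinj
    · have : IsEmpty {w : Ω // t • w ≠ w ∧ w ∉ B} := ⟨fun w => hw₀ ⟨w.1, w.2⟩⟩
      infer_instance
  have hfin : (Set.univ : Set Ω).Finite := by
    have h1 : (Set.univ : Set Ω) = {x | t • x = x} ∪ ({w | t • w ≠ w ∧ w ∉ B} ∪ ↑B) := by
      ext x
      simp only [Set.mem_univ, Set.mem_union, Set.mem_setOf_eq, true_iff, Finset.mem_coe]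
      tauto
    rw [h1]
    exact (Set.finite_coe_iff.mp hFfin).union
      ((Set.finite_coe_iff.mp hMfin).union B.finite_toSet)
  exact Set.finite_univ_iff.mp hfin

/-- `S0708`: Tits' form of Jordan's theorem for sharply 4-transitive groups. -/
theorem tits (h4 : IsMultiplyPretransitive G Ω 4)
    (hsharp : ∀ x : Fin 4 ↪ Ω, stabilizer G x = ⊥) (hne : Nonempty (Fin 4 ↪ Ω)) :
    Finite Ω ∧ Nat.card Ω ≤ 11 ∧ (Even (Nat.card Ω) → Nat.card Ω ≤ 6) := by
  classical
  have hst := st_of_sharp' 4 h4 hsharp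
  have hfin := finite_of_st4 hst hne
  haveI := Fintype.ofFinite Ω
  have hn : 4 ≤ Fintype.card Ω := by
    obtain ⟨x⟩ := hne
    simpa using Fintype.card_le_of_embedding x
  have h5 := main 4 (le_refl 4) hst hn
  rw [Nat.card_eq_fintype_card]
  refine ⟨hfin, by omega, fun he => ?_⟩
  rcases h5 with h | h | h | ⟨h, -⟩
  · omega
  · rw [h] at he
    exact absurd he (by decide)
  · omega
  · rw [h] at he
    exact absurd he (by decide)

end Cfsg.Agent.Lib.Helper3.Jordan4b
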