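import Mathlib
import Cfsg.Prelude.Def_Sporadic_a
import Cfsg.Agent.Lib.Helper3.Golay
import Cfsg.Agent.Lib.Helper3.Golay2
import Cfsg.Agent.Lib.Helper3.GolayM24
import Cfsg.Agent.Lib.Helper3.M24Perm
import Cfsg.Agent.Lib.Helper3.M24Cert
import Cfsg.Agent.Lib.Helper3.M24Orb

set_option autoImplicit false

namespace Cfsg.Agent.Lib.Helper3.M24Mask

open Cfsg Cfsg.Agent.Lib.Helper3.Golay Cfsg.Agent.Lib.Helper3.Golay2
open Cfsg.Agent.Lib.Helper3.GolayM24 Cfsg.Agent.Lib.Helper3.M24Perm
open Cfsg.Agent.Lib.Helper3.M24Cert Cfsg.Agent.Lib.Helper3.M24Orb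
open scoped Pointwise

/-! ### masks and finsets -/

theorem ms_injOn {n m : ℕ} (hn : n < 2 ^ 24) (hm : m < 2 ^ 24) (h : ms n = ms m) : n = m := by
  apply Nat.eq_of_testBit_eq
  intro i
  by_cases hi : i < 24
  · have h1 : pt i ∈ ms n ↔ pt i ∈ ms m := by rw [h]
    rw [pt_mem_ms hi, pt_mem_ms hi] at h1
    cases h2 : n.testBit i <;> cases h3 : m.testBit i <;> simp_all
  · have hi' : 24 ≤ i := by omega
    have e1 : n < 2 ^ i := lt_of_lt_of_le hn (Nat.pow_le_pow_right (by norm_num) hi')
    have e2 : m < 2 ^ i := lt_of_lt_of_le hm (Nat.pow_le_pow_right (by norm_num) hi')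
    rw [Nat.testBit_lt_two_pow e1, Nat.testBit_lt_two_pow e2]

theorem ms_or (a b : ℕ) : ms a ∪ ms b = ms (a ||| b) := by
  ext p
  simp only [Finset.mem_union, mem_ms, Nat.testBit_or, Bool.or_eq_true]

theorem ms_subset_iff {a b : ℕ} (ha : a < 2 ^ 24) : ms a ⊆ ms b ↔ b &&& a = a := by
  constructor
  · intro h
    apply Nat.eq_of_testBit_eq
    intro i
    rw [Nat.testBit_and]
    by_cases hi : i < 24
    · have h1 : pt i ∈ ms a → pt i ∈ ms b := fun hh => h hh
      rw [pt_mem_ms hi, pt_mem_ms hi] at h1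
      cases h2 : a.testBit i
      · simp
      · simp [h1 h2]
    · have hi' : 24 ≤ i := by omega
      have e1 : a < 2 ^ i := lt_of_lt_of_le ha (Nat.pow_le_pow_right (by norm_num) hi')
      rw [Nat.testBit_lt_two_pow e1]
      simp
  · intro h p hp
    rw [mem_ms] at hp ⊢
    rw [← h, Nat.testBit_and] at hp
    simp only [Bool.and_eq_true] at hp
    exact hp.1

theorem ms_disjoint_iff {a b : ℕ} (ha : a < 2 ^ 24) : Disjoint (ms a) (ms b) ↔ a &&& b = 0 := by
  rw [Finset.disjoint_iff_inter_eq_empty, ms_and]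
  constructor
  · intro h
    apply Nat.eq_of_testBit_eq
    intro i
    rw [Nat.zero_testBit]
    by_cases hi : i < 24
    · have h1 : pt i ∉ ms (a &&& b) := by rw [h]; simp
      rw [pt_mem_ms hi] at h1
      simpa using h1
    · have hi' : 24 ≤ i := by omega
      have e1 : a < 2 ^ i := lt_of_lt_of_le ha (Nat.pow_le_pow_right (by norm_num) hi')
      rw [Nat.testBit_and, Nat.testBit_lt_two_pow e1]
      simp
  · intro h
    rw [h]
    ext p
    simp [mem_ms]

/-- mask of two points -/
def b2 (i j : ℕ) : ℕ := 2 ^ i ||| 2 ^ j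

/-- mask of three points -/
def b3 (i j k : ℕ) : ℕ := 2 ^ i ||| 2 ^ j ||| 2 ^ k

theorem ms_b2 {i j : ℕ} (hi : i < 24) (hj : j < 24) : ms (b2 i j) = {pt i, pt j} := by
  ext p
  simp only [mem_ms, b2, Nat.testBit_or, Nat.testBit_two_pow, Bool.or_eq_true, decide_eq_true_eq,
    Finset.mem_insert, Finset.mem_singleton]
  constructor
  · rintro (h | h)
    · left
      rw [h, pt_idx]
    · right
      rw [h, pt_idx]
  · rintro (h | h)
    · left
      rw [h, idx_pt i hi]
    · right
      rw [h, idx_pt j hj]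

theorem ms_b3 {i j k : ℕ} (hi : i < 24) (hj : j < 24) (hk : k < 24) :
    ms (b3 i j k) = {pt i, pt j, pt k} := by
  ext p
  simp only [mem_ms, b3, Nat.testBit_or, Nat.testBit_two_pow, Bool.or_eq_true, decide_eq_true_eq,
    Finset.mem_insert, Finset.mem_singleton]
  constructor
  · rintro ((h | h) | h)
    · left
      rw [h, pt_idx]
    · right; left
      rw [h, pt_idx]
    · right; right
      rw [h, pt_idx]
  · rintro (h | h | h)
    · left; left
      rw [h, idx_pt i hi]
    · left; right
      rw [h, idx_pt j hj]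
    · right
      rw [h, idx_pt k hk]

theorem exists_b2 {U : Finset GolayPt} (h : U.card = 2) :
    ∃ i j, i < 24 ∧ j < 24 ∧ i ≠ j ∧ U = ms (b2 i j) := by
  obtain ⟨a, b, hab, rfl⟩ := Finset.card_eq_two.mp h
  refine ⟨idx a, idx b, idx_lt a, idx_lt b, fun e => hab (idx_injective e), ?_⟩
  rw [ms_b2 (idx_lt a) (idx_lt b), pt_idx, pt_idx]

theorem exists_b3 {U : Finset GolayPt} (h : U.card = 3) :
    ∃ i j k, i < 24 ∧ j < 24 ∧ k < 24 ∧ i ≠ j ∧ i ≠ k ∧ j ≠ k ∧ U = ms (b3 i j k) := by
  obtain ⟨a, b, c, hab, hac, hbc, rfl⟩ := Finset.card_eq_three.mp h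
  refine ⟨idx a, idx b, idx c, idx_lt a, idx_lt b, idx_lt c, fun e => hab (idx_injective e),
    fun e => hac (idx_injective e), fun e => hbc (idx_injective e), ?_⟩
  rw [ms_b3 (idx_lt a) (idx_lt b) (idx_lt c), pt_idx, pt_idx, pt_idx]

theorem b2_lt {i j : ℕ} (hi : i < 24) (hj : j < 24) : b2 i j < 2 ^ 24 :=
  Nat.or_lt_two_pow (Nat.pow_lt_pow_right (by norm_num) hi) (Nat.pow_lt_pow_right (by norm_num) hj)

theorem b3_lt {i j k : ℕ} (hi : i < 24) (hj : j < 24) (hk : k < 24) : b3 i j k < 2 ^ 24 :=
  Nat.or_lt_two_pow (b2_lt hi hj) (Nat.pow_lt_pow_right (by norm_num) hk)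

def all2 (f : ℕ → Bool) : Bool :=
  (List.range 24).all (fun i => (List.range 24).all (fun j => Nat.beq i j || f (b2 i j)))

def all3 (f : ℕ → Bool) : Bool :=
  (List.range 24).all (fun i => (List.range 24).all (fun j => (List.range 24).all (fun k =>
    Nat.beq i j || Nat.beq i k || Nat.beq j k || f (b3 i j k))))

theorem all2_spec {f : ℕ → Bool} (h : all2 f = true) {i j : ℕ} (hi : i < 24) (hj : j < 24)
    (hij : i ≠ j) : f (b2 i j) = true := by
  simp only [all2, List.all_eq_true, List.mem_range, Bool.or_eq_true] at h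
  rcases h i hi j hj with h1 | h1
  · exact absurd (Nat.eq_of_beq_eq_true h1) hij
  · exact h1

theorem all3_spec {f : ℕ → Bool} (h : all3 f = true) {i j k : ℕ} (hi : i < 24) (hj : j < 24)
    (hk : k < 24) (hij : i ≠ j) (hik : i ≠ k) (hjk : j ≠ k) : f (b3 i j k) = true := by
  simp only [all3, List.all_eq_true, List.mem_range, Bool.or_eq_true] at h
  rcases h i hi j hj k hk with ((h1 | h1) | h1) | h1
  · exact absurd (Nat.eq_of_beq_eq_true h1) hij
  · exact absurd (Nat.eq_of_beq_eq_true h1) hik
  · exact absurd (Nat.eq_of_beq_eq_true h1) hjk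
  · exact h1

/-! ### the list of octad words -/

set_option maxRecDepth 100000 in
def octW : List ℕ := [3277413, 6053905, 6554826, 2702848, 3719203, 705094, 42232, 1337732, 6594610, 5476616, 4721045, 4424227, 5405696, 7438406, 1410188, 924689, 84464, 2675464, 8077824, 4593028, 4800613, 2564625, 2232654, 1053483, 1384564, 126216, 545190, 459847, 145176, 3474978, 2422785, 5309160, 6488205, 7903248, 3182981, 2820376, 1849378, 168928, 902657, 4216883, 5350928, 5262104, 4490852, 7767041, 797449, 596054, 1212619, 2810896, 2130606, 5129250, 4465308, 4264387, 2106966, 2430217, 2769128, 252432, 1589901, 1188915, 2269481, 1090380, 1413139, 919694, 290352, 6949956, 4845570, 5770785, 1050548, 1728778, 314056, 2969648, 2229713, 4587803, 4403780, 6344194, 7417889, 6365962, 6557781, 5640752, 3698756, 337856, 5279, 684577, 1805314, 4726026, 45159, 361272, 1134148, 2313249, 2890176, 3322370, 2135601, 3237906, 416040, 593097, 1217620, 7145475, 4301220, 632881, 1594898, 1192108, 2425238, 2110153, 5621792, 4261212,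 4470275, 6493202, 4253780, 5514536, 3154402, 3050016, 1869893, 542009, 140167, 463064, 4213932, 4860434, 5538256, 1460739, 504864, 582081, 3179802, 2377830, 4538962, 4223245, 2180760, 2826278, 1839388, 1647171, 580704, 493953, 5210132, 5511305, 1302533, 138790, 555160, 3152963, 2220640, 2101096, 3457556, 442481, 628112, 1182989, 6857221, 5939296, 4459426, 786999, 602472, 418953, 2141072, 4063314, 5899416, 5268006, 4299781, 6447171, 7357552, 6588684, 4343317, 4726955, 2892897, 2322816, 36294, 1327290, 1975812, 4752467, 7397512, 675712, 10558, 334433, 1369154, 2916505, 3610628, 2242672, 1063445, 1378634, 762504, 115766, 7409024, 5003780, 90318, 283537, 722544, 3736597, 2268296, 4626498, 5780352, 6644740, 5296705, 4271202, 6475812, 832080, 622863, 1186194, 2435240, 6820450, 5902343, 4294810, 2460752, 3227948, 792232, 213833, 421910, 1836419, 1265762, 175681, 3189796, 2384216, 2183687, 4850476, 4220306, 7864649, 3147996, 2854977, 2409888, 1675812, 133817, 551943, 4243818, 5508118, 4597797, 6979970,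 7612992, 1722420, 1060490, 951624, 118953, 2640465, 6308804, 5390753, 6100032, 3739786, 2263063, 1084018, 280334, 95313, 926128, 39257, 371206, 1332261, 1769924, 2687905, 2512448, 4346506, 4731956, 2921478, 1009728, 15777, 1164162, 6359604, 5441617, 4755660, 4336072, 6062602, 1121336, 689317, 57883, 381252, 3704512, 2501890, 6570537, 4361520, 5652556, 3678776, 3294342, 1161408, 18147, 987906, 663645, 301236, 1070536, 2031657, 2634003, 2949708, 4415544, 4785798, 7622914, 2605066, 277580, 69395, 1110320, 6305926, 5017889, 4441280, 4202192, 6915112, 185603, 884962, 1256224, 2365978, 2173253, 6889680, 5325835, 4241960, 3489985, 3806496, 530245, 861210, 475812, 1573998, 1204944, 837906, 2121909, 2754059, 5112513, 4282144, 5286147, 8126628, 3410225, 2147405, 1230376, 1613974, 210955, 396116, 6842656, 4505735, 6326497, 5409412, 4788761, 4989254, 2631052, 2245426, 298027, 1065303, 1405448, 5785794, 4645632, 6302745, 72588, 272595, 1737489, 2654580, 3951624, 4038912, 2296514, 1116327, 692282, 63108, 6406417,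 4656648, 1351424, 21116, 352547, 668866, 3297305, 2738308, 5833010, 7221256, 4924673, 4485344, 3246601, 2126890, 2757268, 1577201, 1525008, 231532, 4510744, 5249380, 6429441, 1618953, 208020, 608810, 2150610, 2363013, 180636, 567074, 1445088, 1661185, 7473194, 4536592, 4196943, 864389, 525274, 157028, 1484824, 2201890, 3172097, 5329044, 4900873, 7079696, 2204803, 3168928, 153797, 855332, 1687640, 4563017, 4231958, 563843, 1664160, 1245726, 1454401, 2372388, 2162811, 4870480, 4523185, 6432416, 6832158, 5252293, 3416079, 3216208, 1608104, 804052, 201013, 402026, 4476225, 4921504, 5275709, 6455896, 1584464, 427666, 843820, 2115979, 3672838, 2531524, 1352353, 657763, 351362, 6379592, 4768432, 4367374, 1312345, 1127686, 52005, 3328320, 2908802, 2491452, 4325622, 4744776, 7340691, 6295992, 5709954, 4819776, 3351624, 267634, 75309, 737427, 1103886, 4409606, 6337856, 99029, 307594, 1710664, 2627629, 3375280, 806987, 615188, 198058, 3421328, 5571333, 5255258, 6750560, 6837377, 3444840, 2120980, 1903248,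 237906, 430605, 4287105, 5280930, 4229001, 6703248, 150618, 535268, 1474854, 2392899, 2207772, 3811457, 7479572, 4526126, 4203377, 2168036, 3031301, 560668, 190626, 1852256, 1250945, 78514, 262637, 742412, 1100945, 2664522, 3539848, 5375810, 5024896, 6292775, 2255372, 2624690, 304405, 104010, 1075305, 6656640, 5817604, 4982904, 4370577, 5842956, 2019456, 1148257, 31554, 346141, 2328324, 7345676, 4330601, 5063048, 2704706, 2494627, 1122713, 1315526, 702724, 8414120, 9045270, 12717187, 8439632, 9701932, 10881097, 11055264, 8657159, 8464984, 9465987, 8490656, 11015256, 13373586, 13721920, 8925710, 9240913, 8541360, 12912836, 8581192, 10554382, 10543366, 8592704, 9193633, 13641904, 9969957, 11150144, 11831426, 13667400, 12861748, 14682450, 9486564, 8654232, 10666625, 13370381, 11010247, 9462812, 10093218, 8694112, 8733800, 9048457, 9537812, 14762146, 8773776, 14254209, 12720156, 12698124, 8796800, 9998658, 13303882, 10506593, 11469952, 9589508, 8922769, 8536111, 11551306, 13911680, 15274244, 12222476,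 10557585, 8946281, 12594948, 9835530, 10560816, 12587685, 15864000, 10584520, 8919856, 12944642, 12871690, 8622214, 9963547, 10513600, 13631886, 10537016, 11797828, 8999616, 8783649, 9078992, 9708306, 9506893, 10687016, 13124355, 9055272, 8407702, 15762208, 12747077, 14716939, 9158944, 8688833, 14176296, 11731203, 8663097, 8455014, 10832640, 8619033, 9968772, 9204992, 8593633, 11608708, 13636881, 13262980, 12584506, 10748656, 9830549, 9279496, 12624578, 14551296, 8546577, 10790408, 9456930, 8683614, 8499969, 14714004, 8660134, 9323032, 11046145, 13771273, 14688364, 16056344, 12726562, 11100169, 9503954, 8412681, 9543722, 10916112, 11282452, 8421811, 15747077, 12733024, 8398155, 8721940, 12075408, 13142054, 14950785, 12780432, 10630149, 8505411, 9451104, 9112069, 9474712, 12126304, 8966165, 9652360, 13938692, 8855820, 8524371, 11538486, 12638592, 12661896, 10486557, 10825794, 9568632, 8834052, 12685424, 15207048, 9610624, 9178690, 9769376, 10110017, 11028004, 10625178, 12985424, 10650722, 8484900,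 9471495, 13009064, 13121601, 9721936, 8426796, 14747201, 13829156, 8716939, 8401364, 10305542, 10491778, 12656663, 12849992, 10846245, 9929280, 8989058, 15515712, 8561204, 8963210, 11575377, 15073798, 13893731, 11535529, 8937586, 8521420, 13276672, 8849458, 11548936, 14919680, 12604486, 10768524, 10028808, 10021376, 8983587, 8798658, 12880401, 14828808, 11654144, 10496547, 9578566, 9208708, 13148440, 9748745, 8391797, 11669008, 13062145, 13108704, 11272490, 10170384, 8431757, 8471941, 9310308, 12325377, 14709264, 8704546, 9776129, 13192208, 10525252, 9607201, 8978620, 8611330, 12650793, 9020484, 11163650, 8931660, 10257456, 13703682, 12641313, 8555274, 10232008, 10765331, 12599513, 16262146, 15335473, 14156372, 11952160, 8675909, 8474906, 13811730, 9347075, 9440193, 10619300, 11108882, 8394986, 14949408, 9519665, 8436754, 10698836, 13443616]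

theorem octW_ok : octW.all (fun g => Nat.beq (cw (kOf g)) g && Nat.beq (pc g) 8) = true := by
  decide +kernel

theorem octW_all : (List.range 4096).all (fun k => !(Nat.beq (pc (cw k)) 8) ||
    octW.any (fun o => Nat.beq o (cw k))) = true := by
  decide +kernel

theorem octW_mem : ∀ g ∈ octW, ms g ∈ octads := by
  intro g hg
  have h := octW_ok
  rw [List.all_eq_true] at h
  have h1 := h g hg
  simp only [Bool.and_eq_true] at h1
  have e1 : cw (kOf g) = g := Nat.eq_of_beq_eq_true h1.1
  have e2 : pc g = 8 := Nat.eq_of_beq_eq_true h1.2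
  refine ⟨?_, by rw [card_ms, e2]⟩
  rw [ms_eq_support, ← e1]
  exact ⟨dec (cw (kOf g)), dec_cw_mem _, rfl⟩

theorem exists_octW {o : Finset GolayPt} (ho : o ∈ octads) : ∃ g ∈ octW, o = ms g := by
  obtain ⟨k, hk, rfl⟩ := (mem_supports_iff o).mp ho.1
  have h1 : pc (cw k) = 8 := by
    rw [← card_supp]
    exact ho.2
  have h := octW_all
  rw [List.all_eq_true] at h
  have h2 := h k (List.mem_range.mpr hk)
  simp only [h1, Nat.beq_refl, Bool.not_true, Bool.false_or, List.any_eq_true] at h2
  obtain ⟨g, hg, e⟩ := h2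
  exact ⟨g, hg, by rw [Nat.eq_of_beq_eq_true e, ms_cw]⟩

/-- is the mask x inside some octad? -/
def octAny (x : ℕ) : Bool := octW.any (fun o => Nat.beq (o &&& x) x)

theorem octAny_iff {x : ℕ} (hx : x < 2 ^ 24) :
    octAny x = true ↔ ∃ o ∈ octads, ms x ⊆ o := by
  simp only [octAny, List.any_eq_true]
  constructor
  · rintro ⟨g, hg, e⟩
    exact ⟨ms g, octW_mem g hg, (ms_subset_iff hx).mpr (Nat.eq_of_beq_eq_true e)⟩
  · rintro ⟨o, ho, h⟩
    obtain ⟨g, hg, rfl⟩ := exists_octW ho
    refine ⟨g, hg, ?_⟩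
    rw [(ms_subset_iff hx).mp h]
    exact Nat.beq_refl x

/-! ### orbit certificates on masks (bit sets indexed by masks) -/

theorem b2_comm (i j : ℕ) : b2 i j = b2 j i := by
  simp only [b2]
  exact Nat.lor_comm _ _

theorem exists_b2' {U : Finset GolayPt} (h : U.card = 2) :
    ∃ i j, i < 24 ∧ j < i ∧ U = ms (b2 i j) := by
  obtain ⟨i, j, hi, hj, hij, rfl⟩ := exists_b2 h
  rcases Nat.lt_or_gt_of_ne hij with h1 | h1
  · exact ⟨j, i, hj, h1, by rw [b2_comm]⟩
  · exact ⟨i, j, hi, h1, rfl⟩

theorem b3_swap12 (i j k : ℕ) : b3 i j k = b3 j i k := by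
  simp only [b3]
  rw [Nat.lor_comm (2 ^ i) (2 ^ j)]

theorem b3_swap23 (i j k : ℕ) : b3 i j k = b3 i k j := by
  simp only [b3]
  rw [Nat.lor_assoc, Nat.lor_comm (2 ^ j) (2 ^ k), ← Nat.lor_assoc]

theorem exists_b3' {U : Finset GolayPt} (h : U.card = 3) :
    ∃ i j k, i < 24 ∧ j < i ∧ k < j ∧ U = ms (b3 i j k) := by
  obtain ⟨i, j, k, hi, hj, hk, hij, hik, hjk, rfl⟩ := exists_b3 h
  rcases Nat.lt_or_gt_of_ne hij with h1 | h1 <;> rcases Nat.lt_or_gt_of_ne hik with h2 | h2 <;>
    rcases Nat.lt_or_gt_of_ne hjk with h3 | h3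
  · exact ⟨k, j, i, hk, h3, h1, by rw [b3_swap12 k j i, b3_swap23 j k i, b3_swap12 j i k]⟩
  · exact ⟨j, k, i, hj, h3, h2, by rw [b3_swap23 j k i, b3_swap12 j i k]⟩
  · omega
  · exact ⟨j, i, k, hj, h1, h2, by rw [b3_swap12]⟩
  · exact ⟨k, i, j, hk, h2, h1, by rw [b3_swap12 k i j, b3_swap23 i k j]⟩
  · omega
  · exact ⟨i, k, j, hi, h2, h3, by rw [b3_swap23]⟩
  · exact ⟨i, j, k, hi, h1, h3, rfl⟩

def all2' (f : ℕ → Bool) : Bool :=
  (List.range 24).all (fun i => (List.range i).all (fun j => f (b2 i j)))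

def all3' (f : ℕ → Bool) : Bool :=
  (List.range 24).all (fun i => (List.range i).all (fun j => (List.range j).all (fun k =>
    f (b3 i j k))))

theorem all2'_spec {f : ℕ → Bool} (h : all2' f = true) {i j : ℕ} (hi : i < 24) (hj : j < i) :
    f (b2 i j) = true := by
  simp only [all2', List.all_eq_true, List.mem_range] at h
  exact h i hi j hj

theorem all3'_spec {f : ℕ → Bool} (h : all3' f = true) {i j k : ℕ} (hi : i < 24) (hj : j < i)
    (hk : k < j) : f (b3 i j k) = true := by
  simp only [all3', List.all_eq_true, List.mem_range] at h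
  exact h i hi j hj k hk

/-- octad test against a list of octad words -/
def octIn (L : List ℕ) (x : ℕ) : Bool := L.any (fun o => Nat.beq (Nat.land o x) x)

theorem octIn_iff {L : List ℕ} {c : ℕ} (hL : ∀ o ∈ L, o ∈ octW)
    (hc : ∀ o ∈ octW, Nat.land o c = c → o ∈ L) {x : ℕ} (hx : x < 2 ^ 24)
    (hxc : Nat.land x c = c) : octIn L x = true ↔ ∃ o ∈ octads, ms x ⊆ o := by
  simp only [octIn, List.any_eq_true]
  constructor
  · rintro ⟨g, hg, e⟩
    exact ⟨ms g, octW_mem g (hL g hg), (ms_subset_iff hx).mpr (Nat.eq_of_beq_eq_true e)⟩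
  · rintro ⟨o, ho, h⟩
    obtain ⟨g, hg, rfl⟩ := exists_octW ho
    have h1 : g &&& x = x := (ms_subset_iff hx).mp h
    refine ⟨g, hc g hg ?_, ?_⟩
    · show g &&& c = c
      have h2 : x &&& c = c := hxc
      rw [← h2, ← Nat.land_assoc, h1]
    · show Nat.beq (g &&& x) x = true
      rw [h1]
      exact Nat.beq_refl x

/-- bit test with raw operations -/
def tb (v i : ℕ) : Bool := Nat.beq (Nat.land (Nat.shiftRight v i) 1) 1

theorem tb_eq (v i : ℕ) : tb v i = v.testBit i := by
  have h1 : Nat.land (Nat.shiftRight v i) 1 = (v >>> i) % 2 := Nat.and_one_is_mod (v >>> i)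
  rw [tb, h1, Nat.testBit, Nat.one_and_eq_mod_two]
  rcases Nat.mod_two_eq_zero_or_one (v >>> i) with h | h <;> rw [h] <;> rfl

theorem apm_lt {T : ℕ} (h : good T = true) (n : ℕ) : apm T n < 2 ^ 24 := by
  apply Nat.lt_pow_two_of_testBit
  intro j hj
  by_contra hc
  have h1 : (apm T n).testBit j = true := by simpa using hc
  obtain ⟨i, hi, -, e⟩ := (testBit_apm_iff T n j).mp h1
  have := good_lt h i hi
  omega

/-- step `e = parent + 2^24 * j`: generator number `j` applied to the already reached mask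
`parent` gives a new mask. Returns the bit set of reached masks, or `0` on failure. -/
def orbB (gs : List ℕ) : List ℕ → ℕ → ℕ
  | [], v => v
  | e :: es, v =>
    bif (tb v (Nat.mod e 16777216) && Nat.blt (Nat.div e 16777216) gs.length &&
        !(tb v (apm (gs.getD (Nat.div e 16777216) 0) (Nat.mod e 16777216))))
    then orbB gs es
      (Nat.lor v (Nat.pow 2 (apm (gs.getD (Nat.div e 16777216) 0) (Nat.mod e 16777216))))
    else 0

theorem orbB_zero (gs : List ℕ) : ∀ steps : List ℕ, orbB gs steps 0 = 0 := by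
  intro steps
  cases steps with
  | nil => rfl
  | cons e es =>
    have h : tb 0 (Nat.mod e 16777216) = false := by
      rw [tb_eq]
      simp
    simp only [orbB, h, Bool.false_and, cond_false]

theorem orbB_inv (A : Subgroup (Equiv.Perm GolayPt)) (gs : List ℕ)
    (hgs : ∀ g ∈ gs, good g = true ∧ tp g ∈ A) (m0 : ℕ) :
    ∀ (steps : List ℕ) (v : ℕ) (r : List ℕ),
      (∀ m, v.testBit m = true ↔ m ∈ r) → r.Nodup →
      (∀ m ∈ r, m < 2 ^ 24 ∧ ∃ σ ∈ A, σ • ms m0 = ms m) → orbB gs steps v ≠ 0 →
      ∃ r' : List ℕ, (∀ m, (orbB gs steps v).testBit m = true ↔ m ∈ r') ∧ r'.Nodup ∧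
        r'.length = r.length + steps.length ∧
        ∀ m ∈ r', m < 2 ^ 24 ∧ ∃ σ ∈ A, σ • ms m0 = ms m := by
  intro steps
  induction steps with
  | nil =>
    intro v r h1 h2 h3 _
    exact ⟨r, h1, h2, rfl, h3⟩
  | cons e es ih =>
    intro v r h1 h2 h3 hne
    simp only [orbB] at hne ⊢
    cases hc : (tb v (Nat.mod e 16777216) && Nat.blt (Nat.div e 16777216) gs.length &&
        !(tb v (apm (gs.getD (Nat.div e 16777216) 0) (Nat.mod e 16777216))))
    · rw [hc] at hne
      simp at hne
    · rw [hc] at hne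
      simp only [cond_true] at hne ⊢
      simp only [Bool.and_eq_true, Bool.not_eq_true', tb_eq] at hc
      obtain ⟨⟨c1, c2⟩, c3⟩ := hc
      have hlen : Nat.div e 16777216 < gs.length := by simpa using c2
      have hmem : gs.getD (Nat.div e 16777216) 0 ∈ gs := by
        rw [List.getD_eq_getElem _ _ hlen]
        exact List.getElem_mem hlen
      obtain ⟨hgood, hA⟩ := hgs _ hmem
      have hp := (h1 _).mp c1
      have hcn : apm (gs.getD (Nat.div e 16777216) 0) (Nat.mod e 16777216) ∉ r := by
        intro hcr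
        rw [← h1, c3] at hcr
        exact Bool.false_ne_true hcr
      obtain ⟨r', a1, a2, a3, a4⟩ := ih
        (Nat.lor v (Nat.pow 2 (apm (gs.getD (Nat.div e 16777216) 0) (Nat.mod e 16777216))))
        (apm (gs.getD (Nat.div e 16777216) 0) (Nat.mod e 16777216) :: r) (by
          intro m
          show (v ||| 2 ^ _).testBit m = true ↔ _
          rw [Nat.testBit_or, Bool.or_eq_true, Nat.testBit_two_pow, List.mem_cons, h1]
          constructor
          · rintro (h | h)
            · exact Or.inr h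
            · left
              have : apm (gs.getD (Nat.div e 16777216) 0) (Nat.mod e 16777216) = m := by
                simpa using h
              exact this.symm
          · rintro (h | h)
            · right
              simp [h]
            · exact Or.inl h) (List.nodup_cons.mpr ⟨hcn, h2⟩) (by
          intro m hm
          rw [List.mem_cons] at hm
          rcases hm with rfl | hm
          · refine ⟨apm_lt hgood _, ?_⟩
            obtain ⟨-, σ, hσ, hσ2⟩ := h3 _ hp
            refine ⟨tp (gs.getD (Nat.div e 16777216) 0) * σ, A.mul_mem hA hσ, ?_⟩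
            rw [mul_smul, hσ2, smul_ms hgood]
          · exact h3 m hm) hne
      refine ⟨r', a1, a2, ?_, a4⟩
      rw [a3, List.length_cons, List.length_cons]
      omega

theorem orbB_spec {Ds F gs steps : List ℕ} {m0 : ℕ} (hgs : gs.all (inFix Ds F) = true)
    (hm0 : m0 < 2 ^ 24) (hW : tb (orbB gs steps (2 ^ m0)) m0 = true) :
    (∀ m, (orbB gs steps (2 ^ m0)).testBit m = true →
      m < 2 ^ 24 ∧ ∃ σ ∈ fixG Ds F, σ • ms m0 = ms m) ∧
    {m | (orbB gs steps (2 ^ m0)).testBit m = true}.ncard = steps.length + 1 := by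
  rw [List.all_eq_true] at hgs
  have hne : orbB gs steps (2 ^ m0) ≠ 0 := by
    intro h0
    rw [h0, tb_eq] at hW
    simp at hW
  obtain ⟨r', a1, a2, a3, a4⟩ := orbB_inv (fixG Ds F) gs
    (fun g hg => ⟨inFix_good (hgs g hg), tp_mem_fixG (hgs g hg)⟩) m0 steps (2 ^ m0) [m0] (by
      intro m
      rw [Nat.testBit_two_pow, List.mem_singleton]
      simp [eq_comm]) (List.nodup_singleton m0) (by
      intro m hm
      rw [List.mem_singleton] at hm
      subst hm
      exact ⟨hm0, 1, (fixG Ds F).one_mem, one_smul _ _⟩) hne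
  refine ⟨fun m hm => a4 m ((a1 m).mp hm), ?_⟩
  have e : {m | (orbB gs steps (2 ^ m0)).testBit m = true} = (r'.toFinset : Set ℕ) := by
    ext m
    simp [a1]
  rw [e, Set.ncard_coe_finset, List.toFinset_card_of_nodup a2, a3]
  simp
  omega

/-- class check on masks: a mask with nonzero label lies in the listed bit set of its label. -/
def bchk (lab : ℕ → ℕ) (Ws : List (ℕ × ℕ)) (m : ℕ) : Bool :=
  Nat.beq (lab m) 0 || Ws.any (fun p => Nat.beq (lab m) p.1 && tb p.2 m)

theorem bchk_spec {lab : ℕ → ℕ} {Ws : List (ℕ × ℕ)} {m : ℕ} (h : bchk lab Ws m = true)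
    (h0 : lab m ≠ 0) : ∃ p ∈ Ws, lab m = p.1 ∧ p.2.testBit m = true := by
  simp only [bchk, Bool.or_eq_true, List.any_eq_true, Bool.and_eq_true, tb_eq] at h
  rcases h with h | ⟨p, hp, h1, h2⟩
  · exact absurd (Nat.eq_of_beq_eq_true h) h0
  · exact ⟨p, hp, Nat.eq_of_beq_eq_true h1, h2⟩

theorem bmask_trans {Ds F gs : List ℕ} (lab : ℕ → ℕ) (Ws : List (ℕ × ℕ))
    (hgs : gs.all (inFix Ds F) = true)
    (horb : ∀ l W, (l, W) ∈ Ws →
      ∃ steps m0, m0 < 2 ^ 24 ∧ orbB gs steps (2 ^ m0) = W ∧ tb W m0 = true)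
    (hdist : (Ws.map Prod.fst).Nodup)
    {m m' : ℕ} (hm : bchk lab Ws m = true) (hm' : bchk lab Ws m' = true)
    (h0 : lab m ≠ 0) (h : lab m = lab m') :
    ∃ σ ∈ fixG Ds F, σ • ms m = ms m' := by
  obtain ⟨p, hp, e1, b1⟩ := bchk_spec hm h0
  obtain ⟨q, hq, e2, b2⟩ := bchk_spec hm' (by rw [← h]; exact h0)
  have hpq : p = q := List.inj_on_of_nodup_map hdist hp hq (by rw [← e1, ← e2, h])
  subst hpq
  obtain ⟨steps, m0, hm0, hL, hW⟩ := horb p.1 p.2 hp
  rw [← hL] at hW b1 b2
  obtain ⟨key, -⟩ := orbB_spec hgs hm0 hW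
  obtain ⟨-, σ, hσ, e⟩ := key m b1
  obtain ⟨-, τ, hτ, e'⟩ := key m' b2
  exact ⟨τ * σ⁻¹, (fixG Ds F).mul_mem hτ ((fixG Ds F).inv_mem hσ), by
    rw [mul_smul, ← e, inv_smul_smul, e']⟩

/-- counting a family of sets given as a bit set of masks. -/
theorem ncard_class (P : Finset GolayPt → Prop) (W n : ℕ)
    (hcount : {m | W.testBit m = true}.ncard = n)
    (hlt : ∀ m, W.testBit m = true → m < 2 ^ 24) (h1 : ∀ m, W.testBit m = true → P (ms m))
    (h2 : ∀ U, P U → ∃ m, W.testBit m = true ∧ U = ms m) : {U | P U}.ncard = n := by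
  have e : {U | P U} = ms '' {m | W.testBit m = true} := by
    ext U
    constructor
    · intro hU
      obtain ⟨m, hm, rfl⟩ := h2 U hU
      exact ⟨m, hm, rfl⟩
    · rintro ⟨m, hm, rfl⟩
      exact h1 m hm
  rw [e, Set.InjOn.ncard_image, hcount]
  intro m hm m' hm' h
  exact ms_injOn (hlt m hm) (hlt m' hm') h

end Cfsg.Agent.Lib.Helper3.M24Mask
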