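import Mathlib
import Cfsg.Prelude.Def_Sporadic_a
import Cfsg.Agent.Lib.Helper3.Golay
import Cfsg.Agent.Lib.Helper3.Golay2
import Cfsg.Agent.Lib.Helper3.GolayM24
import Cfsg.Agent.Lib.Helper3.M24Perm
import Cfsg.Agent.Lib.Helper3.M24Cert
import Cfsg.Agent.Lib.Helper3.M24Orb
import Cfsg.Agent.Lib.Helper3.M24Mask

set_option autoImplicit false

namespace Cfsg.Agent.Lib.Helper3.M24Fin

open Cfsg Cfsg.Agent.Lib.Helper3.Golay Cfsg.Agent.Lib.Helper3.Golay2
open Cfsg.Agent.Lib.Helper3.GolayM24 Cfsg.Agent.Lib.Helper3.M24Perm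
open Cfsg.Agent.Lib.Helper3.M24Cert Cfsg.Agent.Lib.Helper3.M24Orb
open Cfsg.Agent.Lib.Helper3.M24Mask
open scoped Pointwise

/-- transitivity on the classes of a labelling of finsets, from mask orbit certificates. -/
theorem fin_trans {Ds F gs : List ℕ} (lab : ℕ → ℕ) (Ws : List (ℕ × ℕ))
    (hgs : gs.all (inFix Ds F) = true)
    (horb : ∀ l W, (l, W) ∈ Ws →
      ∃ steps m0, m0 < 2 ^ 24 ∧ orbB gs steps (2 ^ m0) = W ∧ tb W m0 = true)
    (hdist : (Ws.map Prod.fst).Nodup) (L : Finset GolayPt → ℕ)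
    (hstd : ∀ U, L U ≠ 0 → ∃ m, bchk lab Ws m = true ∧ U = ms m ∧ lab m = L U)
    {U U' : Finset GolayPt} (h0 : L U ≠ 0) (h : L U = L U') :
    ∃ σ ∈ fixG Ds F, σ • U = U' := by
  obtain ⟨m, hm, rfl, e⟩ := hstd U h0
  obtain ⟨m', hm', rfl, e'⟩ := hstd U' (by rw [← h]; exact h0)
  exact bmask_trans lab Ws hgs horb hdist hm hm' (by rw [e]; exact h0) (by rw [e, e', h])

/-- size of a class of a labelling of finsets, from a mask orbit certificate. -/
theorem fin_count {Ds F gs : List ℕ} (lab : ℕ → ℕ) (Ws : List (ℕ × ℕ))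
    (hgs : gs.all (inFix Ds F) = true) (hdist : (Ws.map Prod.fst).Nodup)
    (L : Finset GolayPt → ℕ) (hinv : ∀ σ ∈ fixG Ds F, ∀ U, L (σ • U) = L U)
    (hstd : ∀ U, L U ≠ 0 → ∃ m, bchk lab Ws m = true ∧ U = ms m ∧ lab m = L U)
    {l W m0 : ℕ} {steps : List ℕ} (hmem : (l, W) ∈ Ws) (hl : l ≠ 0) (hm0 : m0 < 2 ^ 24)
    (hW : orbB gs steps (2 ^ m0) = W) (hb : tb W m0 = true) (hstart : L (ms m0) = l) :
    {U | L U = l}.ncard = steps.length + 1 := by
  subst hW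
  obtain ⟨key, hcount⟩ := orbB_spec hgs hm0 hb
  refine ncard_class (fun U => L U = l) _ _ hcount (fun m hm => (key m hm).1) ?_ ?_
  · intro m hm
    obtain ⟨-, σ, hσ, e⟩ := key m hm
    show L (ms m) = l
    rw [← e, hinv σ hσ, hstart]
  · intro U hU
    have hU' : L U = l := hU
    obtain ⟨m, hm, rfl, e⟩ := hstd U (by rw [hU']; exact hl)
    obtain ⟨p, hp, e1, b1⟩ := bchk_spec hm (by rw [e, hU']; exact hl)
    have hpq : p = (l, orbB gs steps (2 ^ m0)) :=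
      List.inj_on_of_nodup_map hdist hp hmem (by rw [← e1, e, hU'])
    rw [hpq] at b1
    exact ⟨m, b1, rfl⟩

end Cfsg.Agent.Lib.Helper3.M24Fin
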