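import Mathlib
import Cfsg.Prelude.Def_Sporadic_a
import Cfsg.Agent.Lib.Helper3.Golay
import Cfsg.Agent.Lib.Helper3.Golay2
import Cfsg.Agent.Lib.Helper3.GolayM24
import Cfsg.Agent.Lib.Helper3.M24Perm
import Cfsg.Agent.Lib.Helper3.M24Cert
import Cfsg.Agent.Lib.Helper3.M24Cert2
import Cfsg.Agent.Lib.Helper3.M24Order
import Cfsg.Agent.Lib.Helper3.M24Trans
import Cfsg.Agent.Lib.Helper3.M24Oct
import Cfsg.Agent.Lib.Helper3.M24Dod
import Cfsg.Agent.Lib.Helper3.M24Orb

set_option autoImplicit false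

namespace Cfsg.Agent.Lib.Helper3.M24Meet

open Cfsg Cfsg.Agent.Lib.Helper3.Golay Cfsg.Agent.Lib.Helper3.Golay2
open Cfsg.Agent.Lib.Helper3.GolayM24 Cfsg.Agent.Lib.Helper3.M24Perm
open Cfsg.Agent.Lib.Helper3.M24Cert Cfsg.Agent.Lib.Helper3.M24Cert2
open Cfsg.Agent.Lib.Helper3.M24Order Cfsg.Agent.Lib.Helper3.M24Trans
open Cfsg.Agent.Lib.Helper3.M24Oct Cfsg.Agent.Lib.Helper3.M24Dod
open Cfsg.Agent.Lib.Helper3.M24Orb
open scoped Pointwise

/-- number of code words of weight `wt` meeting the standard word `cw c` in `i` points, as a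
count over word indices. -/
theorem ncard_meet_std (c wt i : ℕ) :
    {b : Finset GolayPt | b ∈ wordsOfWeight (golayCode : Set (GolayPt → ZMod 2)) wt ∧
      (ms (cw c) ∩ b).card = i}.ncard =
      ((Finset.range 4096).filter (fun k => pc (cw k) = wt ∧ pc (cw c &&& cw k) = i)).card := by
  have h : {b : Finset GolayPt | b ∈ wordsOfWeight (golayCode : Set (GolayPt → ZMod 2)) wt ∧
      (ms (cw c) ∩ b).card = i} =
      supp '' {k | k < 4096 ∧ pc (cw k) = wt ∧ pc (cw c &&& cw k) = i} := by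
    ext b
    rw [wordsOfWeight_eq]
    constructor
    · rintro ⟨⟨k, ⟨hk, hw⟩, rfl⟩, hi⟩
      refine ⟨k, ⟨hk, hw, ?_⟩, rfl⟩
      rw [← ms_cw, card_ms_inter] at hi
      exact hi
    · rintro ⟨k, ⟨hk, hw, hi⟩, rfl⟩
      refine ⟨⟨k, ⟨hk, hw⟩, rfl⟩, ?_⟩
      rw [← ms_cw, card_ms_inter]
      exact hi
  rw [h, Set.ncard_image_of_injOn]
  · rw [← Set.ncard_coe_finset]
    congr 1
    ext k
    simp
  · intro k hk k' hk' h
    exact supp_injOn k hk.1 k' hk'.1 h

/-- meet counts are invariant under `M24`. -/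
theorem ncard_meet_smul {σ : Equiv.Perm GolayPt} (hσ : σ ∈ M24) (wt i : ℕ) (a : Finset GolayPt) :
    {b : Finset GolayPt | b ∈ wordsOfWeight (golayCode : Set (GolayPt → ZMod 2)) wt ∧
      (σ • a ∩ b).card = i}.ncard =
    {b : Finset GolayPt | b ∈ wordsOfWeight (golayCode : Set (GolayPt → ZMod 2)) wt ∧
      (a ∩ b).card = i}.ncard := by
  have h : {b : Finset GolayPt | b ∈ wordsOfWeight (golayCode : Set (GolayPt → ZMod 2)) wt ∧
      (σ • a ∩ b).card = i} = (fun b => σ • b) ''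
      {b : Finset GolayPt | b ∈ wordsOfWeight (golayCode : Set (GolayPt → ZMod 2)) wt ∧
      (a ∩ b).card = i} := by
    ext b
    constructor
    · rintro ⟨⟨hb, hc⟩, hi⟩
      refine ⟨σ⁻¹ • b, ⟨⟨smul_mem_supports (M24.inv_mem hσ) hb, by
        rw [Finset.card_smul_finset]; exact hc⟩, ?_⟩, smul_inv_smul σ b⟩
      rw [← hi, ← Finset.card_smul_finset σ (a ∩ σ⁻¹ • b), Finset.smul_finset_inter,
        smul_inv_smul]
    · rintro ⟨b, ⟨⟨hb, hc⟩, hi⟩, rfl⟩
      refine ⟨⟨smul_mem_supports hσ hb, by rw [Finset.card_smul_finset]; exact hc⟩, ?_⟩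
      rw [← Finset.smul_finset_inter, Finset.card_smul_finset]
      exact hi
  rw [h, Set.ncard_image_of_injective _ (MulAction.injective σ)]

theorem cnt_o0 : ((Finset.range 4096).filter
    (fun k => pc (cw k) = 8 ∧ pc (cw 345 &&& cw k) = 0)).card = 30 := by
  decide +kernel

theorem cnt_o2 : ((Finset.range 4096).filter
    (fun k => pc (cw k) = 8 ∧ pc (cw 345 &&& cw k) = 2)).card = 448 := by
  decide +kernel

theorem cnt_o4 : ((Finset.range 4096).filter
    (fun k => pc (cw k) = 8 ∧ pc (cw 345 &&& cw k) = 4)).card = 280 := by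
  decide +kernel

theorem cnt_o8 : ((Finset.range 4096).filter
    (fun k => pc (cw k) = 8 ∧ pc (cw 345 &&& cw k) = 8)).card = 1 := by
  decide +kernel

theorem cnt_d0 : ((Finset.range 4096).filter
    (fun k => pc (cw k) = 12 ∧ pc (cw 1 &&& cw k) = 0)).card = 1 := by
  decide +kernel

theorem cnt_d4 : ((Finset.range 4096).filter
    (fun k => pc (cw k) = 12 ∧ pc (cw 1 &&& cw k) = 4)).card = 495 := by
  decide +kernel

theorem cnt_d6 : ((Finset.range 4096).filter
    (fun k => pc (cw k) = 12 ∧ pc (cw 1 &&& cw k) = 6)).card = 1584 := by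
  decide +kernel

theorem cnt_d8 : ((Finset.range 4096).filter
    (fun k => pc (cw k) = 12 ∧ pc (cw 1 &&& cw k) = 8)).card = 495 := by
  decide +kernel

theorem cnt_d12 : ((Finset.range 4096).filter
    (fun k => pc (cw k) = 12 ∧ pc (cw 1 &&& cw k) = 12)).card = 1 := by
  decide +kernel

/-- octads meeting dodecads: counts over the standard dodecad. -/
theorem cnt_od2 : ((Finset.range 4096).filter
    (fun k => pc (cw k) = 8 ∧ pc (cw 1 &&& cw k) = 2)).card = 132 := by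
  decide +kernel

theorem cnt_od4 : ((Finset.range 4096).filter
    (fun k => pc (cw k) = 8 ∧ pc (cw 1 &&& cw k) = 4)).card = 495 := by
  decide +kernel

theorem cnt_od6 : ((Finset.range 4096).filter
    (fun k => pc (cw k) = 8 ∧ pc (cw 1 &&& cw k) = 6)).card = 132 := by
  decide +kernel

theorem octad_meet_ncard {o : Finset GolayPt} (ho : o ∈ octads) :
    {o' : Finset GolayPt | o' ∈ octads ∧ (o ∩ o').card = 0}.ncard = 30 ∧
    {o' : Finset GolayPt | o' ∈ octads ∧ (o ∩ o').card = 2}.ncard = 448 ∧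
    {o' : Finset GolayPt | o' ∈ octads ∧ (o ∩ o').card = 4}.ncard = 280 ∧
    {o' : Finset GolayPt | o' ∈ octads ∧ (o ∩ o').card = 8}.ncard = 1 := by
  obtain ⟨σ, hσ, rfl⟩ := octad_trans o0_mem_octads ho
  unfold octads
  refine ⟨?_, ?_, ?_, ?_⟩
  · rw [ncard_meet_smul hσ, ncard_meet_std, cnt_o0]
  · rw [ncard_meet_smul hσ, ncard_meet_std, cnt_o2]
  · rw [ncard_meet_smul hσ, ncard_meet_std, cnt_o4]
  · rw [ncard_meet_smul hσ, ncard_meet_std, cnt_o8]

theorem dodecad_meet_ncard {d : Finset GolayPt} (hd : d ∈ dodecads) :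
    {d' : Finset GolayPt | d' ∈ dodecads ∧ (d ∩ d').card = 0}.ncard = 1 ∧
    {d' : Finset GolayPt | d' ∈ dodecads ∧ (d ∩ d').card = 4}.ncard = 495 ∧
    {d' : Finset GolayPt | d' ∈ dodecads ∧ (d ∩ d').card = 6}.ncard = 1584 ∧
    {d' : Finset GolayPt | d' ∈ dodecads ∧ (d ∩ d').card = 8}.ncard = 495 ∧
    {d' : Finset GolayPt | d' ∈ dodecads ∧ (d ∩ d').card = 12}.ncard = 1 := by
  obtain ⟨σ, hσ, rfl⟩ := dodecad_orbit hd
  unfold dodecads
  refine ⟨?_, ?_, ?_, ?_, ?_⟩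
  · rw [ncard_meet_smul hσ, ncard_meet_std, cnt_d0]
  · rw [ncard_meet_smul hσ, ncard_meet_std, cnt_d4]
  · rw [ncard_meet_smul hσ, ncard_meet_std, cnt_d6]
  · rw [ncard_meet_smul hσ, ncard_meet_std, cnt_d8]
  · rw [ncard_meet_smul hσ, ncard_meet_std, cnt_d12]

theorem dodecad_inter_cases {d d' : Finset GolayPt} (hd : d ∈ dodecads) (hd' : d' ∈ dodecads) :
    (d ∩ d').card = 0 ∨ (d ∩ d').card = 4 ∨ (d ∩ d').card = 6 ∨ (d ∩ d').card = 8 ∨
      (d ∩ d').card = 12 := by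
  have h3 := card_cases (symmDiff_mem_supports hd.1 hd'.1)
  have h4 := card_symmDiff_add d d'
  rw [hd.2, hd'.2] at h4
  omega

theorem dodecad_eq_of_inter {d d' : Finset GolayPt} (hd : d ∈ dodecads) (hd' : d' ∈ dodecads)
    (h : (d ∩ d').card = 12) : d' = d := by
  have h1 : d ∩ d' = d := Finset.eq_of_subset_of_card_le Finset.inter_subset_left (by
    rw [h, hd.2])
  have h2 : d ∩ d' = d' := Finset.eq_of_subset_of_card_le Finset.inter_subset_right (by
    rw [h, hd'.2])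
  rw [← h2, h1]

end Cfsg.Agent.Lib.Helper3.M24Meet
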