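import Mathlib
import Cfsg.Prelude.Def_Sporadic_a
import Cfsg.Agent.Lib.Helper3.Golay
import Cfsg.Agent.Lib.Helper3.Golay2
import Cfsg.Agent.Lib.Helper3.GolayM24
import Cfsg.Agent.Lib.Helper3.M24Perm
import Cfsg.Agent.Lib.Helper3.M24Cert
import Cfsg.Agent.Lib.Helper3.M24Trans
import Cfsg.Agent.Lib.Helper3.M24Orb
import Cfsg.Agent.Lib.Helper3.M24Cls
import Cfsg.Agent.Lib.Helper3.M24Mask
import Cfsg.Agent.Lib.Helper3.M24MaskB
import Cfsg.Agent.Lib.Helper3.M24Fin

set_option autoImplicit false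

namespace Cfsg.Agent.Lib.Helper3.M24Triad

open Cfsg Cfsg.Agent.Lib.Helper3.Golay Cfsg.Agent.Lib.Helper3.Golay2
open Cfsg.Agent.Lib.Helper3.GolayM24 Cfsg.Agent.Lib.Helper3.M24Perm
open Cfsg.Agent.Lib.Helper3.M24Cert Cfsg.Agent.Lib.Helper3.M24Trans
open Cfsg.Agent.Lib.Helper3.M24Orb Cfsg.Agent.Lib.Helper3.M24Cls
open Cfsg.Agent.Lib.Helper3.M24Mask Cfsg.Agent.Lib.Helper3.M24MaskB
open Cfsg.Agent.Lib.Helper3.M24Fin
open scoped Pointwise

theorem sub_of_all {L M : List ℕ}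
    (h : L.all (fun o => M.any (fun x => Nat.beq x o)) = true) : ∀ o ∈ L, o ∈ M := by
  intro o ho
  rw [List.all_eq_true] at h
  have h1 := h o ho
  rw [List.any_eq_true] at h1
  obtain ⟨x, hx, e⟩ := h1
  rw [← Nat.eq_of_beq_eq_true e]
  exact hx

theorem filt_of_all {L M : List ℕ} {c : ℕ}
    (h : L.all (fun o => !(Nat.beq (Nat.land o c) c) || M.any (fun x => Nat.beq x o)) = true) :
    ∀ o ∈ L, Nat.land o c = c → o ∈ M := by
  intro o ho hc
  rw [List.all_eq_true] at h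
  have h1 := h o ho
  rw [hc] at h1
  simp only [Nat.beq_refl, Bool.not_true, Bool.false_or, List.any_eq_true] at h1
  obtain ⟨x, hx, e⟩ := h1
  rw [← Nat.eq_of_beq_eq_true e]
  exact hx

theorem lor_land_self (m c : ℕ) : Nat.land (Nat.lor m c) c = c := by
  show (m ||| c) &&& c = c
  apply Nat.eq_of_testBit_eq
  intro i
  rw [Nat.testBit_and, Nat.testBit_or]
  cases m.testBit i <;> cases c.testBit i <;> rfl

theorem oct_smul_iff {σ : Equiv.Perm GolayPt} (hσ : σ ∈ M24) (X : Finset GolayPt) :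
    (∃ o ∈ octads, σ • X ⊆ o) ↔ ∃ o ∈ octads, X ⊆ o := by
  constructor
  · rintro ⟨o, ho, h⟩
    exact ⟨σ⁻¹ • o, (smul_mem_octads_iff (M24.inv_mem hσ) o).mpr ho,
      Finset.smul_finset_subset_iff.mp h⟩
  · rintro ⟨o, ho, h⟩
    exact ⟨σ • o, (smul_mem_octads_iff hσ o).mpr ho,
      Finset.smul_finset_subset_smul_finset_iff.mpr h⟩

/-! ### triads -/

open Classical in
/-- label of a triad `U` relative to a triad `T`: 1, 2 for disjoint triads (inside a common
octad or not), otherwise the size of the meet plus 2. -/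
noncomputable def tlab (T U : Finset GolayPt) : ℕ :=
  if (T ∩ U).card = 0 then (if ∃ o ∈ octads, T ∪ U ⊆ o then 1 else 2) else (T ∩ U).card + 2

theorem tlab_ne_zero (T U : Finset GolayPt) : tlab T U ≠ 0 := by
  unfold tlab
  split_ifs <;> omega

theorem tlab_smul {σ : Equiv.Perm GolayPt} (hσ : σ ∈ M24) (T U : Finset GolayPt) :
    tlab (σ • T) (σ • U) = tlab T U := by
  classical
  unfold tlab
  rw [card_smul_inter_smul, ← Finset.smul_finset_union]
  simp only [oct_smul_iff hσ]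

theorem tlab_std {m : ℕ} (hm : m < 2 ^ 24) : tlab (ms 7) (ms m) = lab3 m := by
  unfold tlab lab3
  have h1 : (ms 7 ∩ ms m).card = 0 ↔ Nat.land m 7 = 0 := by
    rw [Finset.card_eq_zero, ← Finset.disjoint_iff_inter_eq_empty, ms_disjoint_iff (by norm_num)]
    show 7 &&& m = 0 ↔ m &&& 7 = 0
    rw [Nat.and_comm]
  have h2 : (ms 7 ∩ ms m).card = pc (Nat.land m 7) := by
    rw [card_ms_inter]
    show pc (7 &&& m) = pc (m &&& 7)
    rw [Nat.and_comm]
  have h3 : (∃ o ∈ octads, ms 7 ∪ ms m ⊆ o) ↔ octIn oct7 (Nat.lor m 7) = true := by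
    rw [ms_or]
    have e : 7 ||| m = Nat.lor m 7 := Nat.or_comm 7 m
    rw [e]
    exact (octIn_iff (sub_of_all oct7_sub) (filt_of_all oct7_all) (x := Nat.lor m 7)
      (Nat.or_lt_two_pow hm (by norm_num)) (lor_land_self m 7)).symm
  by_cases hc : Nat.land m 7 = 0
  · rw [if_pos (h1.mpr hc), hc]
    by_cases ho : octIn oct7 (Nat.lor m 7) = true
    · rw [if_pos (h3.mpr ho), ho]
      rfl
    · rw [if_neg (fun h => ho (h3.mp h))]
      simp only [Bool.not_eq_true] at ho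
      rw [ho]
      rfl
  · rw [if_neg (fun h => hc (h1.mp h)), h2]
    have hb : Nat.beq (Nat.land m 7) 0 = false := by
      cases hbe : Nat.beq (Nat.land m 7) 0
      · rfl
      · exact absurd (Nat.eq_of_beq_eq_true hbe) hc
    rw [hb]
    rfl

theorem ms7 : ms 7 = {pt 0, pt 1, pt 2} := by
  have e : (7 : ℕ) = b3 0 1 2 := by decide
  rw [e]
  exact ms_b3 (by norm_num) (by norm_num) (by norm_num)

theorem triad_std {T : Finset GolayPt} (hT : T.card = 3) : ∃ σ ∈ M24, σ • ms 7 = T := by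
  obtain ⟨a, b, c, hab, hac, hbc, rfl⟩ := Finset.card_eq_three.mp hT
  obtain ⟨σ, hσ, e0, e1, e2⟩ := trans3 (pt 0) (pt 1) (pt 2) a b c (by decide) (by decide)
    (by decide) hab hac hbc
  refine ⟨σ, hσ, ?_⟩
  rw [ms7, Finset.smul_finset_insert, Finset.smul_finset_insert, Finset.smul_finset_singleton]
  simp only [Equiv.Perm.smul_def, e0, e1, e2]

/-- the labelling used at the standard triad -/
noncomputable def L3 (U : Finset GolayPt) : ℕ := if U.card = 3 then tlab (ms 7) U else 0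

theorem L3_std : ∀ U, L3 U ≠ 0 → ∃ m, bchk lab3 ws_t3 m = true ∧ U = ms m ∧ lab3 m = L3 U := by
  intro U hU
  have hc : U.card = 3 := by
    by_contra h
    exact hU (by rw [L3, if_neg h])
  obtain ⟨i, j, k, hi, hj, hk, rfl⟩ := exists_b3' hc
  have hlt := b3_lt hi (show j < 24 by omega) (show k < 24 by omega)
  refine ⟨b3 i j k, all3'_spec all_t3 hi hj hk, rfl, ?_⟩
  rw [L3, if_pos hc, tlab_std hlt]

theorem L3_inv : ∀ σ ∈ fixG [7] [], ∀ U, L3 (σ • U) = L3 U := by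
  intro σ hσ U
  unfold L3
  rw [Finset.card_smul_finset]
  have h7 : σ • ms 7 = ms 7 := hσ.2.1 7 (by simp)
  have h : tlab (ms 7) (σ • U) = tlab (ms 7) U := by
    conv_lhs => rw [← h7]
    exact tlab_smul hσ.1 _ _
  rw [h]

theorem triad_trans {T U U' : Finset GolayPt} (hT : T.card = 3) (hU : U.card = 3)
    (hU' : U'.card = 3) (h : tlab T U = tlab T U') :
    ∃ g : Equiv.Perm GolayPt, g ∈ M24 ∧ g • T = T ∧ g • U = U' := by
  obtain ⟨σ, hσ, rfl⟩ := triad_std hT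
  have e : ∀ V : Finset GolayPt, V.card = 3 → L3 (σ⁻¹ • V) = tlab (σ • ms 7) V := by
    intro V hV
    rw [L3, if_pos (by rw [Finset.card_smul_finset]; exact hV), ← tlab_smul hσ, smul_inv_smul]
  have key := fin_trans lab3 ws_t3 g_t3_ok horb_t3 dist_t3 L3 L3_std (U := σ⁻¹ • U)
    (U' := σ⁻¹ • U') (by rw [e U hU]; exact tlab_ne_zero _ _) (by rw [e U hU, e U' hU', h])
  obtain ⟨g, hg, h1, -, h3⟩ := std_pull hσ key
  exact ⟨g, hg, h1 7 (by simp), h3⟩

theorem triad_count_aux {T : Finset GolayPt} (hT : T.card = 3) {l W n : ℕ}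
    (hmem : (l, W) ∈ ws_t3) (hl : l ≠ 0)
    (hcls : ∃ (steps : List ℕ) (m0 : ℕ), m0 < 2 ^ 24 ∧ orbB g_t3 steps (2 ^ m0) = W ∧
      tb W m0 = true ∧ pc m0 = 3 ∧ lab3 m0 = l ∧ steps.length + 1 = n) :
    {U : Finset GolayPt | U.card = 3 ∧ tlab T U = l}.ncard = n := by
  obtain ⟨σ, hσ, rfl⟩ := triad_std hT
  obtain ⟨steps, m0, hm0, hW, hb, hpc, hlab, hlen⟩ := hcls
  have h1 : {U : Finset GolayPt | U.card = 3 ∧ tlab (σ • ms 7) U = l}.ncard =
      {U : Finset GolayPt | L3 U = l}.ncard := by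
    apply ncard_transport σ (fun U => L3 U = l) (fun U => U.card = 3 ∧ tlab (σ • ms 7) U = l)
    intro b
    rw [Finset.card_smul_finset, tlab_smul hσ]
    unfold L3
    by_cases hb3 : b.card = 3
    · rw [if_pos hb3]
      exact ⟨fun h => h.2, fun h => ⟨hb3, h⟩⟩
    · rw [if_neg hb3]
      exact ⟨fun h => absurd h.1 hb3, fun h => absurd h.symm hl⟩
  rw [h1, fin_count lab3 ws_t3 g_t3_ok dist_t3 L3 L3_inv L3_std hmem hl hm0 hW hb
    (by rw [L3, if_pos (by rw [card_ms, hpc]), tlab_std hm0, hlab]), hlen]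

theorem triad_count {T : Finset GolayPt} (hT : T.card = 3) :
    {U : Finset GolayPt | U.card = 3 ∧ tlab T U = 1}.ncard = 210 ∧
    {U : Finset GolayPt | U.card = 3 ∧ tlab T U = 2}.ncard = 1120 ∧
    {U : Finset GolayPt | U.card = 3 ∧ tlab T U = 3}.ncard = 630 ∧
    {U : Finset GolayPt | U.card = 3 ∧ tlab T U = 4}.ncard = 63 ∧
    {U : Finset GolayPt | U.card = 3 ∧ tlab T U = 5}.ncard = 1 :=
  ⟨triad_count_aux hT (by simp [ws_t3]) (by norm_num) cls_t3_1,
   triad_count_aux hT (by simp [ws_t3]) (by norm_num) cls_t3_2,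
   triad_count_aux hT (by simp [ws_t3]) (by norm_num) cls_t3_3,
   triad_count_aux hT (by simp [ws_t3]) (by norm_num) cls_t3_4,
   triad_count_aux hT (by simp [ws_t3]) (by norm_num) cls_t3_5⟩

/-! ### duads -/

theorem ms3 : ms 3 = {pt 0, pt 1} := by
  have e : (3 : ℕ) = b2 0 1 := by decide
  rw [e]
  exact ms_b2 (by norm_num) (by norm_num)

theorem duad_std {s : Finset GolayPt} (hs : s.card = 2) : ∃ σ ∈ M24, σ • ms 3 = s := by
  obtain ⟨a, b, hab, rfl⟩ := Finset.card_eq_two.mp hs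
  obtain ⟨σ, hσ, e0, e1⟩ := trans2 (pt 0) (pt 1) a b (by decide) hab
  refine ⟨σ, hσ, ?_⟩
  rw [ms3, Finset.smul_finset_insert, Finset.smul_finset_singleton]
  simp only [Equiv.Perm.smul_def, e0, e1]

/-- the labelling used at the standard duad -/
def L2 (U : Finset GolayPt) : ℕ := if U.card = 2 then (ms 3 ∩ U).card + 1 else 0

theorem L2_std : ∀ U, L2 U ≠ 0 → ∃ m, bchk lab2 ws_t2 m = true ∧ U = ms m ∧ lab2 m = L2 U := by
  intro U hU
  have hc : U.card = 2 := by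
    by_contra h
    exact hU (by rw [L2, if_neg h])
  obtain ⟨i, j, hi, hj, rfl⟩ := exists_b2' hc
  refine ⟨b2 i j, all2'_spec all_t2 hi hj, rfl, ?_⟩
  rw [L2, if_pos hc, card_ms_inter]
  show pc (b2 i j &&& 3) + 1 = pc (3 &&& b2 i j) + 1
  rw [Nat.and_comm]

theorem L2_inv : ∀ σ ∈ fixG [3] [], ∀ U, L2 (σ • U) = L2 U := by
  intro σ hσ U
  unfold L2
  rw [Finset.card_smul_finset]
  have h3 : σ • ms 3 = ms 3 := hσ.2.1 3 (by simp)
  have h : (ms 3 ∩ σ • U).card = (ms 3 ∩ U).card := by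
    conv_lhs => rw [← h3]
    exact card_smul_inter_smul σ _ _
  rw [h]

theorem duad_trans {s U U' : Finset GolayPt} (hs : s.card = 2) (hU : U.card = 2)
    (hU' : U'.card = 2) (h : (s ∩ U).card = (s ∩ U').card) :
    ∃ g : Equiv.Perm GolayPt, g ∈ M24 ∧ g • s = s ∧ g • U = U' := by
  obtain ⟨σ, hσ, rfl⟩ := duad_std hs
  have e : ∀ V : Finset GolayPt, V.card = 2 → L2 (σ⁻¹ • V) = (σ • ms 3 ∩ V).card + 1 := by
    intro V hV
    rw [L2, if_pos (by rw [Finset.card_smul_finset]; exact hV), card_inter_inv_smul]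
  have key := fin_trans lab2 ws_t2 g_t2_ok horb_t2 dist_t2 L2 L2_std (U := σ⁻¹ • U)
    (U' := σ⁻¹ • U') (by rw [e U hU]; omega) (by rw [e U hU, e U' hU', h])
  obtain ⟨g, hg, h1, -, h3⟩ := std_pull hσ key
  exact ⟨g, hg, h1 3 (by simp), h3⟩

theorem duad_count_aux {s : Finset GolayPt} (hs : s.card = 2) {l W n : ℕ}
    (hmem : (l + 1, W) ∈ ws_t2)
    (hcls : ∃ (steps : List ℕ) (m0 : ℕ), m0 < 2 ^ 24 ∧ orbB g_t2 steps (2 ^ m0) = W ∧
      tb W m0 = true ∧ pc m0 = 2 ∧ lab2 m0 = l + 1 ∧ steps.length + 1 = n) :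
    {U : Finset GolayPt | U.card = 2 ∧ (s ∩ U).card = l}.ncard = n := by
  obtain ⟨σ, hσ, rfl⟩ := duad_std hs
  obtain ⟨steps, m0, hm0, hW, hb, hpc, hlab, hlen⟩ := hcls
  have h1 : {U : Finset GolayPt | U.card = 2 ∧ (σ • ms 3 ∩ U).card = l}.ncard =
      {U : Finset GolayPt | L2 U = l + 1}.ncard := by
    apply ncard_transport σ (fun U => L2 U = l + 1)
      (fun U => U.card = 2 ∧ (σ • ms 3 ∩ U).card = l)
    intro b
    rw [Finset.card_smul_finset, card_smul_inter_smul]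
    unfold L2
    by_cases hb2 : b.card = 2
    · rw [if_pos hb2]
      exact ⟨fun h => by omega, fun h => ⟨hb2, by omega⟩⟩
    · rw [if_neg hb2]
      exact ⟨fun h => absurd h.1 hb2, fun h => by omega⟩
  rw [h1, fin_count lab2 ws_t2 g_t2_ok dist_t2 L2 L2_inv L2_std hmem (by omega) hm0 hW hb
    (by
      rw [L2, if_pos (by rw [card_ms, hpc]), card_ms_inter, ← hlab]
      show pc (3 &&& m0) + 1 = pc (m0 &&& 3) + 1
      rw [Nat.and_comm]), hlen]

theorem duad_count {s : Finset GolayPt} (hs : s.card = 2) :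
    {U : Finset GolayPt | U.card = 2 ∧ (s ∩ U).card = 0}.ncard = 231 ∧
    {U : Finset GolayPt | U.card = 2 ∧ (s ∩ U).card = 1}.ncard = 44 ∧
    {U : Finset GolayPt | U.card = 2 ∧ (s ∩ U).card = 2}.ncard = 1 :=
  ⟨duad_count_aux hs (by simp [ws_t2]) cls_t2_1,
   duad_count_aux hs (by simp [ws_t2]) cls_t2_2,
   duad_count_aux hs (by simp [ws_t2]) cls_t2_3⟩

theorem ncard_card_eq (k : ℕ) :
    {x : Finset GolayPt | x.card = k}.ncard = Nat.choose 24 k := by
  have h : {x : Finset GolayPt | x.card = k} =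
      ((Finset.powersetCard k Finset.univ : Finset (Finset GolayPt)) : Set (Finset GolayPt)) := by
    ext x
    simp [Finset.mem_powersetCard]
  rw [h, Set.ncard_coe_finset, Finset.card_powersetCard, Finset.card_univ, card_golayPt]

end Cfsg.Agent.Lib.Helper3.M24Triad
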