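import Mathlib
import Cfsg.Prelude.Def_Sporadic_a
import Cfsg.Agent.Lib.Helper3.Golay
import Cfsg.Agent.Lib.Helper3.Golay2
import Cfsg.Agent.Lib.Helper3.GolayM24
import Cfsg.Agent.Lib.Helper3.M24Perm
import Cfsg.Agent.Lib.Helper3.M24Cert
import Cfsg.Agent.Lib.Helper3.M24Trans
import Cfsg.Agent.Lib.Helper3.M24Orb
import Cfsg.Agent.Lib.Helper3.M24Cls
import Cfsg.Agent.Lib.Helper3.M24Mask
import Cfsg.Agent.Lib.Helper3.M24MaskB
import Cfsg.Agent.Lib.Helper3.M24Fin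
import Cfsg.Agent.Lib.Helper3.M24Triad

set_option autoImplicit false

namespace Cfsg.Agent.Lib.Helper3.M24Quad

open Cfsg Cfsg.Agent.Lib.Helper3.Golay Cfsg.Agent.Lib.Helper3.Golay2
open Cfsg.Agent.Lib.Helper3.GolayM24 Cfsg.Agent.Lib.Helper3.M24Perm
open Cfsg.Agent.Lib.Helper3.M24Cert Cfsg.Agent.Lib.Helper3.M24Trans
open Cfsg.Agent.Lib.Helper3.M24Orb Cfsg.Agent.Lib.Helper3.M24Cls
open Cfsg.Agent.Lib.Helper3.M24Mask Cfsg.Agent.Lib.Helper3.M24MaskB
open Cfsg.Agent.Lib.Helper3.M24Fin Cfsg.Agent.Lib.Helper3.M24Triad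
open scoped Pointwise

open Classical in
/-- label of a duad `t` avoiding `p`, `q` and different from the duad `s`. -/
noncomputable def qlab (p q : GolayPt) (s t : Finset GolayPt) : ℕ :=
  if t.card = 2 ∧ p ∉ t ∧ q ∉ t ∧ t ≠ s
  then 1 + 2 * (s ∩ t).card + (if ∃ o ∈ octads, insert p (insert q (s ∪ t)) ⊆ o then 1 else 0)
  else 0

theorem qlab_smul {σ : Equiv.Perm GolayPt} (hσ : σ ∈ M24) (p q : GolayPt)
    (s t : Finset GolayPt) : qlab (σ p) (σ q) (σ • s) (σ • t) = qlab p q s t := by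
  classical
  unfold qlab
  have h1 : insert (σ p) (insert (σ q) (σ • s ∪ σ • t)) = σ • insert p (insert q (s ∪ t)) := by
    rw [Finset.smul_finset_insert, Finset.smul_finset_insert, Finset.smul_finset_union]
    rfl
  simp only [h1, card_smul_inter_smul, Finset.card_smul_finset, apply_mem_smul_iff,
    oct_smul_iff hσ, ne_eq, smul_left_cancel_iff]

theorem ms12 : ms 12 = {pt 2, pt 3} := by
  have e : (12 : ℕ) = b2 2 3 := by decide
  rw [e]
  exact ms_b2 (by norm_num) (by norm_num)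

theorem qlab_std {m : ℕ} (hm : m < 2 ^ 24) (hpc : pc m = 2) :
    qlab (pt 0) (pt 1) (ms 12) (ms m) = labq m := by
  classical
  unfold qlab labq
  have h1 : (pt 0 ∉ ms m ∧ pt 1 ∉ ms m) ↔ Nat.land m 3 = 0 := by
    have h := ms_disjoint_iff (a := 3) (b := m) (by norm_num)
    rw [ms3, Finset.disjoint_insert_left, Finset.disjoint_singleton_left] at h
    rw [h]
    show 3 &&& m = 0 ↔ m &&& 3 = 0
    rw [Nat.and_comm]
  have h2 : ms m ≠ ms 12 ↔ m ≠ 12 := by
    constructor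
    · intro h e
      exact h (by rw [e])
    · intro h e
      exact h (ms_injOn hm (by norm_num) e)
  have h3 : (ms 12 ∩ ms m).card = pc (Nat.land m 12) := by
    rw [card_ms_inter]
    show pc (12 &&& m) = pc (m &&& 12)
    rw [Nat.and_comm]
  have h4 : insert (pt 0) (insert (pt 1) (ms 12 ∪ ms m)) = ms (Nat.lor m 15) := by
    have e1 : insert (pt 0) (insert (pt 1) (ms 12 ∪ ms m)) = ms 3 ∪ (ms 12 ∪ ms m) := by
      rw [ms3]
      ext z
      simp only [Finset.mem_insert, Finset.mem_union, Finset.mem_singleton, or_assoc]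
    rw [e1, ms_or, ms_or]
    have e3 : (3 : ℕ) ||| 12 = 15 := by decide
    have e2 : 3 ||| (12 ||| m) = Nat.lor m 15 := by
      show 3 ||| (12 ||| m) = m ||| 15
      rw [← Nat.lor_assoc, e3, Nat.lor_comm]
    rw [e2]
  have h5 : (∃ o ∈ octads, insert (pt 0) (insert (pt 1) (ms 12 ∪ ms m)) ⊆ o) ↔
      octIn oct15 (Nat.lor m 15) = true := by
    rw [h4]
    exact (octIn_iff (sub_of_all oct15_sub) (filt_of_all oct15_all) (x := Nat.lor m 15)
      (Nat.or_lt_two_pow hm (by norm_num)) (lor_land_self m 15)).symm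
  have hcard : (ms m).card = 2 := by rw [card_ms, hpc]
  by_cases hc : Nat.land m 3 = 0 ∧ m ≠ 12
  · have hb : (Nat.beq (Nat.land m 3) 0 && !(Nat.beq m 12)) = true := by
      rw [hc.1]
      have : Nat.beq m 12 = false := by
        cases hbe : Nat.beq m 12
        · rfl
        · exact absurd (Nat.eq_of_beq_eq_true hbe) hc.2
      rw [this]
      rfl
    rw [if_pos ⟨hcard, (h1.mpr hc.1).1, (h1.mpr hc.1).2, h2.mpr hc.2⟩, hb, h3]
    by_cases ho : octIn oct15 (Nat.lor m 15) = true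
    · rw [if_pos (h5.mpr ho), ho]
      rfl
    · rw [if_neg (fun h => ho (h5.mp h))]
      simp only [Bool.not_eq_true] at ho
      rw [ho]
      rfl
  · have hb : (Nat.beq (Nat.land m 3) 0 && !(Nat.beq m 12)) = false := by
      cases hbe : (Nat.beq (Nat.land m 3) 0 && !(Nat.beq m 12))
      · rfl
      · exfalso
        simp only [Bool.and_eq_true, Bool.not_eq_true'] at hbe
        apply hc
        refine ⟨Nat.eq_of_beq_eq_true hbe.1, fun e => ?_⟩
        rw [e] at hbe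
        exact absurd hbe.2 (by decide)
    rw [if_neg (fun h => hc ⟨h1.mp ⟨h.2.1, h.2.2.1⟩, h2.mp h.2.2.2⟩), hb]
    rfl

/-- the labelling used at the standard configuration -/
noncomputable def Lq (U : Finset GolayPt) : ℕ := qlab (pt 0) (pt 1) (ms 12) U

theorem Lq_std : ∀ U, Lq U ≠ 0 → ∃ m, bchk labq ws_tq m = true ∧ U = ms m ∧ labq m = Lq U := by
  classical
  intro U hU
  have hc : U.card = 2 := by
    by_contra h
    apply hU
    unfold Lq qlab
    rw [if_neg (fun hh => h hh.1)]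
  obtain ⟨i, j, hi, hj, rfl⟩ := exists_b2' hc
  have hlt := b2_lt hi (show j < 24 by omega)
  refine ⟨b2 i j, all2'_spec all_tq hi hj, rfl, ?_⟩
  rw [Lq, qlab_std hlt (by rw [← card_ms]; exact hc)]

theorem Lq_inv : ∀ σ ∈ fixG [12] [1, 0], ∀ U, Lq (σ • U) = Lq U := by
  intro σ hσ U
  unfold Lq
  have h12 : σ • ms 12 = ms 12 := hσ.2.1 12 (by simp)
  have h0 : σ (pt 0) = pt 0 := hσ.2.2 0 (by simp)
  have h1 : σ (pt 1) = pt 1 := hσ.2.2 1 (by simp)
  have h := qlab_smul hσ.1 (pt 0) (pt 1) (ms 12) U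
  rw [h12, h0, h1] at h
  exact h

theorem quad_std {p q : GolayPt} (hpq : p ≠ q) {s : Finset GolayPt} (hs : s.card = 2)
    (hp : p ∉ s) (hq : q ∉ s) : ∃ σ ∈ M24, σ (pt 0) = p ∧ σ (pt 1) = q ∧ σ • ms 12 = s := by
  obtain ⟨a, b, hab, rfl⟩ := Finset.card_eq_two.mp hs
  simp only [Finset.mem_insert, Finset.mem_singleton, not_or] at hp hq
  obtain ⟨σ, hσ, e0, e1, e2, e3⟩ := map4 p q a b hpq hp.1 hq.1 hp.2 hq.2 hab
  rw [fixG_nil] at hσ
  refine ⟨σ, hσ, e0, e1, ?_⟩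
  rw [ms12, Finset.smul_finset_insert, Finset.smul_finset_singleton]
  simp only [Equiv.Perm.smul_def, e2, e3]

theorem q_trans {p q : GolayPt} (hpq : p ≠ q) {s : Finset GolayPt} (hs : s.card = 2)
    (hp : p ∉ s) (hq : q ∉ s) {t t' : Finset GolayPt} (h0 : qlab p q s t ≠ 0)
    (h : qlab p q s t = qlab p q s t') :
    ∃ g : Equiv.Perm GolayPt, g ∈ M24 ∧ g p = p ∧ g q = q ∧ g • s = s ∧ g • t = t' := by
  obtain ⟨σ, hσ, rfl, rfl, rfl⟩ := quad_std hpq hs hp hq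
  have e : ∀ V : Finset GolayPt, Lq (σ⁻¹ • V) = qlab (σ (pt 0)) (σ (pt 1)) (σ • ms 12) V := by
    intro V
    rw [Lq, ← qlab_smul hσ, smul_inv_smul]
  have key := fin_trans labq ws_tq g_tq_ok horb_tq dist_tq Lq Lq_std (U := σ⁻¹ • t)
    (U' := σ⁻¹ • t') (by rw [e]; exact h0) (by rw [e, e, h])
  obtain ⟨g, hg, h1, h2, h3⟩ := std_pull hσ key
  exact ⟨g, hg, h2 0 (by simp), h2 1 (by simp), h1 12 (by simp), h3⟩

theorem q_count_aux {p q : GolayPt} (hpq : p ≠ q) {s : Finset GolayPt} (hs : s.card = 2)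
    (hp : p ∉ s) (hq : q ∉ s) {l W n : ℕ} (hmem : (l, W) ∈ ws_tq) (hl : l ≠ 0)
    (hcls : ∃ (steps : List ℕ) (m0 : ℕ), m0 < 2 ^ 24 ∧ orbB g_tq steps (2 ^ m0) = W ∧
      tb W m0 = true ∧ pc m0 = 2 ∧ labq m0 = l ∧ steps.length + 1 = n) :
    {t : Finset GolayPt | qlab p q s t = l}.ncard = n := by
  obtain ⟨σ, hσ, rfl, rfl, rfl⟩ := quad_std hpq hs hp hq
  obtain ⟨steps, m0, hm0, hW, hb, hpc, hlab, hlen⟩ := hcls
  have h1 : {t : Finset GolayPt | qlab (σ (pt 0)) (σ (pt 1)) (σ • ms 12) t = l}.ncard =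
      {U : Finset GolayPt | Lq U = l}.ncard := by
    apply ncard_transport σ (fun U => Lq U = l)
      (fun t => qlab (σ (pt 0)) (σ (pt 1)) (σ • ms 12) t = l)
    intro b
    rw [qlab_smul hσ]
    rfl
  rw [h1, fin_count labq ws_tq g_tq_ok dist_tq Lq Lq_inv Lq_std hmem hl hm0 hW hb
    (by rw [Lq, qlab_std hm0 hpc, hlab]), hlen]

theorem q_count {p q : GolayPt} (hpq : p ≠ q) {s : Finset GolayPt} (hs : s.card = 2)
    (hp : p ∉ s) (hq : q ∉ s) :
    {t : Finset GolayPt | qlab p q s t = 1}.ncard = 160 ∧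
    {t : Finset GolayPt | qlab p q s t = 2}.ncard = 30 ∧
    {t : Finset GolayPt | qlab p q s t = 4}.ncard = 40 :=
  ⟨q_count_aux hpq hs hp hq (by simp [ws_tq]) (by norm_num) cls_tq_1,
   q_count_aux hpq hs hp hq (by simp [ws_tq]) (by norm_num) cls_tq_2,
   q_count_aux hpq hs hp hq (by simp [ws_tq]) (by norm_num) cls_tq_4⟩

end Cfsg.Agent.Lib.Helper3.M24Quad
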