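import Mathlib
import Cfsg.Prelude.Def_Sporadic_a
import Cfsg.Prelude.Def_SporadicCombinatorics
import Cfsg.Agent.Lib.Helper3.M24Mask

set_option autoImplicit false

namespace Cfsg.Agent.Lib.Helper3.M24Sys

open Cfsg Cfsg.Agent.Lib.Helper3.Golay Cfsg.Agent.Lib.Helper3.Golay2
open Cfsg.Agent.Lib.Helper3.GolayM24 Cfsg.Agent.Lib.Helper3.M24Perm
open Cfsg.Agent.Lib.Helper3.M24Cert Cfsg.Agent.Lib.Helper3.M24Orb
open Cfsg.Agent.Lib.Helper3.M24Mask
open scoped Pointwise

/-! ### generic orbit certificates on coded objects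

Codes are numbers below `2^24`; the objects reached so far are kept in a packed array (24 bits
per code). A step `e = q + 2^24 * r + 2^48 * j` says: generator number `j` maps the object number
`q` of the array to the object with code `r`, which is appended; `ck g p r` is the (sound) check
of this. The result is the array, or `0` on failure. -/

/-- entry `q` of a packed array. -/
def gc (acc q : ℕ) : ℕ := Nat.mod (Nat.div acc (Nat.pow 16777216 q)) 16777216

def orbA (ck : ℕ → ℕ → ℕ → Bool) (gs : List ℕ) : List ℕ → ℕ → ℕ → ℕ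
  | [], acc, _ => acc
  | e :: es, acc, i =>
    bif (Nat.blt (Nat.mod e 16777216) i && Nat.blt (Nat.div e 281474976710656) gs.length &&
        ck (gs.getD (Nat.div e 281474976710656) 0) (gc acc (Nat.mod e 16777216))
          (Nat.mod (Nat.div e 16777216) 16777216))
    then orbA ck gs es
      (Nat.add acc (Nat.mul (Nat.mod (Nat.div e 16777216) 16777216) (Nat.pow 16777216 i)))
      (Nat.succ i)
    else 0

theorem gc_add_lt {acc r i q : ℕ} (h : q < i) :
    gc (Nat.add acc (Nat.mul r (Nat.pow 16777216 i))) q = gc acc q := by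
  unfold gc
  show (acc + r * 16777216 ^ i) / 16777216 ^ q % 16777216 = acc / 16777216 ^ q % 16777216
  obtain ⟨d, rfl⟩ : ∃ d, i = q + 1 + d := ⟨i - q - 1, by omega⟩
  have e : r * 16777216 ^ (q + 1 + d) = 16777216 ^ q * (16777216 * (r * 16777216 ^ d)) := by
    ring
  rw [e, Nat.add_mul_div_left _ _ (by positivity), Nat.add_mul_mod_self_left]

theorem gc_add_eq {acc r i : ℕ} (h : acc < 16777216 ^ i) (hr : r < 16777216) :
    gc (Nat.add acc (Nat.mul r (Nat.pow 16777216 i))) i = r := by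
  unfold gc
  show (acc + r * 16777216 ^ i) / 16777216 ^ i % 16777216 = r
  rw [Nat.add_mul_div_right _ _ (by positivity), Nat.div_eq_of_lt h, zero_add,
    Nat.mod_eq_of_lt hr]

theorem add_lt_pow {acc r i : ℕ} (h : acc < 16777216 ^ i) (hr : r < 16777216) :
    Nat.add acc (Nat.mul r (Nat.pow 16777216 i)) < 16777216 ^ (i + 1) := by
  show acc + r * 16777216 ^ i < 16777216 ^ (i + 1)
  have h1 : r * 16777216 ^ i ≤ 16777215 * 16777216 ^ i := Nat.mul_le_mul_right _ (by omega)
  rw [pow_succ]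
  omega

theorem orbA_inv {β : Type*} [MulAction (Equiv.Perm GolayPt) β]
    (A : Subgroup (Equiv.Perm GolayPt)) (obj : ℕ → β) (V : ℕ → Prop)
    (ck : ℕ → ℕ → ℕ → Bool) (gs : List ℕ)
    (hck : ∀ g ∈ gs, ∀ p r, V p → ck g p r = true → V r ∧ ∃ σ ∈ A, σ • obj p = obj r)
    (hVlt : ∀ m, V m → m < 16777216) (m0 : ℕ) :
    ∀ (steps : List ℕ) (acc i : ℕ), acc < 16777216 ^ i →
      (∀ q < i, V (gc acc q) ∧ ∃ σ ∈ A, σ • obj m0 = obj (gc acc q)) →
      orbA ck gs steps acc i ≠ 0 →
      ∀ q < i + steps.length, V (gc (orbA ck gs steps acc i) q) ∧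
        ∃ σ ∈ A, σ • obj m0 = obj (gc (orbA ck gs steps acc i) q) := by
  intro steps
  induction steps with
  | nil =>
    intro acc i _ h2 _ q hq
    exact h2 q (by simpa using hq)
  | cons e es ih =>
    intro acc i h1 h2 hne q hq
    simp only [orbA] at hne ⊢
    cases hc : (Nat.blt (Nat.mod e 16777216) i && Nat.blt (Nat.div e 281474976710656) gs.length &&
        ck (gs.getD (Nat.div e 281474976710656) 0) (gc acc (Nat.mod e 16777216))
          (Nat.mod (Nat.div e 16777216) 16777216))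
    · rw [hc] at hne
      simp at hne
    · rw [hc] at hne
      simp only [cond_true] at hne ⊢
      simp only [Bool.and_eq_true] at hc
      obtain ⟨⟨c1, c2⟩, c3⟩ := hc
      have hqi : Nat.mod e 16777216 < i := by simpa using c1
      have hlen : Nat.div e 281474976710656 < gs.length := by simpa using c2
      have hmem : gs.getD (Nat.div e 281474976710656) 0 ∈ gs := by
        rw [List.getD_eq_getElem _ _ hlen]
        exact List.getElem_mem hlen
      obtain ⟨hVp, σ, hσ, hσ2⟩ := h2 _ hqi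
      obtain ⟨hVr, τ, hτ, hτ2⟩ := hck _ hmem _ _ hVp c3
      have hr := hVlt _ hVr
      refine ih _ (Nat.succ i) (add_lt_pow h1 hr) ?_ hne q ?_
      · intro q' hq'
        rcases Nat.lt_succ_iff_lt_or_eq.mp hq' with h | h
        · rw [gc_add_lt h]
          exact h2 q' h
        · subst h
          rw [gc_add_eq h1 hr]
          exact ⟨hVr, τ * σ, A.mul_mem hτ hσ, by rw [mul_smul, hσ2, hτ2]⟩
      · rw [List.length_cons] at hq
        omega

theorem orbA_spec {β : Type*} [MulAction (Equiv.Perm GolayPt) β]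
    (A : Subgroup (Equiv.Perm GolayPt)) (obj : ℕ → β) (V : ℕ → Prop)
    (ck : ℕ → ℕ → ℕ → Bool) (gs : List ℕ)
    (hck : ∀ g ∈ gs, ∀ p r, V p → ck g p r = true → V r ∧ ∃ σ ∈ A, σ • obj p = obj r)
    (hVlt : ∀ m, V m → m < 16777216)
    {steps : List ℕ} {m0 : ℕ} (hm0 : V m0) (hW : orbA ck gs steps m0 1 ≠ 0) :
    ∀ q < steps.length + 1, V (gc (orbA ck gs steps m0 1) q) ∧
      ∃ σ ∈ A, σ • obj m0 = obj (gc (orbA ck gs steps m0 1) q) := by
  have h0 : gc m0 0 = m0 := by
    unfold gc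
    show m0 / 16777216 ^ 0 % 16777216 = m0
    rw [pow_zero, Nat.div_one, Nat.mod_eq_of_lt (hVlt m0 hm0)]
  intro q hq
  refine orbA_inv A obj V ck gs hck hVlt m0 steps m0 1 (by simpa using hVlt m0 hm0) ?_ hW q
    (by omega)
  intro q' hq'
  have : q' = 0 := by omega
  subst this
  rw [h0]
  exact ⟨hm0, 1, A.one_mem, one_smul _ _⟩

/-- coverage check: the universe element `u` is entry `pos / 16` of the array of class
`pos % 16`. -/
def covB (Ws : List (ℕ × ℕ × ℕ × ℕ)) (u pos : ℕ) : Bool :=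
  Nat.blt (Nat.mod pos 16) Ws.length &&
  Nat.blt (Nat.div pos 16) (Ws.getD (Nat.mod pos 16) (0, 0, 0, 0)).2.2.2 &&
  Nat.beq (gc (Ws.getD (Nat.mod pos 16) (0, 0, 0, 0)).2.1 (Nat.div pos 16)) u

/-- Classes of a family `F` of coded objects under a subgroup `A`: each entry `(l, W, m0, n)` of
`Ws` is an orbit certificate with root code `m0`, array `W` of `n` codes, and label `l` (the value
of the `A`-invariant function `L` on the root). `U` lists the codes of all objects of `F` and `P`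
locates each of them in one of the arrays. If the labels are distinct, the classes of `L` on `F`
are exactly the `A`-orbits, and their sizes are read off from `P`. -/
theorem sys_classes {β : Type*} [MulAction (Equiv.Perm GolayPt) β]
    (A : Subgroup (Equiv.Perm GolayPt)) (F : Set β) (obj : ℕ → β) (V : ℕ → Prop)
    (ck : ℕ → ℕ → ℕ → Bool) (gs : List ℕ) (L : β → ℕ) (Ws : List (ℕ × ℕ × ℕ × ℕ))
    (U P : List ℕ)
    (hck : ∀ g ∈ gs, ∀ p r, V p → ck g p r = true → V r ∧ ∃ σ ∈ A, σ • obj p = obj r)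
    (hVlt : ∀ m, V m → m < 16777216)
    (hV : ∀ m, V m → obj m ∈ F)
    (hU : ∀ Y ∈ F, ∃ m ∈ U, V m ∧ obj m = Y)
    (hUnd : U.Nodup) (hlen : U.length = P.length)
    (hinj : ∀ m m', V m → V m' → obj m = obj m' → m = m')
    (hL : ∀ σ ∈ A, ∀ Y ∈ F, L (σ • Y) = L Y)
    (hcov : (U.zip P).all (fun up => covB Ws up.1 up.2) = true)
    (horb : ∀ p ∈ Ws, V p.2.2.1 ∧ L (obj p.2.2.1) = p.1 ∧
      ∃ steps, orbA ck gs steps p.2.2.1 1 = p.2.1 ∧ Nat.blt 0 p.2.1 = true ∧
        steps.length + 1 = p.2.2.2)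
    (hdist : (Ws.map (fun p => p.1)).Nodup) :
    (∀ x ∈ F, ∀ y ∈ F, L x = L y → ∃ σ ∈ A, σ • x = y) ∧
    (∀ c l, (Ws.map (fun p => p.1))[c]? = some l → {x | x ∈ F ∧ L x = l}.ncard =
      ((U.zip P).filter (fun up => Nat.beq (Nat.mod up.2 16) c)).length) ∧
    (∀ x ∈ F, ∃ p ∈ Ws, L x = p.1) := by
  -- facts for each certificate
  have hW : ∀ p ∈ Ws, ∀ q < p.2.2.2, V (gc p.2.1 q) ∧
      ∃ σ ∈ A, σ • obj p.2.2.1 = obj (gc p.2.1 q) := by
    intro p hp
    obtain ⟨hm0, -, steps, e1, e2, e3⟩ := horb p hp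
    have hne : orbA ck gs steps p.2.2.1 1 ≠ 0 := by
      rw [e1]
      intro h0
      rw [h0] at e2
      simp at e2
    have := orbA_spec A obj V ck gs hck hVlt hm0 hne
    rw [e1, e3] at this
    exact this
  -- each located universe element
  have K1 : ∀ up ∈ U.zip P, Nat.mod up.2 16 < Ws.length ∧ V up.1 ∧
      ∃ σ ∈ A, σ • obj (Ws.getD (Nat.mod up.2 16) (0, 0, 0, 0)).2.2.1 = obj up.1 := by
    intro up hup
    rw [List.all_eq_true] at hcov
    have h := hcov up hup
    simp only [covB, Bool.and_eq_true] at h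
    obtain ⟨⟨h1, h2⟩, h3⟩ := h
    have hc : Nat.mod up.2 16 < Ws.length := by simpa using h1
    have h2' : Nat.div up.2 16 < (Ws.getD (Nat.mod up.2 16) (0, 0, 0, 0)).2.2.2 := by
      simpa using h2
    have h3' := Nat.eq_of_beq_eq_true h3
    have hmem : Ws.getD (Nat.mod up.2 16) (0, 0, 0, 0) ∈ Ws := by
      rw [List.getD_eq_getElem _ _ hc]
      exact List.getElem_mem hc
    have := hW _ hmem _ h2'
    rw [h3'] at this
    exact ⟨hc, this⟩
  have hgm : ∀ c, c < Ws.length → Ws.getD c (0, 0, 0, 0) ∈ Ws := by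
    intro c hc
    rw [List.getD_eq_getElem _ _ hc]
    exact List.getElem_mem hc
  have K1L : ∀ up ∈ U.zip P, Nat.mod up.2 16 < Ws.length ∧ V up.1 ∧
      L (obj up.1) = (Ws.getD (Nat.mod up.2 16) (0, 0, 0, 0)).1 := by
    intro up hup
    obtain ⟨hc, hVu, σ, hσ, e⟩ := K1 up hup
    refine ⟨hc, hVu, ?_⟩
    have hp := hgm _ hc
    rw [← e, hL σ hσ _ (hV _ (horb _ hp).1), (horb _ hp).2.1]
  have K2 : ∀ x ∈ F, ∃ up ∈ U.zip P, obj up.1 = x := by
    intro x hx
    obtain ⟨m, hm, -, rfl⟩ := hU x hx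
    have hm' : m ∈ (U.zip P).map Prod.fst := by
      rw [List.map_fst_zip (le_of_eq hlen)]
      exact hm
    obtain ⟨up, hup, rfl⟩ := List.mem_map.mp hm'
    exact ⟨up, hup, rfl⟩
  have hidx : ∀ (c c' : ℕ), c < Ws.length → c' < Ws.length →
      (Ws.getD c (0, 0, 0, 0)).1 = (Ws.getD c' (0, 0, 0, 0)).1 → c = c' := by
    intro c c' h h' e
    rw [List.getD_eq_getElem _ _ h, List.getD_eq_getElem _ _ h'] at e
    have h1 : c < (Ws.map (fun p => p.1)).length := by simpa using h
    have h2 : c' < (Ws.map (fun p => p.1)).length := by simpa using h'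
    have e' : (Ws.map (fun p => p.1))[c] = (Ws.map (fun p => p.1))[c'] := by
      simpa using e
    exact (List.Nodup.getElem_inj_iff hdist).mp e'
  refine ⟨?_, ?_, ?_⟩
  · intro x hx y hy hxy
    obtain ⟨up, hup, rfl⟩ := K2 x hx
    obtain ⟨up', hup', rfl⟩ := K2 y hy
    obtain ⟨hc, -, σ, hσ, e⟩ := K1 up hup
    obtain ⟨hc', -, τ, hτ, e'⟩ := K1 up' hup'
    have l1 := (K1L up hup).2.2
    have l2 := (K1L up' hup').2.2
    have hcc : Nat.mod up.2 16 = Nat.mod up'.2 16 := hidx _ _ hc hc' (by rw [← l1, ← l2, hxy])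
    rw [← hcc] at e'
    exact ⟨τ * σ⁻¹, A.mul_mem hτ (A.inv_mem hσ), by rw [mul_smul, ← e, inv_smul_smul, e']⟩
  · intro c l hcl
    have hc1 : c < (Ws.map (fun p => p.1)).length := by
      by_contra h
      rw [List.getElem?_eq_none (by omega)] at hcl
      simp at hcl
    have hc : c < Ws.length := by simpa using hc1
    have hl : (Ws.getD c (0, 0, 0, 0)).1 = l := by
      rw [List.getElem?_eq_getElem hc1] at hcl
      rw [List.getD_eq_getElem _ _ hc]
      simpa using hcl
    have e : {x | x ∈ F ∧ L x = l} = obj ''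
        ((((U.zip P).filter (fun up => Nat.beq (Nat.mod up.2 16) c)).map Prod.fst).toFinset :
          Set ℕ) := by
      ext x
      simp only [Set.mem_ofPred_eq, Set.mem_image, Finset.mem_coe, List.mem_toFinset,
        List.mem_map, List.mem_filter]
      constructor
      · rintro ⟨hx, hlx⟩
        obtain ⟨up, hup, rfl⟩ := K2 x hx
        obtain ⟨hc', -, l1⟩ := K1L up hup
        have hcc : Nat.mod up.2 16 = c := hidx _ _ hc' hc (by rw [← l1, hlx, hl])
        exact ⟨up.1, ⟨up, ⟨hup, by rw [hcc]; exact Nat.beq_refl c⟩, rfl⟩, rfl⟩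
      · rintro ⟨m, ⟨up, ⟨hup, hb⟩, rfl⟩, rfl⟩
        obtain ⟨hc', hVu, l1⟩ := K1L up hup
        have hcc : Nat.mod up.2 16 = c := Nat.eq_of_beq_eq_true hb
        refine ⟨hV _ hVu, ?_⟩
        rw [l1, hcc, hl]
    have hnd : (((U.zip P).filter (fun up => Nat.beq (Nat.mod up.2 16) c)).map Prod.fst).Nodup := by
      have hs : (((U.zip P).filter (fun up => Nat.beq (Nat.mod up.2 16) c)).map Prod.fst).Sublist
          ((U.zip P).map Prod.fst) := List.Sublist.map _ List.filter_sublist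
      rw [List.map_fst_zip (le_of_eq hlen)] at hs
      exact hs.nodup hUnd
    rw [e, Set.InjOn.ncard_image, Set.ncard_coe_finset, List.toFinset_card_of_nodup hnd,
      List.length_map]
    intro m hm m' hm' h
    simp only [Finset.mem_coe, List.mem_toFinset, List.mem_map, List.mem_filter] at hm hm'
    obtain ⟨up, ⟨hup, -⟩, rfl⟩ := hm
    obtain ⟨up', ⟨hup', -⟩, rfl⟩ := hm'
    exact hinj _ _ (K1L up hup).2.1 (K1L up' hup').2.1 h
  · intro x hx
    obtain ⟨up, hup, rfl⟩ := K2 x hx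
    obtain ⟨hc, -, l1⟩ := K1L up hup
    exact ⟨_, hgm _ hc, l1⟩

end Cfsg.Agent.Lib.Helper3.M24Sys
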