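import Mathlib
import Cfsg.Prelude.Def_Sporadic_a
import Cfsg.Prelude.Def_SporadicCombinatorics
import Cfsg.Agent.Lib.Helper3.M24Trans
import Cfsg.Agent.Lib.Helper3.M24Mask
import Cfsg.Agent.Lib.Helper3.M24Sys
import Cfsg.Agent.Lib.Helper28.M24Sext

set_option autoImplicit false

namespace Cfsg.Agent.Lib.Helper3.M24Sys2

open Cfsg Cfsg.Agent.Lib.Helper3.Golay Cfsg.Agent.Lib.Helper3.Golay2
open Cfsg.Agent.Lib.Helper3.GolayM24 Cfsg.Agent.Lib.Helper3.M24Perm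
open Cfsg.Agent.Lib.Helper3.M24Cert Cfsg.Agent.Lib.Helper3.M24Orb
open Cfsg.Agent.Lib.Helper3.M24Mask Cfsg.Agent.Lib.Helper3.M24Sys
open Cfsg.Agent.Lib.Helper3.M24Trans (smul_mem_octads)
open Cfsg.Agent.Lib.Helper28.M24Sext (sextetOf sextetOf_mem sextet_eq sextet_disj smul_sextet
  mem_sextets_iff sexIdx tetF tetM msk_tetF card_tetF mem_octThrough octThrough
  trioIdx trioOf mem_trioIdx trioOf_mem exists_trioIdx trioOf_inj smul_trio k3 mem_octL octL)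
open scoped Pointwise

/-! ### stabilisers in `M24`, invariants, transport -/

/-- the stabiliser in `M24` of an object. -/
def stabM {α : Type*} [MulAction (Equiv.Perm GolayPt) α] (a : α) :
    Subgroup (Equiv.Perm GolayPt) :=
  M24 ⊓ MulAction.stabilizer (Equiv.Perm GolayPt) a

theorem mem_stabM {α : Type*} [MulAction (Equiv.Perm GolayPt) α] {a : α}
    {σ : Equiv.Perm GolayPt} : σ ∈ stabM a ↔ σ ∈ M24 ∧ σ • a = a := by
  rw [stabM, Subgroup.mem_inf]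
  exact and_congr Iff.rfl MulAction.mem_stabilizer_iff

/-- intersection-pattern invariant of a set-system `X` relative to a set-system `S`. -/
def psi (f : ℕ → ℕ) (S X : Finset (Finset GolayPt)) : ℕ :=
  ∑ t ∈ X, ∑ u ∈ S, f (t ∩ u).card

theorem psi_smul (f : ℕ → ℕ) (σ : Equiv.Perm GolayPt) (S X : Finset (Finset GolayPt)) :
    psi f (σ • S) (σ • X) = psi f S X := by
  unfold psi
  have h1 : σ • X = X.image (fun t => σ • t) := rfl
  have h2 : σ • S = S.image (fun t => σ • t) := rfl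
  rw [h1, h2, Finset.sum_image (fun a _ b _ h => MulAction.injective σ h)]
  apply Finset.sum_congr rfl
  intro t _
  rw [Finset.sum_image (fun a _ b _ h => MulAction.injective σ h)]
  apply Finset.sum_congr rfl
  intro u _
  rw [← Finset.smul_finset_inter, Finset.card_smul_finset]

theorem psi_inv {f : ℕ → ℕ} {S : Finset (Finset GolayPt)} {σ : Equiv.Perm GolayPt}
    (hσ : σ • S = S) (X : Finset (Finset GolayPt)) : psi f S (σ • X) = psi f S X := by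
  conv_lhs => rw [← hσ]
  exact psi_smul f σ S X

theorem map_ms_nodup {l : List ℕ} (h : l.Nodup) (b : ∀ m ∈ l, m < 2 ^ 24) :
    (l.map ms).Nodup :=
  List.Nodup.map_on (fun x hx y hy e => ms_injOn (b x hx) (b y hy) e) h

theorem psi_list (f : ℕ → ℕ) {l1 l2 : List ℕ} (h1 : l1.Nodup) (h2 : l2.Nodup)
    (b1 : ∀ m ∈ l1, m < 2 ^ 24) (b2 : ∀ m ∈ l2, m < 2 ^ 24) :
    psi f (l1.map ms).toFinset (l2.map ms).toFinset =
      (l2.map (fun t => (l1.map (fun u => f (pc (Nat.land t u)))).sum)).sum := by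
  unfold psi
  rw [List.sum_toFinset _ (map_ms_nodup h2 b2), List.map_map]
  have key : ∀ t : ℕ, (∑ u ∈ (l1.map ms).toFinset, f (ms t ∩ u).card) =
      (l1.map (fun u => f (pc (Nat.land t u)))).sum := by
    intro t
    rw [List.sum_toFinset _ (map_ms_nodup h1 b1), List.map_map]
    have e : ((fun u => f (ms t ∩ u).card) ∘ ms) = (fun u => f (pc (Nat.land t u))) := by
      funext u
      show f (ms t ∩ ms u).card = f (pc (t &&& u))
      rw [card_ms_inter]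
    rw [e]
  have e2 : ((fun t => ∑ u ∈ (l1.map ms).toFinset, f (t ∩ u).card) ∘ ms) =
      (fun t => (l1.map (fun u => f (pc (Nat.land t u)))).sum) := by
    funext t
    exact key t
  rw [e2]

theorem transport_T {α β : Type*} [MulAction (Equiv.Perm GolayPt) α]
    [MulAction (Equiv.Perm GolayPt) β] (Λ : α → β → ℕ)
    (hΛ : ∀ (σ : Equiv.Perm GolayPt) a x, Λ (σ • a) (σ • x) = Λ a x)
    (F : Set β) (hF : ∀ σ ∈ M24, ∀ x ∈ F, σ • x ∈ F) (a0 : α)
    (h0 : ∀ x ∈ F, ∀ y ∈ F, Λ a0 x = Λ a0 y → ∃ τ ∈ stabM a0, τ • x = y)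
    {σ : Equiv.Perm GolayPt} (hσ : σ ∈ M24) :
    ∀ x ∈ F, ∀ y ∈ F, Λ (σ • a0) x = Λ (σ • a0) y → ∃ τ ∈ stabM (σ • a0), τ • x = y := by
  intro x hx y hy h
  have e : ∀ z, Λ (σ • a0) z = Λ a0 (σ⁻¹ • z) := by
    intro z
    rw [← hΛ σ a0 (σ⁻¹ • z), smul_inv_smul]
  rw [e x, e y] at h
  obtain ⟨τ, hτ, e1⟩ := h0 _ (hF _ (M24.inv_mem hσ) x hx) _ (hF _ (M24.inv_mem hσ) y hy) h
  obtain ⟨hτ1, hτ2⟩ := mem_stabM.mp hτ
  refine ⟨σ * τ * σ⁻¹,
    mem_stabM.mpr ⟨M24.mul_mem (M24.mul_mem hσ hτ1) (M24.inv_mem hσ), ?_⟩, ?_⟩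
  · rw [mul_smul, mul_smul, inv_smul_smul, hτ2]
  · rw [mul_smul, mul_smul, e1, smul_inv_smul]

theorem transport_N {α β : Type*} [MulAction (Equiv.Perm GolayPt) α]
    [MulAction (Equiv.Perm GolayPt) β] (Λ : α → β → ℕ)
    (hΛ : ∀ (σ : Equiv.Perm GolayPt) a x, Λ (σ • a) (σ • x) = Λ a x)
    (F : Set β) (hF : ∀ σ ∈ M24, ∀ x ∈ F, σ • x ∈ F) (a0 : α)
    {σ : Equiv.Perm GolayPt} (hσ : σ ∈ M24) (l : ℕ) :
    {x | x ∈ F ∧ Λ (σ • a0) x = l}.ncard = {x | x ∈ F ∧ Λ a0 x = l}.ncard := by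
  have e : {x | x ∈ F ∧ Λ (σ • a0) x = l} = (fun x => σ • x) '' {x | x ∈ F ∧ Λ a0 x = l} := by
    ext x
    constructor
    · rintro ⟨hx, hl⟩
      refine ⟨σ⁻¹ • x, ⟨hF _ (M24.inv_mem hσ) x hx, ?_⟩, smul_inv_smul σ x⟩
      rw [← hΛ σ, smul_inv_smul]
      exact hl
    · rintro ⟨x, ⟨hx, hl⟩, rfl⟩
      exact ⟨hF σ hσ x hx, by rw [hΛ]; exact hl⟩
  rw [e, Set.ncard_image_of_injective _ (MulAction.injective σ)]

/-- the orbits of the stabiliser of `a` in `M24` on a family `F` are the classes of an invariant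
`L` on which the stabiliser is transitive. -/
theorem orbit_class {α β : Type*} [MulAction (Equiv.Perm GolayPt) α]
    [MulAction (Equiv.Perm GolayPt) β] (a : α) (F : Set β) (L : β → ℕ)
    (hF : ∀ σ ∈ M24, ∀ x ∈ F, σ • x ∈ F)
    (hL : ∀ σ ∈ stabM a, ∀ x ∈ F, L (σ • x) = L x)
    (hT : ∀ x ∈ F, ∀ y ∈ F, L x = L y → ∃ τ ∈ stabM a, τ • x = y)
    {x : β} (hx : x ∈ F) :
    MulAction.orbit ↥(MulAction.stabilizer ↥M24 a) x = {y | y ∈ F ∧ L y = L x} := by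
  ext y
  constructor
  · rintro ⟨g, rfl⟩
    have hg : ((g : ↥M24) : Equiv.Perm GolayPt) ∈ stabM a :=
      mem_stabM.mpr ⟨g.1.2, MulAction.mem_stabilizer_iff.mp g.2⟩
    exact ⟨hF _ g.1.2 x hx, hL _ hg x hx⟩
  · rintro ⟨hy, hl⟩
    obtain ⟨τ, hτ, rfl⟩ := hT x hx y hy hl.symm
    exact ⟨⟨⟨τ, (mem_stabM.mp hτ).1⟩, MulAction.mem_stabilizer_iff.mpr (mem_stabM.mp hτ).2⟩, rfl⟩

/-! ### octad test on masks -/

def isOct (m : ℕ) : Bool := Nat.beq (cw (kOf m)) m && Nat.beq (pc m) 8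

theorem isOct_spec {m : ℕ} (h : isOct m = true) : ms m ∈ octads := by
  simp only [isOct, Bool.and_eq_true] at h
  have e1 : cw (kOf m) = m := Nat.eq_of_beq_eq_true h.1
  have e2 : pc m = 8 := Nat.eq_of_beq_eq_true h.2
  refine ⟨?_, by rw [card_ms, e2]⟩
  rw [ms_eq_support, ← e1]
  exact ⟨dec (cw (kOf m)), dec_cw_mem _, rfl⟩

theorem isOct_lt {m : ℕ} (h : isOct m = true) : m < 2 ^ 24 := by
  simp only [isOct, Bool.and_eq_true] at h
  have e1 : cw (kOf m) = m := Nat.eq_of_beq_eq_true h.1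
  rw [← e1]
  exact cw_lt _

/-! ### sextets as coded objects: the code is the mask of the tetrad through the point 23 -/

noncomputable def sxo (m : ℕ) : Finset (Finset GolayPt) := sextetOf (ms m)

def Vs (m : ℕ) : Prop := m < 2 ^ 24 ∧ pc m = 4 ∧ m.testBit 23 = true

theorem Vs_card {m : ℕ} (h : Vs m) : (ms m).card = 4 := by
  rw [card_ms, h.2.1]

theorem sxo_mem {m : ℕ} (h : Vs m) : sxo m ∈ sextets := sextetOf_mem (Vs_card h)

theorem ms_mem_sxo (m : ℕ) : ms m ∈ sxo m := Finset.mem_insert_self _ _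

theorem sxo_inj {m m' : ℕ} (h : Vs m) (h' : Vs m') (e : sxo m = sxo m') : m = m' := by
  apply ms_injOn h.1 h'.1
  by_contra hne
  have m2 : ms m' ∈ sxo m := by
    rw [e]
    exact ms_mem_sxo m'
  have hd := sextet_disj (sxo_mem h) (ms_mem_sxo m) m2 hne
  rw [Finset.disjoint_left] at hd
  exact hd ((pt_mem_ms (by norm_num)).mpr h.2.2) ((pt_mem_ms (by norm_num)).mpr h'.2.2)

def sameS (u r : ℕ) : Bool :=
  Nat.beq u r || (Nat.beq (Nat.land u r) 0 && isOct (Nat.lor u r))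

theorem sameS_spec {u r : ℕ} (hu : u < 2 ^ 24) (h : sameS u r = true) :
    ms u ∈ sextetOf (ms r) := by
  simp only [sameS, Bool.or_eq_true, Bool.and_eq_true] at h
  rcases h with h | ⟨h1, h2⟩
  · rw [Nat.eq_of_beq_eq_true h]
    exact Finset.mem_insert_self _ _
  · have hd : Disjoint (ms u) (ms r) := (ms_disjoint_iff hu).mpr (Nat.eq_of_beq_eq_true h1)
    have ho : ms u ∪ ms r ∈ octads := by
      rw [ms_or]
      exact isOct_spec h2
    exact Finset.mem_insert_of_mem (Finset.mem_image.mpr ⟨ms u ∪ ms r,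
      mem_octThrough.mpr ⟨ho, Finset.subset_union_right⟩, Finset.union_sdiff_cancel_right hd⟩)

theorem smul_sextetOf {σ : Equiv.Perm GolayPt} (hσ : σ ∈ M24) {t : Finset GolayPt}
    (ht : t.card = 4) : σ • sextetOf t = sextetOf (σ • t) :=
  sextet_eq (smul_sextet hσ (sextetOf_mem ht))
    (Finset.smul_mem_smul_finset (Finset.mem_insert_self _ _))

def ckS (g p r : ℕ) : Bool :=
  Nat.blt r 16777216 && Nat.beq (pc r) 4 && tb r 23 && sameS (apm g p) r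

theorem ckS_spec {g p r : ℕ} (hg : inM g = true) (hp : Vs p) (h : ckS g p r = true) :
    Vs r ∧ tp g • sxo p = sxo r := by
  simp only [ckS, Bool.and_eq_true, tb_eq] at h
  obtain ⟨⟨⟨h1, h2⟩, h3⟩, h4⟩ := h
  have hr : Vs r := ⟨by simpa using h1, Nat.eq_of_beq_eq_true h2, h3⟩
  refine ⟨hr, ?_⟩
  have hgood := inM_good hg
  unfold sxo
  rw [smul_sextetOf (tp_mem_M24 hg) (Vs_card hp), smul_ms hgood]
  exact (sextet_eq (sextetOf_mem (Vs_card hr)) (sameS_spec (apm_lt hgood p) h4)).symm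

theorem ms_tetM {x : ℕ × ℕ × ℕ} (hx : x ∈ sexIdx) : ms (tetM x) = tetF x := by
  rw [← msk_tetF hx, ms_eq_support]
  exact Cfsg.Agent.Lib.Helper28.M24Mask.supp_msk _

theorem Vs_tetM {x : ℕ × ℕ × ℕ} (hx : x ∈ sexIdx) : Vs (tetM x) := by
  refine ⟨?_, ?_, ?_⟩
  · rw [← msk_tetF hx]
    exact Cfsg.Agent.Lib.Helper28.M24Mask.msk_lt _
  · rw [← msk_tetF hx, Cfsg.Agent.Lib.Helper28.M24Mask.card_msk]
    exact card_tetF hx
  · unfold tetM
    rw [Nat.testBit_or, Nat.testBit_two_pow_self, Bool.true_or]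

theorem sextet_code {Y : Finset (Finset GolayPt)} (hY : Y ∈ sextets) :
    ∃ m ∈ sexIdx.map tetM, Vs m ∧ sxo m = Y := by
  obtain ⟨x, hx, rfl⟩ := (mem_sextets_iff Y).mp hY
  refine ⟨tetM x, List.mem_map.mpr ⟨x, hx, rfl⟩, Vs_tetM hx, ?_⟩
  unfold sxo
  rw [ms_tetM hx]

/-- a sextet given by the list of the masks of its six tetrads. -/
def sexOK (l : List ℕ) : Bool :=
  Nat.beq l.length 6 && l.all (fun a => Nat.blt a 16777216 && Nat.beq (pc a) 4 &&
    l.all (fun b => Nat.beq a b || isOct (Nat.lor a b)))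

theorem sexOK_lt {l : List ℕ} (h : sexOK l = true) : ∀ m ∈ l, m < 2 ^ 24 := by
  simp only [sexOK, Bool.and_eq_true, List.all_eq_true] at h
  intro m hm
  simpa using (h.2 m hm).1.1

theorem sexOK_mem {l : List ℕ} (h : sexOK l = true) (hnd : l.Nodup) :
    (l.map ms).toFinset ∈ sextets := by
  have hlt := sexOK_lt h
  simp only [sexOK, Bool.and_eq_true, List.all_eq_true, Bool.or_eq_true] at h
  obtain ⟨h6, hall⟩ := h
  refine ⟨?_, ?_, ?_⟩
  · rw [List.toFinset_card_of_nodup (map_ms_nodup hnd hlt), List.length_map]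
    exact Nat.eq_of_beq_eq_true h6
  · intro t ht
    rw [List.mem_toFinset, List.mem_map] at ht
    obtain ⟨a, ha, rfl⟩ := ht
    rw [card_ms]
    exact Nat.eq_of_beq_eq_true (hall a ha).1.2
  · intro t ht u hu hne
    rw [List.mem_toFinset, List.mem_map] at ht hu
    obtain ⟨a, ha, rfl⟩ := ht
    obtain ⟨b, hb, rfl⟩ := hu
    rcases (hall a ha).2 b hb with e | e
    · exact absurd (by rw [Nat.eq_of_beq_eq_true e]) hne
    · rw [ms_or]
      exact isOct_spec e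

theorem sxo_list {l : List ℕ} (h : sexOK l = true) (hnd : l.Nodup) {m : ℕ} (hm : m ∈ l) :
    sxo m = (l.map ms).toFinset :=
  (sextet_eq (sexOK_mem h hnd) (List.mem_toFinset.mpr (List.mem_map.mpr ⟨m, hm, rfl⟩))).symm

/-! ### trios as coded objects: code `k₁ + 4096 * k₂` for the index pair `(k₁, k₂)` -/

noncomputable def tro (m : ℕ) : Finset (Finset GolayPt) := trioOf (Nat.mod m 4096, Nat.div m 4096)

def Vt (m : ℕ) : Prop := (Nat.mod m 4096, Nat.div m 4096) ∈ trioIdx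

def VtB (m : ℕ) : Bool :=
  Nat.blt (Nat.div m 4096) 4096 && Nat.beq (pc (cw (Nat.mod m 4096))) 8 &&
  Nat.beq (pc (cw (Nat.div m 4096))) 8 && Nat.blt (Nat.mod m 4096) (Nat.div m 4096) &&
  Nat.beq (Nat.land (cw (Nat.mod m 4096)) (cw (Nat.div m 4096))) 0 &&
  Nat.blt (Nat.div m 4096) (k3 (Nat.mod m 4096) (Nat.div m 4096))

theorem VtB_spec {m : ℕ} (h : VtB m = true) : Vt m := by
  simp only [VtB, Bool.and_eq_true] at h
  obtain ⟨⟨⟨⟨⟨h1, h2⟩, h3⟩, h4⟩, h5⟩, h6⟩ := h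
  unfold Vt
  rw [mem_trioIdx, mem_octL, mem_octL]
  exact ⟨⟨Nat.mod_lt _ (by norm_num), Nat.eq_of_beq_eq_true h2⟩,
    ⟨by simpa using h1, Nat.eq_of_beq_eq_true h3⟩, by simpa using h4,
    Nat.eq_of_beq_eq_true h5, by simpa using h6⟩

theorem tro_mem {m : ℕ} (h : Vt m) : tro m ∈ trios := trioOf_mem h

theorem tro_inj {m m' : ℕ} (h : Vt m) (h' : Vt m') (e : tro m = tro m') : m = m' := by
  have := trioOf_inj h h' e
  have e1 : Nat.mod m 4096 = Nat.mod m' 4096 := (Prod.mk.inj this).1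
  have e2 : Nat.div m 4096 = Nat.div m' 4096 := (Prod.mk.inj this).2
  have a1 := Nat.div_add_mod m 4096
  have a2 := Nat.div_add_mod m' 4096
  have e1' : m % 4096 = m' % 4096 := e1
  have e2' : m / 4096 = m' / 4096 := e2
  omega

theorem tro_eq (m : ℕ) : tro m = {ms (cw (Nat.mod m 4096)), ms (cw (Nat.div m 4096)),
    ms (cw (k3 (Nat.mod m 4096) (Nat.div m 4096)))} := by
  unfold tro trioOf
  rw [ms_cw, ms_cw, ms_cw]

def mem3m (u r : ℕ) : Bool :=
  Nat.beq u (cw (Nat.mod r 4096)) || Nat.beq u (cw (Nat.div r 4096)) ||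
    Nat.beq u (cw (k3 (Nat.mod r 4096) (Nat.div r 4096)))

theorem mem3m_spec {u r : ℕ} (h : mem3m u r = true) : ms u ∈ tro r := by
  simp only [mem3m, Bool.or_eq_true] at h
  rw [tro_eq]
  rcases h with (h | h) | h <;> rw [Nat.eq_of_beq_eq_true h] <;> simp

def ckT (g p r : ℕ) : Bool :=
  VtB r && mem3m (apm g (cw (Nat.mod p 4096))) r && mem3m (apm g (cw (Nat.div p 4096))) r &&
    mem3m (apm g (cw (k3 (Nat.mod p 4096) (Nat.div p 4096)))) r

theorem ckT_spec {g p r : ℕ} (hg : inM g = true) (hp : Vt p) (h : ckT g p r = true) :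
    Vt r ∧ tp g • tro p = tro r := by
  simp only [ckT, Bool.and_eq_true] at h
  obtain ⟨⟨⟨h1, h2⟩, h3⟩, h4⟩ := h
  have hr := VtB_spec h1
  refine ⟨hr, ?_⟩
  have hgood := inM_good hg
  apply Finset.eq_of_subset_of_card_le
  · intro u hu
    obtain ⟨v, hv, rfl⟩ := Finset.mem_smul_finset.mp hu
    rw [tro_eq] at hv
    simp only [Finset.mem_insert, Finset.mem_singleton] at hv
    rcases hv with rfl | rfl | rfl
    · rw [smul_ms hgood]
      exact mem3m_spec h2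
    · rw [smul_ms hgood]
      exact mem3m_spec h3
    · rw [smul_ms hgood]
      exact mem3m_spec h4
  · rw [Finset.card_smul_finset, (tro_mem hp).1, (tro_mem hr).1]

theorem trio_code {Y : Finset (Finset GolayPt)} (hY : Y ∈ trios) :
    ∃ m ∈ trioIdx.map (fun x => Nat.add x.1 (Nat.mul 4096 x.2)), Vt m ∧ tro m = Y := by
  obtain ⟨x, hx, rfl⟩ := exists_trioIdx hY
  have h1 : x.1 < 4096 := (mem_octL.mp (mem_trioIdx.mp hx).1).1
  have e1 : Nat.mod (Nat.add x.1 (Nat.mul 4096 x.2)) 4096 = x.1 := by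
    show (x.1 + 4096 * x.2) % 4096 = x.1
    omega
  have e2 : Nat.div (Nat.add x.1 (Nat.mul 4096 x.2)) 4096 = x.2 := by
    show (x.1 + 4096 * x.2) / 4096 = x.2
    omega
  refine ⟨_, List.mem_map.mpr ⟨x, hx, rfl⟩, ?_, ?_⟩
  · unfold Vt
    rw [e1, e2]
    exact hx
  · unfold tro
    rw [e1, e2]

theorem tro_list (m : ℕ) : tro m = ([cw (Nat.mod m 4096), cw (Nat.div m 4096),
    cw (k3 (Nat.mod m 4096) (Nat.div m 4096))].map ms).toFinset := by
  rw [tro_eq]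
  simp

/-! ### octads as coded objects -/

def Vo (m : ℕ) : Prop := m < 2 ^ 24 ∧ ms m ∈ octads

def ckO (g p r : ℕ) : Bool := Nat.beq (apm g p) r

theorem ckO_spec {g p r : ℕ} (hg : inM g = true) (hp : Vo p) (h : ckO g p r = true) :
    Vo r ∧ tp g • ms p = ms r := by
  have e : apm g p = r := Nat.eq_of_beq_eq_true h
  have hgood := inM_good hg
  subst e
  refine ⟨⟨apm_lt hgood p, ?_⟩, smul_ms hgood p⟩
  rw [← smul_ms hgood]
  exact smul_mem_octads (tp_mem_M24 hg) hp.2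

theorem octad_code {Y : Finset GolayPt} (hY : Y ∈ octads) : ∃ m ∈ octW, Vo m ∧ ms m = Y := by
  obtain ⟨g, hg, rfl⟩ := exists_octW hY
  have h := octW_ok
  rw [List.all_eq_true] at h
  exact ⟨g, hg, ⟨isOct_lt (h g hg), hY⟩, rfl⟩


/-! ### class theorems for the three kinds of objects -/

theorem Vs_lt {m : ℕ} (h : Vs m) : m < 16777216 := h.1

theorem Vo_lt {m : ℕ} (h : Vo m) : m < 16777216 := h.1

theorem Vt_lt {m : ℕ} (h : Vt m) : m < 16777216 := by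
  have h2 : Nat.div m 4096 < 4096 := (mem_octL.mp (mem_trioIdx.mp h).2.1).1
  have a1 := Nat.div_add_mod m 4096
  have a2 := Nat.mod_lt m (show 0 < 4096 by norm_num)
  have h2' : m / 4096 < 4096 := h2
  omega

theorem nodup_sexU : (sexIdx.map tetM).Nodup := by
  apply List.Nodup.map_on _ Cfsg.Agent.Lib.Helper28.M24Sext.nodup_sexIdx
  intro x hx y hy e
  apply Cfsg.Agent.Lib.Helper28.M24Sext.tetF_inj hx hy
  rw [← ms_tetM hx, ← ms_tetM hy, e]

theorem nodup_trU : (trioIdx.map (fun x => Nat.add x.1 (Nat.mul 4096 x.2))).Nodup := by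
  apply List.Nodup.map_on _ Cfsg.Agent.Lib.Helper28.M24Sext.nodup_trioIdx
  intro x hx y hy e
  have h1 : x.1 < 4096 := (mem_octL.mp (mem_trioIdx.mp hx).1).1
  have h2 : y.1 < 4096 := (mem_octL.mp (mem_trioIdx.mp hy).1).1
  have e' : x.1 + 4096 * x.2 = y.1 + 4096 * y.2 := e
  apply Prod.ext <;> omega

theorem nodup_octW : octW.Nodup := by
  decide +kernel

theorem sext_classes {α : Type*} [MulAction (Equiv.Perm GolayPt) α] (a0 : α) (gs : List ℕ)
    (L : Finset (Finset GolayPt) → ℕ) (Ws : List (ℕ × ℕ × ℕ × ℕ)) (P : List ℕ)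
    (hgs : ∀ g ∈ gs, inM g = true ∧ tp g ∈ stabM a0)
    (hL : ∀ σ ∈ stabM a0, ∀ Y ∈ sextets, L (σ • Y) = L Y)
    (hlen : (sexIdx.map tetM).length = P.length)
    (hcov : ((sexIdx.map tetM).zip P).all (fun up => covB Ws up.1 up.2) = true)
    (horb : ∀ p ∈ Ws, Vs p.2.2.1 ∧ L (sxo p.2.2.1) = p.1 ∧
      ∃ steps, orbA ckS gs steps p.2.2.1 1 = p.2.1 ∧ Nat.blt 0 p.2.1 = true ∧
        steps.length + 1 = p.2.2.2)
    (hdist : (Ws.map (fun p => p.1)).Nodup) :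
    (∀ x ∈ sextets, ∀ y ∈ sextets, L x = L y → ∃ σ ∈ stabM a0, σ • x = y) ∧
    (∀ c l, (Ws.map (fun p => p.1))[c]? = some l → {x | x ∈ sextets ∧ L x = l}.ncard =
      (((sexIdx.map tetM).zip P).filter (fun up => Nat.beq (Nat.mod up.2 16) c)).length) ∧
    (∀ x ∈ sextets, ∃ p ∈ Ws, L x = p.1) :=
  sys_classes (stabM a0) sextets sxo Vs ckS gs L Ws (sexIdx.map tetM) P
    (fun g hg p r hp h => ⟨(ckS_spec (hgs g hg).1 hp h).1, tp g, (hgs g hg).2,
      (ckS_spec (hgs g hg).1 hp h).2⟩)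
    (fun m hm => Vs_lt hm) (fun m hm => sxo_mem hm) (fun Y hY => sextet_code hY)
    nodup_sexU hlen (fun m m' h h' e => sxo_inj h h' e) hL hcov horb hdist

theorem trio_classes {α : Type*} [MulAction (Equiv.Perm GolayPt) α] (a0 : α) (gs : List ℕ)
    (L : Finset (Finset GolayPt) → ℕ) (Ws : List (ℕ × ℕ × ℕ × ℕ)) (U P : List ℕ)
    (hU : trioIdx.map (fun x => Nat.add x.1 (Nat.mul 4096 x.2)) = U)
    (hgs : ∀ g ∈ gs, inM g = true ∧ tp g ∈ stabM a0)
    (hL : ∀ σ ∈ stabM a0, ∀ Y ∈ trios, L (σ • Y) = L Y)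
    (hlen : U.length = P.length)
    (hcov : (U.zip P).all (fun up => covB Ws up.1 up.2) = true)
    (horb : ∀ p ∈ Ws, Vt p.2.2.1 ∧ L (tro p.2.2.1) = p.1 ∧
      ∃ steps, orbA ckT gs steps p.2.2.1 1 = p.2.1 ∧ Nat.blt 0 p.2.1 = true ∧
        steps.length + 1 = p.2.2.2)
    (hdist : (Ws.map (fun p => p.1)).Nodup) :
    (∀ x ∈ trios, ∀ y ∈ trios, L x = L y → ∃ σ ∈ stabM a0, σ • x = y) ∧
    (∀ c l, (Ws.map (fun p => p.1))[c]? = some l → {x | x ∈ trios ∧ L x = l}.ncard =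
      ((U.zip P).filter (fun up => Nat.beq (Nat.mod up.2 16) c)).length) ∧
    (∀ x ∈ trios, ∃ p ∈ Ws, L x = p.1) :=
  sys_classes (stabM a0) trios tro Vt ckT gs L Ws U P
    (fun g hg p r hp h => ⟨(ckT_spec (hgs g hg).1 hp h).1, tp g, (hgs g hg).2,
      (ckT_spec (hgs g hg).1 hp h).2⟩)
    (fun m hm => Vt_lt hm) (fun m hm => tro_mem hm)
    (fun Y hY => by
      obtain ⟨m, hm, hV, e⟩ := trio_code hY
      rw [hU] at hm
      exact ⟨m, hm, hV, e⟩)
    (by rw [← hU]; exact nodup_trU) hlen (fun m m' h h' e => tro_inj h h' e) hL hcov horb hdist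

theorem oct_classes {α : Type*} [MulAction (Equiv.Perm GolayPt) α] (a0 : α) (gs : List ℕ)
    (L : Finset GolayPt → ℕ) (Ws : List (ℕ × ℕ × ℕ × ℕ)) (P : List ℕ)
    (hgs : ∀ g ∈ gs, inM g = true ∧ tp g ∈ stabM a0)
    (hL : ∀ σ ∈ stabM a0, ∀ Y ∈ octads, L (σ • Y) = L Y)
    (hlen : octW.length = P.length)
    (hcov : (octW.zip P).all (fun up => covB Ws up.1 up.2) = true)
    (horb : ∀ p ∈ Ws, Vo p.2.2.1 ∧ L (ms p.2.2.1) = p.1 ∧
      ∃ steps, orbA ckO gs steps p.2.2.1 1 = p.2.1 ∧ Nat.blt 0 p.2.1 = true ∧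
        steps.length + 1 = p.2.2.2)
    (hdist : (Ws.map (fun p => p.1)).Nodup) :
    (∀ x ∈ octads, ∀ y ∈ octads, L x = L y → ∃ σ ∈ stabM a0, σ • x = y) ∧
    (∀ c l, (Ws.map (fun p => p.1))[c]? = some l → {x | x ∈ octads ∧ L x = l}.ncard =
      ((octW.zip P).filter (fun up => Nat.beq (Nat.mod up.2 16) c)).length) ∧
    (∀ x ∈ octads, ∃ p ∈ Ws, L x = p.1) :=
  sys_classes (stabM a0) octads ms Vo ckO gs L Ws octW P
    (fun g hg p r hp h => ⟨(ckO_spec (hgs g hg).1 hp h).1, tp g, (hgs g hg).2,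
      (ckO_spec (hgs g hg).1 hp h).2⟩)
    (fun m hm => Vo_lt hm) (fun m hm => hm.2) (fun Y hY => octad_code hY)
    nodup_octW hlen (fun m m' h h' e => ms_injOn h.1 h'.1 e) hL hcov horb hdist

/-! ### generator checks for the stabilised objects -/

theorem gens_sext {t0 : ℕ} (ht0 : Vs t0) {gs : List ℕ}
    (h : gs.all (fun g => inM g && ckS g t0 t0) = true) :
    ∀ g ∈ gs, inM g = true ∧ tp g ∈ stabM (sxo t0) := by
  rw [List.all_eq_true] at h
  intro g hg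
  have h1 := h g hg
  rw [Bool.and_eq_true] at h1
  exact ⟨h1.1, mem_stabM.mpr ⟨tp_mem_M24 h1.1, (ckS_spec h1.1 ht0 h1.2).2⟩⟩

theorem gens_trio {c0 : ℕ} (hc0 : Vt c0) {gs : List ℕ}
    (h : gs.all (fun g => inM g && ckT g c0 c0) = true) :
    ∀ g ∈ gs, inM g = true ∧ tp g ∈ stabM (tro c0) := by
  rw [List.all_eq_true] at h
  intro g hg
  have h1 := h g hg
  rw [Bool.and_eq_true] at h1
  exact ⟨h1.1, mem_stabM.mpr ⟨tp_mem_M24 h1.1, (ckT_spec h1.1 hc0 h1.2).2⟩⟩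

theorem gens_set {o0 : ℕ} {gs : List ℕ}
    (h : gs.all (fun g => inM g && Nat.beq (apm g o0) o0) = true) :
    ∀ g ∈ gs, inM g = true ∧ tp g ∈ stabM (ms o0) := by
  rw [List.all_eq_true] at h
  intro g hg
  have h1 := h g hg
  rw [Bool.and_eq_true] at h1
  refine ⟨h1.1, mem_stabM.mpr ⟨tp_mem_M24 h1.1, ?_⟩⟩
  rw [smul_ms (inM_good h1.1), Nat.eq_of_beq_eq_true h1.2]

theorem ms_compl {d : ℕ} : ms (Nat.xor 16777215 d) = Finset.univ \ ms d := by
  ext p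
  have h : Nat.testBit 16777215 (idx p) = true := (testBit_full _).mpr (idx_lt p)
  show p ∈ ms (16777215 ^^^ d) ↔ _
  rw [mem_ms, Nat.testBit_xor, h, Finset.mem_sdiff, mem_ms]
  simp

theorem gens_pair {d0 : ℕ} {gs : List ℕ}
    (h : gs.all (fun g => inM g && (Nat.beq (apm g d0) d0 ||
      Nat.beq (apm g d0) (Nat.xor 16777215 d0))) = true) :
    ∀ g ∈ gs, inM g = true ∧
      tp g ∈ stabM ({ms d0, Finset.univ \ ms d0} : Finset (Finset GolayPt)) := by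
  rw [List.all_eq_true] at h
  intro g hg
  have h1 := h g hg
  rw [Bool.and_eq_true, Bool.or_eq_true] at h1
  refine ⟨h1.1, mem_stabM.mpr ⟨tp_mem_M24 h1.1, ?_⟩⟩
  have e : tp g • (Finset.univ \ ms d0) = Finset.univ \ tp g • ms d0 := by
    rw [Finset.smul_finset_sdiff, Finset.smul_finset_univ]
  rw [Finset.smul_finset_insert, Finset.smul_finset_singleton, e, smul_ms (inM_good h1.1)]
  rcases h1.2 with h2 | h2
  · rw [Nat.eq_of_beq_eq_true h2]
  · rw [Nat.eq_of_beq_eq_true h2, ms_compl, Finset.sdiff_sdiff_eq_self (Finset.subset_univ _)]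
    exact Finset.pair_comm _ _

/-! ### labels -/

/-- the weight function used for the pattern invariant. -/
def f100 (k : ℕ) : ℕ := Nat.pow 100 k

/-- support-counting weight. -/
def f01 (k : ℕ) : ℕ := bif Nat.beq k 0 then 0 else 1

theorem psi_root (f : ℕ → ℕ) {S X : Finset (Finset GolayPt)} {l1 l2 : List ℕ}
    (hS : S = (l1.map ms).toFinset) (hX : X = (l2.map ms).toFinset)
    (h1 : l1.Nodup) (h2 : l2.Nodup)
    (b1 : l1.all (fun m => Nat.blt m 16777216) = true)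
    (b2 : l2.all (fun m => Nat.blt m 16777216) = true) {v : ℕ}
    (hv : (l2.map (fun t => (l1.map (fun u => f (pc (Nat.land t u)))).sum)).sum = v) :
    psi f S X = v := by
  rw [List.all_eq_true] at b1 b2
  rw [hS, hX, psi_list f h1 h2 (fun m hm => by simpa using b1 m hm)
    (fun m hm => by simpa using b2 m hm), hv]

theorem single_list (m : ℕ) : ({ms m} : Finset (Finset GolayPt)) = ([m].map ms).toFinset := by
  simp

theorem pair_list (d : ℕ) : ({ms d, Finset.univ \ ms d} : Finset (Finset GolayPt)) =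
    ([d, Nat.xor 16777215 d].map ms).toFinset := by
  rw [← ms_compl]
  simp

theorem psi_inv1 {f : ℕ → ℕ} {a : Finset GolayPt} {σ : Equiv.Perm GolayPt}
    (hσ : σ • a = a) (X : Finset (Finset GolayPt)) : psi f {a} (σ • X) = psi f {a} X :=
  psi_inv (by rw [Finset.smul_finset_singleton, hσ]) X

theorem psi_smul1 (f : ℕ → ℕ) (σ : Equiv.Perm GolayPt) (a : Finset GolayPt)
    (X : Finset (Finset GolayPt)) : psi f {σ • a} (σ • X) = psi f {a} X := by
  rw [← Finset.smul_finset_singleton]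
  exact psi_smul f σ {a} X

theorem psi_smulO (f : ℕ → ℕ) (σ : Equiv.Perm GolayPt) (S : Finset (Finset GolayPt))
    (o : Finset GolayPt) : psi f (σ • S) {σ • o} = psi f S {o} := by
  rw [← Finset.smul_finset_singleton]
  exact psi_smul f σ S {o}

/-! ### families are invariant -/

theorem sextets_inv : ∀ σ ∈ M24, ∀ x ∈ sextets, σ • x ∈ sextets := fun _ hσ _ hx => smul_sextet hσ hx

theorem trios_inv : ∀ σ ∈ M24, ∀ x ∈ trios, σ • x ∈ trios := fun _ hσ _ hx => smul_trio hσ hx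

theorem octads_inv : ∀ σ ∈ M24, ∀ x ∈ octads, σ • x ∈ octads :=
  fun _ hσ _ hx => smul_mem_octads hσ hx

/-! ### orbit decompositions from class data -/

theorem transport_L {α β : Type*} [MulAction (Equiv.Perm GolayPt) α]
    [MulAction (Equiv.Perm GolayPt) β] (Λ : α → β → ℕ)
    (hΛ : ∀ (σ : Equiv.Perm GolayPt) a x, Λ (σ • a) (σ • x) = Λ a x)
    (F : Set β) (hF : ∀ σ ∈ M24, ∀ x ∈ F, σ • x ∈ F) (a0 : α) (P : ℕ → Prop)
    (h0 : ∀ x ∈ F, P (Λ a0 x))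
    {σ : Equiv.Perm GolayPt} (hσ : σ ∈ M24) : ∀ x ∈ F, P (Λ (σ • a0) x) := by
  intro x hx
  have e : Λ (σ • a0) x = Λ a0 (σ⁻¹ • x) := by
    rw [← hΛ σ a0 (σ⁻¹ • x), smul_inv_smul]
  rw [e]
  exact h0 _ (hF _ (M24.inv_mem hσ) x hx)

theorem stab_inv {α β : Type*} [MulAction (Equiv.Perm GolayPt) α]
    [MulAction (Equiv.Perm GolayPt) β] (Λ : α → β → ℕ)
    (hΛ : ∀ (σ : Equiv.Perm GolayPt) a x, Λ (σ • a) (σ • x) = Λ a x) (a : α) :
    ∀ σ ∈ stabM a, ∀ x : β, Λ a (σ • x) = Λ a x := by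
  intro σ hσ x
  conv_lhs => rw [← (mem_stabM.mp hσ).2]
  exact hΛ σ a x

theorem class_nonempty {β : Type*} {F : Set β} {L : β → ℕ} {l n : ℕ}
    (c : {x | x ∈ F ∧ L x = l}.ncard = n) (hn : 0 < n) : ∃ x ∈ F, L x = l := by
  have h : {x | x ∈ F ∧ L x = l}.Nonempty := by
    apply Set.nonempty_of_ncard_ne_zero
    omega
  obtain ⟨x, hx, hl⟩ := h
  exact ⟨x, hx, hl⟩

theorem three_orbits {α β : Type*} [MulAction (Equiv.Perm GolayPt) α]
    [MulAction (Equiv.Perm GolayPt) β] (a : α) (F : Set β) (L : β → ℕ)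
    (hF : ∀ σ ∈ M24, ∀ x ∈ F, σ • x ∈ F)
    (hL : ∀ σ ∈ stabM a, ∀ x ∈ F, L (σ • x) = L x)
    (hT : ∀ x ∈ F, ∀ y ∈ F, L x = L y → ∃ τ ∈ stabM a, τ • x = y)
    {l1 l2 l3 n1 n2 n3 : ℕ}
    (c1 : {x | x ∈ F ∧ L x = l1}.ncard = n1) (c2 : {x | x ∈ F ∧ L x = l2}.ncard = n2)
    (c3 : {x | x ∈ F ∧ L x = l3}.ncard = n3) (p1 : 0 < n1) (p2 : 0 < n2) (p3 : 0 < n3)
    (hlab : ∀ x ∈ F, L x = l1 ∨ L x = l2 ∨ L x = l3) :
    ∃ X₁ ∈ F, ∃ X₂ ∈ F, ∃ X₃ ∈ F,
      (MulAction.orbit ↥(MulAction.stabilizer ↥M24 a) X₁).ncard = n1 ∧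
      (MulAction.orbit ↥(MulAction.stabilizer ↥M24 a) X₂).ncard = n2 ∧
      (MulAction.orbit ↥(MulAction.stabilizer ↥M24 a) X₃).ncard = n3 ∧
      F = MulAction.orbit ↥(MulAction.stabilizer ↥M24 a) X₁ ∪
        MulAction.orbit ↥(MulAction.stabilizer ↥M24 a) X₂ ∪
        MulAction.orbit ↥(MulAction.stabilizer ↥M24 a) X₃ := by
  obtain ⟨x1, h1, e1⟩ := class_nonempty c1 p1
  obtain ⟨x2, h2, e2⟩ := class_nonempty c2 p2
  obtain ⟨x3, h3, e3⟩ := class_nonempty c3 p3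
  refine ⟨x1, h1, x2, h2, x3, h3, ?_⟩
  rw [orbit_class a F L hF hL hT h1, orbit_class a F L hF hL hT h2,
    orbit_class a F L hF hL hT h3, e1, e2, e3]
  refine ⟨c1, c2, c3, ?_⟩
  ext y
  simp only [Set.mem_union, Set.mem_ofPred_eq]
  constructor
  · intro hy
    rcases hlab y hy with h | h | h
    · exact Or.inl (Or.inl ⟨hy, h⟩)
    · exact Or.inl (Or.inr ⟨hy, h⟩)
    · exact Or.inr ⟨hy, h⟩
  · rintro ((h | h) | h) <;> exact h.1

theorem four_orbits {α β : Type*} [MulAction (Equiv.Perm GolayPt) α]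
    [MulAction (Equiv.Perm GolayPt) β] (a : α) (F : Set β) (L : β → ℕ)
    (hF : ∀ σ ∈ M24, ∀ x ∈ F, σ • x ∈ F)
    (hL : ∀ σ ∈ stabM a, ∀ x ∈ F, L (σ • x) = L x)
    (hT : ∀ x ∈ F, ∀ y ∈ F, L x = L y → ∃ τ ∈ stabM a, τ • x = y)
    {l1 l2 l3 l4 n1 n2 n3 n4 : ℕ}
    (c1 : {x | x ∈ F ∧ L x = l1}.ncard = n1) (c2 : {x | x ∈ F ∧ L x = l2}.ncard = n2)
    (c3 : {x | x ∈ F ∧ L x = l3}.ncard = n3) (c4 : {x | x ∈ F ∧ L x = l4}.ncard = n4)
    (p1 : 0 < n1) (p2 : 0 < n2) (p3 : 0 < n3) (p4 : 0 < n4)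
    (hlab : ∀ x ∈ F, L x = l1 ∨ L x = l2 ∨ L x = l3 ∨ L x = l4) :
    ∃ X₁ ∈ F, ∃ X₂ ∈ F, ∃ X₃ ∈ F, ∃ X₄ ∈ F,
      (MulAction.orbit ↥(MulAction.stabilizer ↥M24 a) X₁).ncard = n1 ∧
      (MulAction.orbit ↥(MulAction.stabilizer ↥M24 a) X₂).ncard = n2 ∧
      (MulAction.orbit ↥(MulAction.stabilizer ↥M24 a) X₃).ncard = n3 ∧
      (MulAction.orbit ↥(MulAction.stabilizer ↥M24 a) X₄).ncard = n4 ∧
      F = MulAction.orbit ↥(MulAction.stabilizer ↥M24 a) X₁ ∪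
        MulAction.orbit ↥(MulAction.stabilizer ↥M24 a) X₂ ∪
        MulAction.orbit ↥(MulAction.stabilizer ↥M24 a) X₃ ∪
        MulAction.orbit ↥(MulAction.stabilizer ↥M24 a) X₄ := by
  obtain ⟨x1, h1, e1⟩ := class_nonempty c1 p1
  obtain ⟨x2, h2, e2⟩ := class_nonempty c2 p2
  obtain ⟨x3, h3, e3⟩ := class_nonempty c3 p3
  obtain ⟨x4, h4, e4⟩ := class_nonempty c4 p4
  refine ⟨x1, h1, x2, h2, x3, h3, x4, h4, ?_⟩
  rw [orbit_class a F L hF hL hT h1, orbit_class a F L hF hL hT h2,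
    orbit_class a F L hF hL hT h3, orbit_class a F L hF hL hT h4, e1, e2, e3, e4]
  refine ⟨c1, c2, c3, c4, ?_⟩
  ext y
  simp only [Set.mem_union, Set.mem_ofPred_eq]
  constructor
  · intro hy
    rcases hlab y hy with h | h | h | h
    · exact Or.inl (Or.inl (Or.inl ⟨hy, h⟩))
    · exact Or.inl (Or.inl (Or.inr ⟨hy, h⟩))
    · exact Or.inl (Or.inr ⟨hy, h⟩)
    · exact Or.inr ⟨hy, h⟩
  · rintro (((h | h) | h) | h) <;> exact h.1

/-- the class of size one containing `a` is `{a}`. -/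
theorem class_self {β : Type*} {F : Set β} {L : β → ℕ} {l : ℕ} {a : β}
    (c : {x | x ∈ F ∧ L x = l}.ncard = 1) (ha : a ∈ F) (hl : L a = l) :
    {x | x ∈ F ∧ L x = l} = {a} := by
  obtain ⟨b, hb⟩ := Set.ncard_eq_one.mp c
  have : a ∈ ({b} : Set β) := by
    rw [← hb]
    exact ⟨ha, hl⟩
  rw [hb, Set.mem_singleton_iff.mp this]


/-! ### Boolean validity checks -/

def VsB (m : ℕ) : Bool := Nat.blt m 16777216 && Nat.beq (pc m) 4 && tb m 23

theorem VsB_spec {m : ℕ} (h : VsB m = true) : Vs m := by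
  simp only [VsB, Bool.and_eq_true, tb_eq] at h
  exact ⟨by simpa using h.1.1, Nat.eq_of_beq_eq_true h.1.2, h.2⟩

theorem Vo_of_isOct {m : ℕ} (h : isOct m = true) : Vo m := ⟨isOct_lt h, isOct_spec h⟩

theorem psi_invO {f : ℕ → ℕ} {S : Finset (Finset GolayPt)} {σ : Equiv.Perm GolayPt}
    (hσ : σ • S = S) (o : Finset GolayPt) : psi f S {σ • o} = psi f S {o} := by
  rw [← Finset.smul_finset_singleton]
  exact psi_inv hσ {o}

end Cfsg.Agent.Lib.Helper3.M24Sys2
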