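import Mathlib
import Cfsg.Prelude.Def_Sporadic_a
import Cfsg.Prelude.Def_SporadicCombinatorics
import Cfsg.Agent.Lib.Helper3.M24Order
import Cfsg.Agent.Lib.Helper3.M24Sys2

set_option autoImplicit false

namespace Cfsg.Agent.Lib.Helper3.M24Struct

open Cfsg Cfsg.Agent.Lib.Helper3.Golay Cfsg.Agent.Lib.Helper3.Golay2
open Cfsg.Agent.Lib.Helper3.GolayM24 Cfsg.Agent.Lib.Helper3.M24Perm
open Cfsg.Agent.Lib.Helper3.M24Cert Cfsg.Agent.Lib.Helper3.M24Orb
open Cfsg.Agent.Lib.Helper3.M24Mask Cfsg.Agent.Lib.Helper3.M24Sys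
open Cfsg.Agent.Lib.Helper3.M24Sys2
open scoped Pointwise

/-! ### swapping two members of a set system -/

/-- any two members of the set system `X` are interchanged by an element of `M24` fixing all the
other members. -/
def SwapP (X : Finset (Finset GolayPt)) : Prop :=
  ∀ x ∈ X, ∀ y ∈ X, x ≠ y → ∃ g ∈ M24, g • x = y ∧ g • y = x ∧
    ∀ z ∈ X, z ≠ x → z ≠ y → g • z = z

theorem SwapP.smul {X : Finset (Finset GolayPt)} (h : SwapP X) {σ : Equiv.Perm GolayPt}
    (hσ : σ ∈ M24) : SwapP (σ • X) := by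
  intro x hx y hy hxy
  obtain ⟨x0, hx0, rfl⟩ := Finset.mem_smul_finset.mp hx
  obtain ⟨y0, hy0, rfl⟩ := Finset.mem_smul_finset.mp hy
  have hne : x0 ≠ y0 := fun e => hxy (by rw [e])
  obtain ⟨g, hg, h1, h2, h3⟩ := h x0 hx0 y0 hy0 hne
  refine ⟨σ * g * σ⁻¹, M24.mul_mem (M24.mul_mem hσ hg) (M24.inv_mem hσ), ?_, ?_, ?_⟩
  · rw [mul_smul, mul_smul, inv_smul_smul, h1]
  · rw [mul_smul, mul_smul, inv_smul_smul, h2]
  · intro z hz hzx hzy
    obtain ⟨z0, hz0, rfl⟩ := Finset.mem_smul_finset.mp hz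
    rw [mul_smul, mul_smul, inv_smul_smul,
      h3 z0 hz0 (fun e => hzx (by rw [e])) (fun e => hzy (by rw [e]))]

theorem stab_of_maps {X : Finset (Finset GolayPt)} {g : Equiv.Perm GolayPt}
    (h : ∀ z ∈ X, g • z ∈ X) : g • X = X := by
  apply Finset.eq_of_subset_of_card_le
  · intro w hw
    obtain ⟨z, hz, rfl⟩ := Finset.mem_smul_finset.mp hw
    exact h z hz
  · rw [Finset.card_smul_finset]

theorem stab_of_swap {X : Finset (Finset GolayPt)} {g : Equiv.Perm GolayPt}
    {x y : Finset GolayPt} (hx : x ∈ X) (hy : y ∈ X) (h1 : g • x = y) (h2 : g • y = x)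
    (h3 : ∀ z ∈ X, z ≠ x → z ≠ y → g • z = z) : g • X = X := by
  apply stab_of_maps
  intro z hz
  by_cases e1 : z = x
  · rw [e1, h1]
    exact hy
  · by_cases e2 : z = y
    · rw [e2, h2]
      exact hx
    · rw [h3 z hz e1 e2]
      exact hz

/-- every permutation of the members is induced. -/
theorem perm_of_swaps {X : Finset (Finset GolayPt)} (h : SwapP X) (e : Equiv.Perm ↥X) :
    ∃ g ∈ M24, g • X = X ∧ ∀ t : ↥X, g • (t : Finset GolayPt) = ((e t : ↥X) : Finset GolayPt) := by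
  classical
  induction e using Equiv.Perm.swap_induction_on with
  | one => exact ⟨1, M24.one_mem, one_smul _ _, fun t => one_smul _ _⟩
  | swap_mul f x y hxy ih =>
    obtain ⟨g, hg, hgX, hgt⟩ := ih
    obtain ⟨s, hs, h1, h2, h3⟩ := h x x.2 y y.2 (fun e => hxy (Subtype.ext e))
    refine ⟨s * g, M24.mul_mem hs hg, ?_, fun t => ?_⟩
    · rw [mul_smul, hgX, stab_of_swap x.2 y.2 h1 h2 h3]
    · rw [mul_smul, hgt t, Equiv.Perm.mul_apply]
      by_cases e1 : f t = x
      · rw [e1, Equiv.swap_apply_left, h1]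
      · by_cases e2 : f t = y
        · rw [e2, Equiv.swap_apply_right, h2]
        · rw [Equiv.swap_apply_of_ne_of_ne e1 e2]
          exact h3 _ (f t).2 (fun e => e1 (Subtype.ext e)) (fun e => e2 (Subtype.ext e))

/-- Boolean certificate for `SwapP` of a set system given by masks. -/
def swOK (l sw : List ℕ) : Bool :=
  l.all (fun a => l.all (fun b => Nat.beq a b || sw.any (fun T =>
    Nat.beq (apm T a) b && Nat.beq (apm T b) a &&
      l.all (fun c => Nat.beq c a || Nat.beq c b || Nat.beq (apm T c) c) && inM T)))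

theorem swOK_spec {l sw : List ℕ} (h : swOK l sw = true) : SwapP (l.map ms).toFinset := by
  intro x hx y hy hxy
  rw [List.mem_toFinset, List.mem_map] at hx hy
  obtain ⟨a, ha, rfl⟩ := hx
  obtain ⟨b, hb, rfl⟩ := hy
  simp only [swOK, List.all_eq_true, Bool.or_eq_true, List.any_eq_true, Bool.and_eq_true] at h
  rcases h a ha b hb with e | ⟨T, _, ⟨⟨e1, e2⟩, e3⟩, e4⟩
  · exact absurd (by rw [Nat.eq_of_beq_eq_true e]) hxy
  · have hg := inM_good e4
    refine ⟨tp T, tp_mem_M24 e4, ?_, ?_, ?_⟩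
    · rw [smul_ms hg, Nat.eq_of_beq_eq_true e1]
    · rw [smul_ms hg, Nat.eq_of_beq_eq_true e2]
    · intro z hz hza hzb
      rw [List.mem_toFinset, List.mem_map] at hz
      obtain ⟨c, hc, rfl⟩ := hz
      rcases e3 c hc with (e5 | e5) | e5
      · exact absurd (by rw [Nat.eq_of_beq_eq_true e5]) hza
      · exact absurd (by rw [Nat.eq_of_beq_eq_true e5]) hzb
      · rw [smul_ms hg, Nat.eq_of_beq_eq_true e5]

/-! ### the kernel of the action on the members -/

/-- the elements of `M24` fixing every member of `X`. -/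
def KS (X : Finset (Finset GolayPt)) : Subgroup (Equiv.Perm GolayPt) where
  carrier := {σ | σ ∈ M24 ∧ ∀ t ∈ X, σ • t = t}
  one_mem' := ⟨M24.one_mem, fun t _ => one_smul _ _⟩
  mul_mem' := by
    rintro σ τ ⟨h1, h2⟩ ⟨h1', h2'⟩
    exact ⟨M24.mul_mem h1 h1', fun t ht => by rw [mul_smul, h2' t ht, h2 t ht]⟩
  inv_mem' := by
    rintro σ ⟨h1, h2⟩
    exact ⟨M24.inv_mem h1, fun t ht => by rw [inv_smul_eq_iff, h2 t ht]⟩

theorem mem_KS {X : Finset (Finset GolayPt)} {σ : Equiv.Perm GolayPt} :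
    σ ∈ KS X ↔ σ ∈ M24 ∧ ∀ t ∈ X, σ • t = t := Iff.rfl

theorem KS_le (X : Finset (Finset GolayPt)) : KS X ≤ stabM X := by
  intro σ hσ
  exact mem_stabM.mpr ⟨hσ.1, stab_of_maps (fun z hz => by rw [hσ.2 z hz]; exact hz)⟩

theorem mem_KS_smul {X : Finset (Finset GolayPt)} {σ a : Equiv.Perm GolayPt} (hσ : σ ∈ M24) :
    a ∈ KS (σ • X) ↔ σ⁻¹ * a * σ ∈ KS X := by
  rw [mem_KS, mem_KS]
  constructor
  · rintro ⟨h1, h2⟩
    refine ⟨M24.mul_mem (M24.mul_mem (M24.inv_mem hσ) h1) hσ, fun t ht => ?_⟩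
    rw [mul_smul, mul_smul, h2 _ (Finset.smul_mem_smul_finset ht), inv_smul_smul]
  · rintro ⟨h1, h2⟩
    refine ⟨?_, fun t ht => ?_⟩
    · have h3 := M24.mul_mem (M24.mul_mem hσ h1) (M24.inv_mem hσ)
      have e : σ * (σ⁻¹ * a * σ) * σ⁻¹ = a := by group
      rwa [e] at h3
    · obtain ⟨t0, ht0, rfl⟩ := Finset.mem_smul_finset.mp ht
      have h3 := h2 t0 ht0
      rw [mul_smul, mul_smul, inv_smul_eq_iff] at h3
      exact h3

/-- the action of the stabiliser on the members. -/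
@[instance_reducible]
def actX (X : Finset (Finset GolayPt)) : MulAction ↥(stabM X) ↥X where
  smul g t := ⟨(g : Equiv.Perm GolayPt) • (t : Finset GolayPt), by
    have h := (mem_stabM.mp g.2).2
    have h2 : (g : Equiv.Perm GolayPt) • (t : Finset GolayPt) ∈ (g : Equiv.Perm GolayPt) • X :=
      Finset.smul_mem_smul_finset t.2
    rwa [h] at h2⟩
  one_smul t := Subtype.ext (one_smul _ _)
  mul_smul g h t := Subtype.ext (mul_smul _ _ _)

/-- the permutation representation of the stabiliser on the members. -/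
def permX (X : Finset (Finset GolayPt)) : ↥(stabM X) →* Equiv.Perm ↥X :=
  @MulAction.toPermHom ↥(stabM X) ↥X _ (actX X)

theorem permX_apply (X : Finset (Finset GolayPt)) (g : ↥(stabM X)) (t : ↥X) :
    ((permX X g t : ↥X) : Finset GolayPt) = (g : Equiv.Perm GolayPt) • (t : Finset GolayPt) := rfl

theorem permX_surj {X : Finset (Finset GolayPt)} (h : SwapP X) :
    Function.Surjective (permX X) := by
  intro e
  obtain ⟨g, hg, hgX, hgt⟩ := perm_of_swaps h e
  refine ⟨⟨g, mem_stabM.mpr ⟨hg, hgX⟩⟩, ?_⟩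
  apply Equiv.ext
  intro t
  apply Subtype.ext
  rw [permX_apply]
  exact hgt t

theorem mem_ker_permX {X : Finset (Finset GolayPt)} (g : ↥(stabM X)) :
    g ∈ (permX X).ker ↔ (g : Equiv.Perm GolayPt) ∈ KS X := by
  rw [MonoidHom.mem_ker, mem_KS]
  constructor
  · intro h
    refine ⟨(mem_stabM.mp g.2).1, fun t ht => ?_⟩
    have h1 := permX_apply X g ⟨t, ht⟩
    rw [h] at h1
    exact h1.symm
  · rintro ⟨_, h⟩
    apply Equiv.ext
    intro t
    apply Subtype.ext
    rw [permX_apply]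
    exact h t t.2

theorem card_stab_eq {X : Finset (Finset GolayPt)} (h : SwapP X) :
    Nat.card (stabM X) = Nat.card (KS X) * (X.card).factorial := by
  have h1 := Subgroup.card_mul_index (permX X).ker
  rw [Subgroup.index_ker, MonoidHom.range_eq_top.mpr (permX_surj h), Subgroup.card_top,
    Nat.card_perm, Nat.card_eq_finsetCard] at h1
  rw [← h1]
  congr 1
  apply Nat.card_congr
  exact ⟨fun x => ⟨x.1.1, (mem_ker_permX x.1).mp x.2⟩,
    fun y => ⟨⟨y.1, KS_le X y.2⟩, (mem_ker_permX _).mpr y.2⟩, fun _ => rfl, fun _ => rfl⟩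

/-! ### statements about `MulAction.stabilizer M24 X` -/

theorem stmt_perm {X : Finset (Finset GolayPt)} (h : SwapP X) (e : Equiv.Perm ↥X) :
    ∃ g ∈ MulAction.stabilizer M24 X, ∀ t : ↥X,
      (g : Equiv.Perm GolayPt) • (t : Finset GolayPt) = ((e t : ↥X) : Finset GolayPt) := by
  obtain ⟨g, hg, hgX, hgt⟩ := perm_of_swaps h e
  exact ⟨⟨g, hg⟩, MulAction.mem_stabilizer_iff.mpr hgX, hgt⟩

theorem stmt_card (X : Finset (Finset GolayPt)) :
    Nat.card {g : ↥(MulAction.stabilizer M24 X) //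
      ∀ t ∈ X, ((g : M24) : Equiv.Perm GolayPt) • t = t} = Nat.card (KS X) := by
  apply Nat.card_congr
  exact ⟨fun x => ⟨((x.1 : M24) : Equiv.Perm GolayPt), ⟨(x.1 : M24).2, x.2⟩⟩,
    fun y => ⟨⟨⟨y.1, y.2.1⟩, MulAction.mem_stabilizer_iff.mpr (mem_stabM.mp (KS_le X y.2)).2⟩,
      y.2.2⟩, fun _ => rfl, fun _ => rfl⟩

/-! ### the involutions of the kernel -/

/-- the elements of the kernel with square one. -/
def AS (X : Finset (Finset GolayPt)) : Set (Equiv.Perm GolayPt) := {σ | σ ∈ KS X ∧ σ * σ = 1}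

/-- the elements of the kernel with square one form a subgroup of order `64`. -/
def NiceA (X : Finset (Finset GolayPt)) : Prop :=
  (∀ a ∈ AS X, ∀ b ∈ AS X, a * b ∈ AS X) ∧ (AS X).ncard = 64

theorem mem_AS_smul {X : Finset (Finset GolayPt)} {σ a : Equiv.Perm GolayPt} (hσ : σ ∈ M24) :
    a ∈ AS (σ • X) ↔ σ⁻¹ * a * σ ∈ AS X := by
  show (a ∈ KS (σ • X) ∧ a * a = 1) ↔ (σ⁻¹ * a * σ ∈ KS X ∧ σ⁻¹ * a * σ * (σ⁻¹ * a * σ) = 1)
  rw [mem_KS_smul hσ]
  have e : σ⁻¹ * a * σ * (σ⁻¹ * a * σ) = σ⁻¹ * (a * a) * σ := by group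
  rw [e]
  constructor
  · rintro ⟨h1, h2⟩
    exact ⟨h1, by rw [h2]; group⟩
  · rintro ⟨h1, h2⟩
    refine ⟨h1, ?_⟩
    have h3 : a * a = σ * (σ⁻¹ * (a * a) * σ) * σ⁻¹ := by group
    rw [h3, h2]
    group

theorem NiceA.smul {X : Finset (Finset GolayPt)} (h : NiceA X) {σ : Equiv.Perm GolayPt}
    (hσ : σ ∈ M24) : NiceA (σ • X) := by
  refine ⟨fun a ha b hb => ?_, ?_⟩
  · rw [mem_AS_smul hσ] at ha hb ⊢
    have h1 := h.1 _ ha _ hb
    have e : σ⁻¹ * a * σ * (σ⁻¹ * b * σ) = σ⁻¹ * (a * b) * σ := by group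
    rwa [e] at h1
  · have e : AS (σ • X) = (fun a => σ * a * σ⁻¹) '' AS X := by
      ext a
      rw [mem_AS_smul hσ, Set.mem_image]
      constructor
      · intro ha
        exact ⟨_, ha, by group⟩
      · rintro ⟨b, hb, rfl⟩
        have e2 : σ⁻¹ * (σ * b * σ⁻¹) * σ = b := by group
        rwa [e2]
    rw [e, Set.ncard_image_of_injective, h.2]
    intro a b hab
    have h1 : σ * a * σ⁻¹ = σ * b * σ⁻¹ := hab
    exact mul_left_cancel (mul_right_cancel h1)

theorem stmt_normal {X : Finset (Finset GolayPt)} (h : NiceA X) :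
    ∃ N : Subgroup ↥(MulAction.stabilizer M24 X), N.Normal ∧ Nat.card N = 64 ∧
      ∀ x ∈ N, x * x = 1 := by
  let N : Subgroup ↥(MulAction.stabilizer M24 X) :=
    { carrier := {g | ((g : M24) : Equiv.Perm GolayPt) ∈ AS X}
      one_mem' := ⟨(KS X).one_mem, one_mul _⟩
      mul_mem' := fun {a b} ha hb => h.1 _ ha _ hb
      inv_mem' := by
        intro a ha
        have h1 : ((a : M24) : Equiv.Perm GolayPt)⁻¹ = ((a : M24) : Equiv.Perm GolayPt) :=
          inv_eq_of_mul_eq_one_left ha.2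
        show ((a : M24) : Equiv.Perm GolayPt)⁻¹ ∈ AS X
        rw [h1]
        exact ha }
  have hmem : ∀ g : ↥(MulAction.stabilizer M24 X),
      g ∈ N ↔ ((g : M24) : Equiv.Perm GolayPt) ∈ AS X := fun g => Iff.rfl
  refine ⟨N, ⟨fun n hn g => ?_⟩, ?_, fun x hx => ?_⟩
  · rw [hmem] at hn ⊢
    obtain ⟨⟨hn1, hn2⟩, hn3⟩ := hn
    have hgX : ((g : M24) : Equiv.Perm GolayPt) • X = X := MulAction.mem_stabilizer_iff.mp g.2
    refine ⟨⟨M24.mul_mem (M24.mul_mem (g : M24).2 hn1) (M24.inv_mem (g : M24).2), fun t ht => ?_⟩,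
      ?_⟩
    · show (((g : M24) : Equiv.Perm GolayPt) * ((n : M24) : Equiv.Perm GolayPt) *
        ((g : M24) : Equiv.Perm GolayPt)⁻¹) • t = t
      have h1 : ((g : M24) : Equiv.Perm GolayPt)⁻¹ • t ∈ X := by
        have h2 : ((g : M24) : Equiv.Perm GolayPt)⁻¹ • t ∈ ((g : M24) : Equiv.Perm GolayPt)⁻¹ • X :=
          Finset.smul_mem_smul_finset ht
        rwa [inv_smul_eq_iff.mpr hgX.symm] at h2
      rw [mul_smul, mul_smul, hn2 _ h1, smul_inv_smul]
    · show (((g : M24) : Equiv.Perm GolayPt) * ((n : M24) : Equiv.Perm GolayPt) *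
        ((g : M24) : Equiv.Perm GolayPt)⁻¹) * (((g : M24) : Equiv.Perm GolayPt) *
          ((n : M24) : Equiv.Perm GolayPt) * ((g : M24) : Equiv.Perm GolayPt)⁻¹) = 1
      have e : ∀ a b : Equiv.Perm GolayPt, a * b * a⁻¹ * (a * b * a⁻¹) = a * (b * b) * a⁻¹ := by
        intro a b
        group
      rw [e, hn3]
      group
  · rw [← h.2, ← Nat.card_coe_set_eq]
    apply Nat.card_congr
    exact ⟨fun x => ⟨((x.1 : M24) : Equiv.Perm GolayPt), x.2⟩,
      fun y => ⟨⟨⟨y.1, y.2.1.1⟩,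
        MulAction.mem_stabilizer_iff.mpr (mem_stabM.mp (KS_le X y.2.1)).2⟩, y.2⟩,
      fun _ => rfl, fun _ => rfl⟩
  · have h1 := ((hmem x).mp hx).2
    exact Subtype.ext (Subtype.ext h1)

/-! ### tables: products and squares -/

theorem tp_mul_pt {a b : ℕ} (ha : good a = true) (hb : good b = true) {i : ℕ} (hi : i < 24) :
    (tp a * tp b) (pt i) = pt (ent a (ent b i)) := by
  rw [Equiv.Perm.mul_apply, tp_pt hb hi, tp_pt ha (good_lt hb i hi)]

theorem perm_ext_pt {σ τ : Equiv.Perm GolayPt} (h : ∀ i < 24, σ (pt i) = τ (pt i)) : σ = τ := by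
  ext p
  have := h (idx p) (idx_lt p)
  rw [pt_idx] at this
  rw [this]

/-- the list of entries of a table. -/
def entL (T : ℕ) : List ℕ := (List.range 24).map (ent T)

theorem entL_inj {a b : ℕ} (ha : good a = true) (hb : good b = true) (h : tp a = tp b) :
    entL a = entL b := by
  apply List.map_congr_left
  intro i hi
  have hi' : i < 24 := List.mem_range.mp hi
  have h1 : tp a (pt i) = tp b (pt i) := by rw [h]
  rw [tp_pt ha hi', tp_pt hb hi'] at h1
  exact pt_injOn (good_lt ha i hi') (good_lt hb i hi') h1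

/-- is the table an involution or the identity? -/
def sqId (T : ℕ) : Bool := (List.range 24).all (fun i => Nat.beq (ent T (ent T i)) i)

theorem sqId_iff {T : ℕ} (hg : good T = true) : tp T * tp T = 1 ↔ sqId T = true := by
  simp only [sqId, List.all_eq_true, List.mem_range]
  constructor
  · intro h i hi
    have h1 := tp_mul_pt hg hg hi
    rw [h, Equiv.Perm.one_apply] at h1
    have h2 := pt_injOn hi (good_lt hg _ (good_lt hg i hi)) h1
    rw [← h2]
    exact Nat.beq_refl i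
  · intro h
    apply perm_ext_pt
    intro i hi
    rw [tp_mul_pt hg hg hi, Nat.eq_of_beq_eq_true (h i hi), Equiv.Perm.one_apply]

/-- the product of the two tables squares to one. -/
def comm4 (a b : ℕ) : Bool :=
  (List.range 24).all (fun i => Nat.beq (ent a (ent b (ent a (ent b i)))) i)

theorem comm4_spec {a b : ℕ} (ha : good a = true) (hb : good b = true) (h : comm4 a b = true) :
    tp a * tp b * (tp a * tp b) = 1 := by
  simp only [comm4, List.all_eq_true, List.mem_range] at h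
  apply perm_ext_pt
  intro i hi
  have h1 : (tp a * tp b * (tp a * tp b)) (pt i) = (tp a * tp b) ((tp a * tp b) (pt i)) := rfl
  rw [h1, tp_mul_pt ha hb hi, tp_mul_pt ha hb (good_lt ha _ (good_lt hb i hi)),
    Nat.eq_of_beq_eq_true (h i hi), Equiv.Perm.one_apply]

/-- `KS` of a set system given by masks. -/
theorem mem_KS_list {l : List ℕ} {σ : Equiv.Perm GolayPt} :
    σ ∈ KS (l.map ms).toFinset ↔ σ ∈ fixG l [] := by
  rw [mem_KS, mem_fixG]
  constructor
  · rintro ⟨h1, h2⟩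
    exact ⟨h1, fun D hD => h2 _ (List.mem_toFinset.mpr (List.mem_map.mpr ⟨D, hD, rfl⟩)),
      fun i hi => by simp at hi⟩
  · rintro ⟨h1, h2, _⟩
    refine ⟨h1, fun t ht => ?_⟩
    rw [List.mem_toFinset, List.mem_map] at ht
    obtain ⟨D, hD, rfl⟩ := ht
    exact h2 D hD

/-- enumeration of the kernel from its order. -/
theorem KS_enum {l LK : List ℕ} (hok : LK.all (inFix l []) = true)
    (hnd : (LK.map entL).Nodup) (hcard : Nat.card (KS (l.map ms).toFinset) = LK.length)
    {σ : Equiv.Perm GolayPt} (hσ : σ ∈ KS (l.map ms).toFinset) : ∃ T ∈ LK, σ = tp T := by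
  classical
  rw [List.all_eq_true] at hok
  have hinj : ∀ x ∈ LK, ∀ y ∈ LK, tp x = tp y → x = y := fun x hx y hy e =>
    List.inj_on_of_nodup_map hnd hx hy (entL_inj (inFix_good (hok x hx)) (inFix_good (hok y hy)) e)
  have hnd2 : (LK.map tp).Nodup := List.Nodup.map_on hinj (List.Nodup.of_map entL hnd)
  have hsub : (((LK.map tp).toFinset : Finset (Equiv.Perm GolayPt)) : Set (Equiv.Perm GolayPt)) ⊆
      ((KS (l.map ms).toFinset : Subgroup (Equiv.Perm GolayPt)) : Set (Equiv.Perm GolayPt)) := by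
    intro τ hτ
    rw [Finset.mem_coe, List.mem_toFinset, List.mem_map] at hτ
    obtain ⟨T, hT, rfl⟩ := hτ
    exact mem_KS_list.mpr (tp_mem_fixG (hok T hT))
  have heq := Set.eq_of_subset_of_ncard_le hsub (by
    rw [Set.ncard_coe_finset, List.toFinset_card_of_nodup hnd2, List.length_map, ← hcard,
      ← Nat.card_coe_set_eq]
    exact le_refl _) (Set.toFinite _)
  have h1 : σ ∈ (((LK.map tp).toFinset : Finset (Equiv.Perm GolayPt)) :
      Set (Equiv.Perm GolayPt)) := by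
    rw [heq]
    exact hσ
  rw [Finset.mem_coe, List.mem_toFinset, List.mem_map] at h1
  obtain ⟨T, hT, e⟩ := h1
  exact ⟨T, hT, e.symm⟩

/-- `NiceA` from an enumeration of the kernel. -/
theorem nice_of_enum {l LK : List ℕ} (hok : LK.all (inFix l []) = true)
    (hnd : (LK.map entL).Nodup) (hcard : Nat.card (KS (l.map ms).toFinset) = LK.length)
    (hcomm : (LK.filter sqId).all (fun a => (LK.filter sqId).all (fun b => comm4 a b)) = true)
    (hlen : (LK.filter sqId).length = 64) : NiceA (l.map ms).toFinset := by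
  classical
  have hok' := hok
  rw [List.all_eq_true] at hok'
  have hAS : ∀ σ, σ ∈ AS (l.map ms).toFinset ↔ ∃ T ∈ LK.filter sqId, σ = tp T := by
    intro σ
    constructor
    · rintro ⟨h1, h2⟩
      obtain ⟨T, hT, rfl⟩ := KS_enum hok hnd hcard h1
      exact ⟨T, List.mem_filter.mpr ⟨hT, (sqId_iff (inFix_good (hok' T hT))).mp h2⟩, rfl⟩
    · rintro ⟨T, hT, rfl⟩
      rw [List.mem_filter] at hT
      exact ⟨mem_KS_list.mpr (tp_mem_fixG (hok' T hT.1)),
        (sqId_iff (inFix_good (hok' T hT.1))).mpr hT.2⟩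
  refine ⟨fun a ha b hb => ?_, ?_⟩
  · refine ⟨(KS _).mul_mem ha.1 hb.1, ?_⟩
    obtain ⟨Ta, hTa, rfl⟩ := (hAS a).mp ha
    obtain ⟨Tb, hTb, rfl⟩ := (hAS b).mp hb
    rw [List.all_eq_true] at hcomm
    have h1 := hcomm Ta hTa
    rw [List.all_eq_true] at h1
    exact comm4_spec (inFix_good (hok' Ta (List.mem_filter.mp hTa).1))
      (inFix_good (hok' Tb (List.mem_filter.mp hTb).1)) (h1 Tb hTb)
  · have hinj : ∀ x ∈ LK, ∀ y ∈ LK, tp x = tp y → x = y := fun x hx y hy e =>
      List.inj_on_of_nodup_map hnd hx hy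
        (entL_inj (inFix_good (hok' x hx)) (inFix_good (hok' y hy)) e)
    have hnd2 : ((LK.filter sqId).map tp).Nodup :=
      List.Nodup.map_on (fun x hx y hy e => hinj x (List.mem_filter.mp hx).1 y
        (List.mem_filter.mp hy).1 e) ((List.Nodup.of_map entL hnd).filter _)
    have e : AS (l.map ms).toFinset =
        ((((LK.filter sqId).map tp).toFinset : Finset (Equiv.Perm GolayPt)) :
          Set (Equiv.Perm GolayPt)) := by
      ext σ
      rw [hAS, Finset.mem_coe, List.mem_toFinset, List.mem_map]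
      constructor
      · rintro ⟨T, hT, rfl⟩
        exact ⟨T, hT, rfl⟩
      · rintro ⟨T, hT, rfl⟩
        exact ⟨T, hT, rfl⟩
    rw [e, Set.ncard_coe_finset, List.toFinset_card_of_nodup hnd2, List.length_map, hlen]

/-- order of the stabiliser of a sextet. -/
theorem card_stabM_of_trans {X : Finset (Finset GolayPt)} {F : Set (Finset (Finset GolayPt))}
    (hX : X ∈ F) (hinv : ∀ σ ∈ M24, ∀ x ∈ F, σ • x ∈ F)
    (htr : ∀ y ∈ F, ∃ σ ∈ M24, σ • X = y) :
    244823040 = F.ncard * Nat.card (stabM X) := by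
  rw [← Cfsg.Agent.Lib.Helper3.M24Order.card_M24]
  exact card_eq_ncard_mul M24 (stabM X) X F (fun g => mem_stabM) (fun g hg => hinv g hg X hX) htr

end Cfsg.Agent.Lib.Helper3.M24Struct
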