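import Mathlib
import Cfsg.Prelude.Def_Sporadic_a
import Cfsg.Prelude.Def_SporadicCombinatorics
import Cfsg.Agent.Lib.Helper3.M24Struct

set_option autoImplicit false

namespace Cfsg.Agent.Lib.Helper3.M24Struct2

open Cfsg Cfsg.Agent.Lib.Helper3.Golay Cfsg.Agent.Lib.Helper3.Golay2
open Cfsg.Agent.Lib.Helper3.GolayM24 Cfsg.Agent.Lib.Helper3.M24Perm
open Cfsg.Agent.Lib.Helper3.M24Cert Cfsg.Agent.Lib.Helper3.M24Orb
open Cfsg.Agent.Lib.Helper3.M24Mask Cfsg.Agent.Lib.Helper3.M24Sys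
open Cfsg.Agent.Lib.Helper3.M24Sys2 Cfsg.Agent.Lib.Helper3.M24Struct
open scoped Pointwise

/-- surjectivity and the order of the kernel from orders. -/
theorem surj_of_card {G H : Type*} [Group G] [Group H] [Finite G] [Finite H] (f : G →* H)
    {b c : ℕ} (hG : Nat.card G = b * c) (hH : Nat.card H = b) (hker : Nat.card f.ker ≤ c)
    (hc : 0 < c) : Function.Surjective f ∧ Nat.card f.ker = c := by
  have h1 := Subgroup.card_mul_index f.ker
  rw [Subgroup.index_ker, hG] at h1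
  have h2 : Nat.card f.range ≤ b := hH ▸ Subgroup.card_le_card_group f.range
  have h3 : b * c ≤ c * Nat.card f.range := h1 ▸ Nat.mul_le_mul_right _ hker
  have h4 : b ≤ Nat.card f.range := by
    rw [mul_comm] at h3
    exact Nat.le_of_mul_le_mul_left h3 hc
  have h5 : Nat.card f.range = b := le_antisymm h2 h4
  have hb : 0 < b := by
    rw [← h5]
    exact Nat.card_pos
  refine ⟨?_, ?_⟩
  · rw [← MonoidHom.range_eq_top]
    exact Subgroup.eq_top_of_card_eq _ (by rw [h5, hH])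
  · rw [h5, mul_comm b c] at h1
    exact Nat.eq_of_mul_eq_mul_right hb h1

/-- conjugation identifies the stabiliser of `σ • X` in `M24` with `stabM X`. -/
def conjEquiv (X : Finset (Finset GolayPt)) {σ : Equiv.Perm GolayPt} (hσ : σ ∈ M24) :
    ↥(MulAction.stabilizer M24 (σ • X)) ≃* ↥(stabM X) where
  toFun x := ⟨σ⁻¹ * ((x : M24) : Equiv.Perm GolayPt) * σ, mem_stabM.mpr
    ⟨M24.mul_mem (M24.mul_mem (M24.inv_mem hσ) (x : M24).2) hσ, by
      have h : ((x : M24) : Equiv.Perm GolayPt) • (σ • X) = σ • X :=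
        MulAction.mem_stabilizer_iff.mp x.2
      rw [mul_smul, mul_smul, h, inv_smul_smul]⟩⟩
  invFun y := ⟨⟨σ * (y : Equiv.Perm GolayPt) * σ⁻¹,
    M24.mul_mem (M24.mul_mem hσ (mem_stabM.mp y.2).1) (M24.inv_mem hσ)⟩,
    MulAction.mem_stabilizer_iff.mpr (by
      show (σ * (y : Equiv.Perm GolayPt) * σ⁻¹) • (σ • X) = σ • X
      rw [mul_smul, mul_smul, inv_smul_smul, (mem_stabM.mp y.2).2])⟩
  left_inv x := Subtype.ext (Subtype.ext (by
    show σ * (σ⁻¹ * ((x : M24) : Equiv.Perm GolayPt) * σ) * σ⁻¹ = ((x : M24) : Equiv.Perm GolayPt)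
    group))
  right_inv y := Subtype.ext (by
    show σ⁻¹ * (σ * (y : Equiv.Perm GolayPt) * σ⁻¹) * σ = (y : Equiv.Perm GolayPt)
    group)
  map_mul' x y := Subtype.ext (by
    show σ⁻¹ * (((x : M24) : Equiv.Perm GolayPt) * ((y : M24) : Equiv.Perm GolayPt)) * σ =
      (σ⁻¹ * ((x : M24) : Equiv.Perm GolayPt) * σ) * (σ⁻¹ * ((y : M24) : Equiv.Perm GolayPt) * σ)
    group)

/-- a surjection from `stabM X` with kernel of order `64` and exponent `2` gives the normal
subgroup and the quotient isomorphism for every conjugate of `X`. -/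
theorem stmt_quot {X : Finset (Finset GolayPt)} {H : Type*} [Group H] (Φ : ↥(stabM X) →* H)
    (hsurj : Function.Surjective Φ) (hcard : Nat.card Φ.ker = 64)
    (hexp : ∀ x ∈ Φ.ker, x * x = 1) {σ : Equiv.Perm GolayPt} (hσ : σ ∈ M24) :
    ∃ (N : Subgroup ↥(MulAction.stabilizer M24 (σ • X))) (_ : N.Normal), Nat.card N = 64 ∧
      (∀ x ∈ N, x * x = 1) ∧ Nonempty (↥(MulAction.stabilizer M24 (σ • X)) ⧸ N ≃* H) := by
  let ψ := conjEquiv X hσ
  let Φ' : ↥(MulAction.stabilizer M24 (σ • X)) →* H := Φ.comp ψ.toMonoidHom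
  have hmem : ∀ x, x ∈ Φ'.ker ↔ ψ x ∈ Φ.ker := fun x => Iff.rfl
  refine ⟨Φ'.ker, MonoidHom.normal_ker Φ', ?_, ?_, ?_⟩
  · rw [← hcard]
    apply Nat.card_congr
    exact ⟨fun x => ⟨ψ x.1, (hmem x.1).mp x.2⟩,
      fun y => ⟨ψ.symm y.1, (hmem _).mpr (by rw [MulEquiv.apply_symm_apply]; exact y.2)⟩,
      fun x => Subtype.ext (ψ.symm_apply_apply x.1), fun y => Subtype.ext (ψ.apply_symm_apply y.1)⟩
  · intro x hx
    have h1 := hexp (ψ x) ((hmem x).mp hx)
    rw [← map_mul] at h1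
    exact ψ.injective (by rw [h1, map_one])
  · exact ⟨QuotientGroup.quotientKerEquivOfSurjective Φ' (hsurj.comp ψ.surjective)⟩

/-- a point whose membership pattern is unique is fixed. -/
theorem fix_of_ub {Ds F : List ℕ} {b : ℕ} (h : ubOK Ds F b (2 ^ b) = true) (hb : b < 24)
    (hbF : ∀ i ∈ F, i ≠ b) {g : Equiv.Perm GolayPt} (hg : g ∈ fixG Ds F) : g (pt b) = pt b := by
  have h1 : g (pt b) ∈ ms (2 ^ b) := by
    apply ub_sound h
    · intro i hi hi24 heq
      have h2 := hg.2.2 i hi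
      rw [← h2] at heq
      exact hbF i hi (pt_injOn hi24 hb (g.injective heq))
    · intro D hD
      have h2 := hg.2.1 D hD
      rw [← pt_mem_ms hb]
      conv_lhs => rw [← h2]
      exact Finset.smul_mem_smul_finset_iff g
  rw [mem_ms, Nat.testBit_two_pow] at h1
  have h2 : b = idx (g (pt b)) := by simpa using h1
  conv_rhs => rw [h2]
  rw [pt_idx]

/-- the action of a permutation on indicator functions of masks. -/
theorem dec_smul {g : Equiv.Perm GolayPt} {t u : ℕ} (h : g • ms t = ms u) (q : GolayPt) :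
    dec t (g⁻¹ q) = dec u q := by
  have h1 : g⁻¹ q ∈ ms t ↔ q ∈ ms u := by
    rw [← h]
    show g⁻¹ • q ∈ ms t ↔ q ∈ g • ms t
    exact Finset.inv_smul_mem_iff
  rw [mem_ms, mem_ms] at h1
  unfold dec
  by_cases e : u.testBit (idx q) = true
  · rw [if_pos e, if_pos (h1.mpr e)]
  · rw [if_neg e, if_neg (fun e' => e (h1.mp e'))]

theorem dec_mul_bit (b τ : ℕ) (hb : b < 2) (q : GolayPt) :
    dec (b * τ) q = (b : ZMod 2) * dec τ q := by
  interval_cases b
  · simp [dec_zero]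
  · simp

end Cfsg.Agent.Lib.Helper3.M24Struct2
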