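import Mathlib
import Cfsg.Prelude.Def_Sporadic_a
import Cfsg.Prelude.Def_SporadicCombinatorics
import Cfsg.Agent.Lib.Helper3.Coatom
import Cfsg.Agent.Lib.Helper3.M24Sys2
import Cfsg.Agent.Lib.Helper3.M24SysAll

set_option autoImplicit false

namespace Cfsg.Agent.Lib.Helper3.M24SysStd

open Cfsg Cfsg.Agent.Lib.Helper3.Golay Cfsg.Agent.Lib.Helper3.Golay2
open Cfsg.Agent.Lib.Helper3.GolayM24 Cfsg.Agent.Lib.Helper3.M24Perm
open Cfsg.Agent.Lib.Helper3.M24Cert Cfsg.Agent.Lib.Helper3.M24Orb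
open Cfsg.Agent.Lib.Helper3.M24Mask Cfsg.Agent.Lib.Helper3.M24Sys
open Cfsg.Agent.Lib.Helper3.M24Sys2
open scoped Pointwise

/-- `M24` is transitive on sextets. -/
theorem sextet_trans {x y : Finset (Finset GolayPt)} (hx : x ∈ sextets) (hy : y ∈ sextets) :
    ∃ σ ∈ M24, σ • x = y := by
  obtain ⟨σ, hσ, e⟩ := Cfsg.Agent.Lib.Helper3.M24SysAll.T_sext x hx y hy
    (by rw [Cfsg.Agent.Lib.Helper3.M24SysAll.Lb_sext x hx,
      Cfsg.Agent.Lib.Helper3.M24SysAll.Lb_sext y hy])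
  exact ⟨σ, (mem_stabM.mp hσ).1, e⟩

/-- `M24` is transitive on trios. -/
theorem trio_trans {x y : Finset (Finset GolayPt)} (hx : x ∈ trios) (hy : y ∈ trios) :
    ∃ σ ∈ M24, σ • x = y := by
  obtain ⟨σ, hσ, e⟩ := Cfsg.Agent.Lib.Helper3.M24SysAll.T_trio x hx y hy
    (by rw [Cfsg.Agent.Lib.Helper3.M24SysAll.Lb_trio x hx,
      Cfsg.Agent.Lib.Helper3.M24SysAll.Lb_trio y hy])
  exact ⟨σ, (mem_stabM.mp hσ).1, e⟩

theorem sxo0_mem : sxo 8388615 ∈ sextets := sxo_mem (VsB_spec (by decide +kernel))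

theorem tro0_mem : tro 512015 ∈ trios := tro_mem (VtB_spec (by decide +kernel))

theorem sextet_std {S : Finset (Finset GolayPt)} (hS : S ∈ sextets) :
    ∃ σ ∈ M24, σ • sxo 8388615 = S := sextet_trans sxo0_mem hS

theorem trio_std {T : Finset (Finset GolayPt)} (hT : T ∈ trios) :
    ∃ σ ∈ M24, σ • tro 512015 = T := trio_trans tro0_mem hT

theorem three_orbits_self {β : Type*} [MulAction (Equiv.Perm GolayPt) β] (a : β) (F : Set β)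
    (L : β → ℕ) (hF : ∀ σ ∈ M24, ∀ x ∈ F, σ • x ∈ F)
    (hL : ∀ σ ∈ stabM a, ∀ x ∈ F, L (σ • x) = L x)
    (hT : ∀ x ∈ F, ∀ y ∈ F, L x = L y → ∃ τ ∈ stabM a, τ • x = y) (ha : a ∈ F)
    {l0 l1 l2 l3 n1 n2 n3 : ℕ}
    (c0 : {x | x ∈ F ∧ L x = l0}.ncard = 1) (e0 : L a = l0)
    (c1 : {x | x ∈ F ∧ L x = l1}.ncard = n1) (c2 : {x | x ∈ F ∧ L x = l2}.ncard = n2)
    (c3 : {x | x ∈ F ∧ L x = l3}.ncard = n3) (p1 : 0 < n1) (p2 : 0 < n2) (p3 : 0 < n3)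
    (hlab : ∀ x ∈ F, L x = l0 ∨ L x = l1 ∨ L x = l2 ∨ L x = l3) :
    ∃ X₁ ∈ F, ∃ X₂ ∈ F, ∃ X₃ ∈ F,
      (MulAction.orbit ↥(MulAction.stabilizer ↥M24 a) X₁).ncard = n1 ∧
      (MulAction.orbit ↥(MulAction.stabilizer ↥M24 a) X₂).ncard = n2 ∧
      (MulAction.orbit ↥(MulAction.stabilizer ↥M24 a) X₃).ncard = n3 ∧
      F = {a} ∪ MulAction.orbit ↥(MulAction.stabilizer ↥M24 a) X₁ ∪
        MulAction.orbit ↥(MulAction.stabilizer ↥M24 a) X₂ ∪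
        MulAction.orbit ↥(MulAction.stabilizer ↥M24 a) X₃ := by
  obtain ⟨x1, h1, e1⟩ := class_nonempty c1 p1
  obtain ⟨x2, h2, e2⟩ := class_nonempty c2 p2
  obtain ⟨x3, h3, e3⟩ := class_nonempty c3 p3
  refine ⟨x1, h1, x2, h2, x3, h3, ?_⟩
  rw [orbit_class a F L hF hL hT h1, orbit_class a F L hF hL hT h2,
    orbit_class a F L hF hL hT h3, e1, e2, e3, ← class_self c0 ha e0]
  refine ⟨c1, c2, c3, ?_⟩
  ext y
  simp only [Set.mem_union, Set.mem_ofPred_eq]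
  constructor
  · intro hy
    rcases hlab y hy with h | h | h | h
    · exact Or.inl (Or.inl (Or.inl ⟨hy, h⟩))
    · exact Or.inl (Or.inl (Or.inr ⟨hy, h⟩))
    · exact Or.inl (Or.inr ⟨hy, h⟩)
    · exact Or.inr ⟨hy, h⟩
  · rintro (((h | h) | h) | h) <;> exact h.1

theorem four_orbits_self {β : Type*} [MulAction (Equiv.Perm GolayPt) β] (a : β) (F : Set β)
    (L : β → ℕ) (hF : ∀ σ ∈ M24, ∀ x ∈ F, σ • x ∈ F)
    (hL : ∀ σ ∈ stabM a, ∀ x ∈ F, L (σ • x) = L x)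
    (hT : ∀ x ∈ F, ∀ y ∈ F, L x = L y → ∃ τ ∈ stabM a, τ • x = y) (ha : a ∈ F)
    {l0 l1 l2 l3 l4 n1 n2 n3 n4 : ℕ}
    (c0 : {x | x ∈ F ∧ L x = l0}.ncard = 1) (e0 : L a = l0)
    (c1 : {x | x ∈ F ∧ L x = l1}.ncard = n1) (c2 : {x | x ∈ F ∧ L x = l2}.ncard = n2)
    (c3 : {x | x ∈ F ∧ L x = l3}.ncard = n3) (c4 : {x | x ∈ F ∧ L x = l4}.ncard = n4)
    (p1 : 0 < n1) (p2 : 0 < n2) (p3 : 0 < n3) (p4 : 0 < n4)
    (hlab : ∀ x ∈ F, L x = l0 ∨ L x = l1 ∨ L x = l2 ∨ L x = l3 ∨ L x = l4) :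
    ∃ X₁ ∈ F, ∃ X₂ ∈ F, ∃ X₃ ∈ F, ∃ X₄ ∈ F,
      (MulAction.orbit ↥(MulAction.stabilizer ↥M24 a) X₁).ncard = n1 ∧
      (MulAction.orbit ↥(MulAction.stabilizer ↥M24 a) X₂).ncard = n2 ∧
      (MulAction.orbit ↥(MulAction.stabilizer ↥M24 a) X₃).ncard = n3 ∧
      (MulAction.orbit ↥(MulAction.stabilizer ↥M24 a) X₄).ncard = n4 ∧
      F = {a} ∪ MulAction.orbit ↥(MulAction.stabilizer ↥M24 a) X₁ ∪
        MulAction.orbit ↥(MulAction.stabilizer ↥M24 a) X₂ ∪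
        MulAction.orbit ↥(MulAction.stabilizer ↥M24 a) X₃ ∪
        MulAction.orbit ↥(MulAction.stabilizer ↥M24 a) X₄ := by
  obtain ⟨x1, h1, e1⟩ := class_nonempty c1 p1
  obtain ⟨x2, h2, e2⟩ := class_nonempty c2 p2
  obtain ⟨x3, h3, e3⟩ := class_nonempty c3 p3
  obtain ⟨x4, h4, e4⟩ := class_nonempty c4 p4
  refine ⟨x1, h1, x2, h2, x3, h3, x4, h4, ?_⟩
  rw [orbit_class a F L hF hL hT h1, orbit_class a F L hF hL hT h2,
    orbit_class a F L hF hL hT h3, orbit_class a F L hF hL hT h4, e1, e2, e3, e4,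
    ← class_self c0 ha e0]
  refine ⟨c1, c2, c3, c4, ?_⟩
  ext y
  simp only [Set.mem_union, Set.mem_ofPred_eq]
  constructor
  · intro hy
    rcases hlab y hy with h | h | h | h | h
    · exact Or.inl (Or.inl (Or.inl (Or.inl ⟨hy, h⟩)))
    · exact Or.inl (Or.inl (Or.inl (Or.inr ⟨hy, h⟩)))
    · exact Or.inl (Or.inl (Or.inr ⟨hy, h⟩))
    · exact Or.inl (Or.inr ⟨hy, h⟩)
    · exact Or.inr ⟨hy, h⟩
  · rintro ((((h | h) | h) | h) | h) <;> exact h.1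

/-- maximality of the stabiliser of `a` from the class sizes of an invariant. -/
theorem coatom_of_classes {β : Type*} [MulAction (Equiv.Perm GolayPt) β] (a : β) (F : Set β)
    (L : β → ℕ) (hfin : F.Finite) (hF : ∀ σ ∈ M24, ∀ x ∈ F, σ • x ∈ F) (ha : a ∈ F)
    (htr : ∀ x ∈ F, ∃ σ ∈ M24, σ • a = x)
    (hT : ∀ x ∈ F, ∀ y ∈ F, L x = L y → ∃ τ ∈ stabM a, τ • x = y)
    (labels : Finset ℕ) (N : ℕ → ℕ) (hlab : ∀ x ∈ F, L x ∈ labels)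
    (hN : ∀ l ∈ labels, {x | x ∈ F ∧ L x = l}.ncard = N l)
    (la n : ℕ) (hla : L a = la) (hn : F.ncard = n) (hlt : 1 < n)
    (hdiv : ∀ Ls ∈ labels.powerset, la ∈ Ls → (∑ l ∈ Ls, N l) ∣ n →
      (∑ l ∈ Ls, N l) ≤ 1 ∨ (∑ l ∈ Ls, N l) = n) :
    IsCoatom (MulAction.stabilizer ↥M24 a) := by
  refine Cfsg.Agent.Lib.Helper3.Coatom.coatom_of_suborbits (G := ↥M24)
    (MulAction.stabilizer ↥M24 a) a F {a} hfin (fun g => hF g.1 g.2 a ha)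
    (fun s hs => by
      obtain ⟨σ, hσ, e⟩ := htr s hs
      exact ⟨⟨σ, hσ⟩, e⟩)
    (fun g hg => MulAction.mem_stabilizer_iff.mpr hg)
    (fun k hk => MulAction.mem_stabilizer_iff.mp hk)
    (fun b hb => ⟨1, Subgroup.one_mem _, by rw [one_smul]; exact hb.symm⟩)
    L (fun x hx y hy h => by
      obtain ⟨τ, hτ, e⟩ := hT x hx y hy h
      exact ⟨⟨τ, (mem_stabM.mp hτ).1⟩, MulAction.mem_stabilizer_iff.mpr (mem_stabM.mp hτ).2, e⟩)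
    labels N hlab hN la n 1 hla hn (Set.ncard_singleton a) hlt hdiv

end Cfsg.Agent.Lib.Helper3.M24SysStd
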