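import Mathlib
import Cfsg.Prelude.Def_Sporadic_a
import Cfsg.Prelude.Def_SporadicCombinatorics
import Cfsg.Agent.Lib.Helper3.M24Struct
import Cfsg.Agent.Lib.Helper3.M24Struct2
import Cfsg.Agent.Lib.Helper3.M24SysStd
import Cfsg.Agent.Lib.Helper3.M24SysTr

set_option autoImplicit false

namespace Cfsg.Agent.Lib.Helper3.M24TrioK

open Cfsg Cfsg.Agent.Lib.Helper3.Golay Cfsg.Agent.Lib.Helper3.Golay2
open Cfsg.Agent.Lib.Helper3.GolayM24 Cfsg.Agent.Lib.Helper3.M24Perm
open Cfsg.Agent.Lib.Helper3.M24Cert Cfsg.Agent.Lib.Helper3.M24Orb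
open Cfsg.Agent.Lib.Helper3.M24Mask Cfsg.Agent.Lib.Helper3.M24Sys
open Cfsg.Agent.Lib.Helper3.M24Sys2 Cfsg.Agent.Lib.Helper3.M24SysStd
open Cfsg.Agent.Lib.Helper3.M24Struct Cfsg.Agent.Lib.Helper3.M24Struct2
open Cfsg.Agent.Lib.Helper28.M24Sext (trioIdx trioOf nodup_trioIdx trioOf_inj exists_trioIdx
  trioOf_mem k3)
open scoped Pointwise

/-- the three octads of the standard trio. -/
def lT : List ℕ := [3277413, 126216, 13373586]

/-- elements interchanging two octads of the standard trio and fixing the third. -/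
def swT : List ℕ := [804946195359466833692447918050125872, 708798763847862079384998266374900403, 350486511509977074321487123238146385]

theorem swT_ok : swOK lT swT = true := by decide +kernel

theorem T0_eq : tro 512015 = (lT.map ms).toFinset := by
  rw [tro_list]
  have e : [cw (Nat.mod 512015 4096), cw (Nat.div 512015 4096),
      cw (k3 (Nat.mod 512015 4096) (Nat.div 512015 4096))] = lT := by decide +kernel
  rw [e]

theorem swapT0 : SwapP (tro 512015) := by
  rw [T0_eq]
  exact swOK_spec swT_ok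

theorem swap_trio {T : Finset (Finset GolayPt)} (hT : T ∈ trios) : SwapP T := by
  obtain ⟨σ, hσ, rfl⟩ := trio_std hT
  exact swapT0.smul hσ

theorem ncard_trios : trios.ncard = 3795 := by
  rw [Cfsg.Agent.Lib.Helper28.M24Mask.ncard_eq_length trios trioIdx trioOf nodup_trioIdx
      (fun x hx y hy e => trioOf_inj hx hy e)
      (fun T => ⟨fun hT => exists_trioIdx hT, fun ⟨x, hx, e⟩ => e ▸ trioOf_mem hx⟩)]
  decide +kernel

theorem card_stab_trio {T : Finset (Finset GolayPt)} (hT : T ∈ trios) :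
    Nat.card (stabM T) = 64512 := by
  have h := card_stabM_of_trans hT trios_inv (fun y hy => trio_trans hT hy)
  rw [ncard_trios] at h
  omega

/-! ### the seven sextets refining the standard trio -/

/-- the seven sextets refining the standard trio (tetrad through the point `23` first). -/
def LL7 : List (List ℕ) := [[8392722, 44032, 82184, 131649, 3145764, 4980864], [8650896, 3336, 122880, 1179653, 2097760, 4722690], [8913026, 50184, 76032, 1180192, 2097221, 4460560], [9179136, 25856, 100360, 131172, 3146241, 4194450], [12587136, 549, 51456, 74760, 786450, 3276864], [12845058, 26632, 99584, 528528, 1048673, 2228740], [13107216, 41224, 84992, 266370, 1049156, 2228257]]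

theorem LL7_sex : ∀ l ∈ LL7, sexOK l = true := by decide +kernel

theorem LL7_nd : ∀ l ∈ LL7, l.Nodup := by decide +kernel

theorem LL7_bd : ∀ l ∈ LL7, l.all (fun m => Nat.blt m 16777216) = true := by decide +kernel

theorem LL7_psi : ∀ l ∈ LL7,
    (l.map (fun t => (lT.map (fun u => f100 (pc (Nat.land t u)))).sum)).sum = 600000012 := by
  decide +kernel

theorem LL7_hd : ∀ l ∈ LL7, l.headD 0 ∈ l := by decide +kernel

theorem LL7_vs : ∀ l ∈ LL7, VsB (l.headD 0) = true := by decide +kernel

theorem LL7_hnd : (LL7.map (fun l => l.headD 0)).Nodup := by decide +kernel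

theorem LL7_len : LL7.length = 7 := by decide +kernel

theorem LL7_mem {l : List ℕ} (hl : l ∈ LL7) : (l.map ms).toFinset ∈ sextets ∧
    psi f100 (tro 512015) (l.map ms).toFinset = 600000012 :=
  ⟨sexOK_mem (LL7_sex l hl) (LL7_nd l hl),
    psi_root f100 T0_eq rfl (by decide +kernel) (LL7_nd l hl) (by decide +kernel) (LL7_bd l hl)
      (LL7_psi l hl)⟩

theorem F7_enum {x : Finset (Finset GolayPt)} (hx : x ∈ sextets)
    (hl : psi f100 (tro 512015) x = 600000012) : ∃ l ∈ LL7, x = (l.map ms).toFinset := by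
  classical
  have hnd : (LL7.map (fun l => (l.map ms).toFinset)).Nodup := by
    apply List.Nodup.map_on _ (List.Nodup.of_map _ LL7_hnd)
    intro l hl l' hl' e
    have e1 : sxo (l.headD 0) = sxo (l'.headD 0) := by
      rw [sxo_list (LL7_sex l hl) (LL7_nd l hl) (LL7_hd l hl),
        sxo_list (LL7_sex l' hl') (LL7_nd l' hl') (LL7_hd l' hl'), e]
    exact List.inj_on_of_nodup_map LL7_hnd hl hl'
      (sxo_inj (VsB_spec (LL7_vs l hl)) (VsB_spec (LL7_vs l' hl')) e1)
  have hsub : (((LL7.map (fun l => (l.map ms).toFinset)).toFinset :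
      Finset (Finset (Finset GolayPt))) : Set (Finset (Finset GolayPt))) ⊆
      {x | x ∈ sextets ∧ psi f100 (tro 512015) x = 600000012} := by
    intro y hy
    rw [Finset.mem_coe, List.mem_toFinset, List.mem_map] at hy
    obtain ⟨l, hl, rfl⟩ := hy
    exact LL7_mem hl
  have heq := Set.eq_of_subset_of_ncard_le hsub (by
    rw [Cfsg.Agent.Lib.Helper3.M24SysTr.N_sext_1, Set.ncard_coe_finset,
      List.toFinset_card_of_nodup hnd, List.length_map, LL7_len]) (Set.toFinite _)
  have h1 : x ∈ (((LL7.map (fun l => (l.map ms).toFinset)).toFinset :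
      Finset (Finset (Finset GolayPt))) : Set (Finset (Finset GolayPt))) := by
    rw [heq]
    exact ⟨hx, hl⟩
  rw [Finset.mem_coe, List.mem_toFinset, List.mem_map] at h1
  obtain ⟨l, hl, e⟩ := h1
  exact ⟨l, hl, e.symm⟩

/-- the `42` tetrads of the seven refining sextets. -/
def U42 : List ℕ := LL7.flatten

theorem smul_special {g : Equiv.Perm GolayPt} (hg : g ∈ stabM (tro 512015)) {t : ℕ}
    (ht : t ∈ U42) : ∃ u ∈ U42, g • ms t = ms u := by
  obtain ⟨l, hl, htl⟩ := List.mem_flatten.mp ht
  obtain ⟨h1, h2⟩ := LL7_mem hl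
  have h3 : g • (l.map ms).toFinset ∈ sextets := sextets_inv g (mem_stabM.mp hg).1 _ h1
  have h4 : psi f100 (tro 512015) (g • (l.map ms).toFinset) = 600000012 := by
    rw [psi_inv (mem_stabM.mp hg).2, h2]
  obtain ⟨l', hl', e⟩ := F7_enum h3 h4
  have h5 : g • ms t ∈ g • (l.map ms).toFinset :=
    Finset.smul_mem_smul_finset (List.mem_toFinset.mpr (List.mem_map.mpr ⟨t, htl, rfl⟩))
  rw [e, List.mem_toFinset, List.mem_map] at h5
  obtain ⟨u, hu, e2⟩ := h5
  exact ⟨u, List.mem_flatten.mpr ⟨l', hl', hu⟩, e2.symm⟩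

/-! ### the matrix of an element of the stabiliser -/

/-- three tetrads (through the point `23`) of independent refining sextets. -/
def tauN (j : ℕ) : ℕ := [8392722, 8650896, 8913026].getD j 0

/-- three octads dual to the three tetrads. -/
def ccN (i : ℕ) : ℕ := [6554826, 145176, 1337732].getD i 0

/-- the matrix of a permutation with respect to the three tetrads and the three octads. -/
def Mg (g : Equiv.Perm GolayPt) : Matrix (Fin 3) (Fin 3) (ZMod 2) :=
  Matrix.of fun i j => ∑ p, dec (tauN j.val) (g⁻¹ p) * dec (ccN i.val) p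

theorem Mg_apply (g : Equiv.Perm GolayPt) (i j : Fin 3) :
    Mg g i j = ∑ p, dec (tauN j.val) (g⁻¹ p) * dec (ccN i.val) p := rfl

theorem Mg_entry {g : Equiv.Perm GolayPt} {j : Fin 3} {u : ℕ}
    (h : g • ms (tauN j.val) = ms u) (i : Fin 3) :
    Mg g i j = ((pc (u &&& ccN i.val) : ℕ) : ZMod 2) := by
  rw [Mg_apply, ← dot_dec]
  apply Finset.sum_congr rfl
  intro p _
  rw [dec_smul h p]

theorem tau_mem : ∀ j < 3, tauN j ∈ U42 := by decide +kernel

theorem cc_code : ∀ i < 3, cw (kOf (ccN i)) = ccN i := by decide +kernel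

theorem cc_mem (i : Fin 3) : dec (ccN i.val) ∈ golayCode := by
  rw [← cc_code i.val i.2]
  exact dec_cw_mem _

/-- reduction of a special tetrad modulo the code and the three chosen tetrads. -/
def red (u : ℕ) : ℕ :=
  u ^^^ (pc (u &&& ccN 0) % 2 * tauN 0) ^^^ (pc (u &&& ccN 1) % 2 * tauN 1) ^^^
    (pc (u &&& ccN 2) % 2 * tauN 2)

theorem red_ok : U42.all (fun u => Nat.beq (cw (kOf (red u))) (red u)) = true := by
  decide +kernel

theorem char2 : ∀ d a b c : ZMod 2, d = a + b + c + (d + a + b + c) := by decide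

theorem KF {g : Equiv.Perm GolayPt} (hg : g ∈ stabM (tro 512015)) (j : Fin 3) :
    ∃ w ∈ golayCode, ∀ q, dec (tauN j.val) (g⁻¹ q) =
      ∑ k : Fin 3, Mg g k j * dec (tauN k.val) q + w q := by
  obtain ⟨u, hu, e⟩ := smul_special hg (tau_mem j.val j.2)
  have hr := List.all_eq_true.mp red_ok u hu
  refine ⟨dec (red u), by rw [← Nat.eq_of_beq_eq_true hr]; exact dec_cw_mem _, fun q => ?_⟩
  rw [dec_smul e q, Fin.sum_univ_three, Mg_entry e 0, Mg_entry e 1, Mg_entry e 2]
  have h1 : dec (red u) q = dec u q + ((pc (u &&& ccN 0) : ℕ) : ZMod 2) * dec (tauN 0) q +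
      ((pc (u &&& ccN 1) : ℕ) : ZMod 2) * dec (tauN 1) q +
      ((pc (u &&& ccN 2) : ℕ) : ZMod 2) * dec (tauN 2) q := by
    unfold red
    rw [dec_xor, dec_xor, dec_xor]
    simp only [Pi.add_apply]
    rw [dec_mul_bit _ _ (Nat.mod_lt _ (by norm_num)), dec_mul_bit _ _ (Nat.mod_lt _ (by norm_num)),
      dec_mul_bit _ _ (Nat.mod_lt _ (by norm_num)), ZMod.natCast_mod, ZMod.natCast_mod,
      ZMod.natCast_mod]
  rw [h1]
  exact char2 _ _ _ _

theorem Mg_mul {g h : Equiv.Perm GolayPt} (hg : g ∈ stabM (tro 512015))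
    (hh : h ∈ stabM (tro 512015)) : Mg (g * h) = Mg g * Mg h := by
  ext i j
  obtain ⟨w, hw, hKF⟩ := KF hh j
  rw [Matrix.mul_apply, Mg_apply]
  have e1 : ∀ p, dec (tauN j.val) ((g * h)⁻¹ p) * dec (ccN i.val) p =
      ∑ k : Fin 3, Mg h k j * (dec (tauN k.val) (g⁻¹ p) * dec (ccN i.val) p) +
        w (g⁻¹ p) * dec (ccN i.val) p := by
    intro p
    rw [mul_inv_rev, Equiv.Perm.mul_apply, hKF (g⁻¹ p), add_mul, Finset.sum_mul]
    exact congrArg (· + w (g⁻¹ p) * dec (ccN i.val) p)
      (Finset.sum_congr rfl (fun k _ => mul_assoc _ _ _))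
  have e2 : ∑ p, w (g⁻¹ p) * dec (ccN i.val) p = 0 :=
    dot_eq_zero (comp_mem_of_mem_M24 (mem_stabM.mp hg).1 w hw) (cc_mem i)
  rw [Finset.sum_congr rfl (fun p _ => e1 p), Finset.sum_add_distrib, e2, add_zero,
    Finset.sum_comm]
  apply Finset.sum_congr rfl
  intro k _
  rw [← Finset.mul_sum, mul_comm]
  rfl

/-- table check: the matrix of the images `f j` of the three tetrads is the identity. -/
def matId (f : ℕ → ℕ) : Bool :=
  (List.range 3).all (fun i => (List.range 3).all (fun j =>
    Nat.beq (pc (f j &&& ccN i) % 2) (if i = j then 1 else 0)))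

theorem matId_spec {f : ℕ → ℕ} (h : matId f = true) (i j : Fin 3) :
    ((pc (f j.val &&& ccN i.val) : ℕ) : ZMod 2) = (1 : Matrix (Fin 3) (Fin 3) (ZMod 2)) i j := by
  simp only [matId, List.all_eq_true, List.mem_range] at h
  have h1 := Nat.eq_of_beq_eq_true (h i.val i.2 j.val j.2)
  rw [Matrix.one_apply, ← ZMod.natCast_mod, h1]
  by_cases e : i = j
  · rw [if_pos e, if_pos (congrArg Fin.val e)]
    rfl
  · rw [if_neg e, if_neg (fun e' => e (Fin.ext e'))]
    rfl

theorem matId_conv {n : ℕ} {i j : Fin 3}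
    (h : ((n : ℕ) : ZMod 2) = (1 : Matrix (Fin 3) (Fin 3) (ZMod 2)) i j) :
    n % 2 = if i.val = j.val then 1 else 0 := by
  rw [Matrix.one_apply] at h
  by_cases e : i = j
  · rw [if_pos e] at h
    rw [if_pos (congrArg Fin.val e)]
    have h2 : ((n : ℕ) : ZMod 2) = ((1 : ℕ) : ZMod 2) := by rw [h, Nat.cast_one]
    exact (ZMod.natCast_eq_natCast_iff' n 1 2).mp h2
  · rw [if_neg e] at h
    rw [if_neg (fun e' => e (Fin.ext e'))]
    have h2 : ((n : ℕ) : ZMod 2) = ((0 : ℕ) : ZMod 2) := by rw [h, Nat.cast_zero]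
    exact (ZMod.natCast_eq_natCast_iff' n 0 2).mp h2

theorem Mg_one : Mg 1 = 1 := by
  ext i j
  have h : (1 : Equiv.Perm GolayPt) • ms (tauN j.val) = ms (tauN j.val) := one_smul _ _
  rw [Mg_entry h i]
  exact matId_spec (f := tauN) (by decide +kernel) i j

/-- the elements fixing the three octads with identity matrix. -/
def NP (g : Equiv.Perm GolayPt) : Prop := g ∈ KS (tro 512015) ∧ Mg g = 1

theorem NP.inv_mul {g h : Equiv.Perm GolayPt} (hg : NP g) (hh : NP h) : NP (g⁻¹ * h) := by
  have h1 : Mg g⁻¹ = 1 := by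
    have h2 := Mg_mul (KS_le _ ((KS _).inv_mem hg.1)) (KS_le _ hg.1)
    rw [inv_mul_cancel, Mg_one, hg.2, mul_one] at h2
    exact h2.symm
  refine ⟨(KS _).mul_mem ((KS _).inv_mem hg.1) hh.1, ?_⟩
  rw [Mg_mul (KS_le _ ((KS _).inv_mem hg.1)) (KS_le _ hh.1), h1, hh.2, mul_one]

/-- table check for `NP`. -/
def NPtab (T : ℕ) : Bool := inFix lT [] T && matId (fun j => apm T (tauN j))

theorem NPtab_spec {T : ℕ} (h : NPtab T = true) : NP (tp T) := by
  simp only [NPtab, Bool.and_eq_true] at h
  refine ⟨by rw [T0_eq]; exact mem_KS_list.mpr (tp_mem_fixG h.1), ?_⟩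
  ext i j
  rw [Mg_entry (smul_ms (inFix_good h.1) _) i]
  exact matId_spec h.2 i j

theorem NPtab_good {T : ℕ} (h : NPtab T = true) : good T = true := by
  simp only [NPtab, Bool.and_eq_true] at h
  exact inFix_good h.1

theorem lemB_ok : U42.all (fun u => (List.range 3).all (fun j =>
    !(Nat.testBit u 23 && (List.range 3).all (fun i =>
      Nat.beq (pc (u &&& ccN i) % 2) (if i = j then 1 else 0))) || Nat.beq u (tauN j))) = true := by
  decide +kernel

theorem tau23 : ∀ j < 3, Nat.testBit (tauN j) 23 = true := by decide +kernel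

theorem lemB {g : Equiv.Perm GolayPt} (hg : NP g) (h23 : g (pt 23) = pt 23) (j : Fin 3) :
    g • ms (tauN j.val) = ms (tauN j.val) := by
  obtain ⟨u, hu, e⟩ := smul_special (KS_le _ hg.1) (tau_mem j.val j.2)
  have h1 : Nat.testBit u 23 = true := by
    rw [← pt_mem_ms (by norm_num : 23 < 24), ← e, ← h23]
    exact Finset.smul_mem_smul_finset ((pt_mem_ms (by norm_num)).mpr (tau23 j.val j.2))
  have h2 : (List.range 3).all (fun i =>
      Nat.beq (pc (u &&& ccN i) % 2) (if i = j.val then 1 else 0)) = true := by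
    rw [List.all_eq_true]
    intro i hi
    have hi' : i < 3 := List.mem_range.mp hi
    have h3 := Mg_entry e ⟨i, hi'⟩
    rw [hg.2] at h3
    rw [matId_conv h3.symm]
    exact Nat.beq_refl _
  have h4 := List.all_eq_true.mp (List.all_eq_true.mp lemB_ok u hu) j.val (List.mem_range.mpr j.2)
  rw [h1, h2] at h4
  have h5 : u = tauN j.val := Nat.eq_of_beq_eq_true (by simpa using h4)
  rw [e, h5]

/-- the three octads and the three tetrads. -/
def DsA : List ℕ := [3277413, 126216, 13373586, 8392722, 8650896, 8913026]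

theorem fixA_ok : (List.range 24).all (fun b => !(Nat.testBit 13373586 b) || Nat.beq b 23 ||
    ubOK DsA [23] b (2 ^ b)) = true := by decide +kernel

theorem KS_oct {g : Equiv.Perm GolayPt} (hg : g ∈ KS (tro 512015)) {D : ℕ} (hD : D ∈ lT) :
    g • ms D = ms D := by
  have hK := hg.2
  rw [T0_eq] at hK
  exact hK _ (List.mem_toFinset.mpr (List.mem_map.mpr ⟨D, hD, rfl⟩))

theorem fixA {g : Equiv.Perm GolayPt} (hg : NP g) (h23 : g (pt 23) = pt 23) :
    ∀ i < 24, Nat.testBit 13373586 i = true → g (pt i) = pt i := by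
  have hfix : g ∈ fixG DsA [23] := by
    refine ⟨hg.1.1, ?_, ?_⟩
    · intro D hD
      simp only [DsA, List.mem_cons, List.not_mem_nil, or_false] at hD
      rcases hD with rfl | rfl | rfl | rfl | rfl | rfl
      · exact KS_oct hg.1 (by decide)
      · exact KS_oct hg.1 (by decide)
      · exact KS_oct hg.1 (by decide)
      · exact lemB hg h23 0
      · exact lemB hg h23 1
      · exact lemB hg h23 2
    · intro i hi
      have e : i = 23 := by simpa using hi
      rw [e]
      exact h23
  intro i hi hb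
  have h := List.all_eq_true.mp fixA_ok i (List.mem_range.mpr hi)
  rw [hb] at h
  simp only [Bool.not_true, Bool.false_or, Bool.or_eq_true] at h
  by_cases e : i = 23
  · rw [e]
    exact h23
  · rcases h with h | h
    · exact absurd (Nat.eq_of_beq_eq_true h) e
    · exact fix_of_ub h hi (fun k hk => by
        have e2 : k = 23 := by simpa using hk
        omega) hfix

/-- transversal of the orbit of the point `23`. -/
def ts1 : List ℕ := [65781230148001738752434987086580448, 191695004616971959853057081215289728, 307222774108673090500586596964043360, 508424969373168542556093275671365760, 749866540577012691608350087877855936, 795299560221415236466409126362581216, 944577328618388165348211102297000512, 984818244535754528103549039458486304]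

/-- transversal of the orbit of the point `0` in the stabiliser of the point `23`. -/
def ts2 : List ℕ := [984818244535754528103549039458486304, 984205969408237906750903734447177762, 984638238297742706403340151700235301, 984028497892453969932012877771133990, 984778946925731219022305254747673641, 984146389057486946082646128679211057, 984306113111805639134380359982367796, 983952438705068249760997056008656949]

theorem cov1 : (List.range 24).all (fun q => !(Nat.testBit 13373586 q) ||
    ts1.any (fun T => Nat.beq (ent T 23) q && NPtab T)) = true := by decide +kernel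

theorem cov2 : (List.range 24).all (fun q => !(Nat.testBit 3277413 q) ||
    ts2.any (fun T => Nat.beq (ent T 0) q && Nat.beq (ent T 23) 23 && NPtab T)) = true := by
  decide +kernel

def stepsT : List ℕ := [235638803, 336637971, 218800147, 84430886, 252751910, 352538662, 184836105, 167825413, 151257093, 285237250, 50364418, 33570818, 268455937, 100696065, 134230017]

theorem closeT : closeCheck stepsT (13373586 ||| 1) = true := by decide +kernel

theorem comm_ok : ts1.all (fun a => ts2.all (fun b => comm4 a b)) = true := by decide +kernel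

theorem claimA {g : Equiv.Perm GolayPt} (hg : NP g) : ∃ T1 ∈ ts1, ∃ T2 ∈ ts2,
    g = tp T1 * tp T2 ∧ (tp T1 * tp T2) * (tp T1 * tp T2) = 1 := by
  have hOa : g • ms 13373586 = ms 13373586 := KS_oct hg.1 (by decide)
  have h1 : g (pt 23) ∈ ms 13373586 := by
    rw [← hOa]
    exact Finset.smul_mem_smul_finset ((pt_mem_ms (by norm_num)).mpr (by decide))
  rw [mem_ms] at h1
  have c1 := List.all_eq_true.mp cov1 (idx (g (pt 23))) (List.mem_range.mpr (idx_lt _))
  rw [h1] at c1
  simp only [Bool.not_true, Bool.false_or, List.any_eq_true, Bool.and_eq_true] at c1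
  obtain ⟨T1, hT1, e1, n1⟩ := c1
  have good1 := NPtab_good n1
  have hg1 : NP ((tp T1)⁻¹ * g) := NP.inv_mul (NPtab_spec n1) hg
  have f1 : ((tp T1)⁻¹ * g) (pt 23) = pt 23 := by
    rw [Equiv.Perm.mul_apply, Equiv.Perm.inv_eq_iff_eq, tp_pt good1 (by norm_num),
      Nat.eq_of_beq_eq_true e1, pt_idx]
  have hOb : ((tp T1)⁻¹ * g) • ms 3277413 = ms 3277413 := KS_oct hg1.1 (by decide)
  have h2 : ((tp T1)⁻¹ * g) (pt 0) ∈ ms 3277413 := by
    rw [← hOb]
    exact Finset.smul_mem_smul_finset ((pt_mem_ms (by norm_num)).mpr (by decide))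
  rw [mem_ms] at h2
  have c2 := List.all_eq_true.mp cov2 (idx (((tp T1)⁻¹ * g) (pt 0)))
    (List.mem_range.mpr (idx_lt _))
  rw [h2] at c2
  simp only [Bool.not_true, Bool.false_or, List.any_eq_true, Bool.and_eq_true] at c2
  obtain ⟨T2, hT2, ⟨e2, e23⟩, n2⟩ := c2
  have good2 := NPtab_good n2
  have hg2 : NP ((tp T2)⁻¹ * ((tp T1)⁻¹ * g)) := NP.inv_mul (NPtab_spec n2) hg1
  have f2 : ((tp T2)⁻¹ * ((tp T1)⁻¹ * g)) (pt 23) = pt 23 := by
    rw [Equiv.Perm.mul_apply, f1, Equiv.Perm.inv_eq_iff_eq, tp_pt good2 (by norm_num),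
      Nat.eq_of_beq_eq_true e23]
  have f3 : ((tp T2)⁻¹ * ((tp T1)⁻¹ * g)) (pt 0) = pt 0 := by
    rw [Equiv.Perm.mul_apply, Equiv.Perm.inv_eq_iff_eq, tp_pt good2 (by norm_num),
      Nat.eq_of_beq_eq_true e2, pt_idx]
  have hone : (tp T2)⁻¹ * ((tp T1)⁻¹ * g) = 1 := by
    apply close_sound hg2.1.1 stepsT (13373586 ||| 1) _ closeT
    intro i hi hb
    rw [Nat.testBit_or, Bool.or_eq_true] at hb
    rcases hb with hb | hb
    · exact fixA hg2 f2 i hi hb
    · have e : i = 0 := by
        by_contra hne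
        rw [Nat.testBit_one_eq_true_iff_self_eq_zero] at hb
        exact hne hb
      rw [e]
      exact f3
  have hgeq : g = tp T1 * tp T2 := by
    rw [inv_mul_eq_one] at hone
    rw [hone]
    group
  refine ⟨T1, hT1, T2, hT2, hgeq, comm4_spec good1 good2 ?_⟩
  exact List.all_eq_true.mp (List.all_eq_true.mp comm_ok T1 hT1) T2 hT2

/-! ### the homomorphism onto `GL(3, 2) × S₃` -/

/-- the matrix representation of the stabiliser of the standard trio. -/
def MgHom : ↥(stabM (tro 512015)) →* Matrix (Fin 3) (Fin 3) (ZMod 2) where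
  toFun g := Mg g.1
  map_one' := Mg_one
  map_mul' g h := Mg_mul g.2 h.2

theorem MgHom_apply (x : ↥(stabM (tro 512015))) : MgHom x = Mg x.1 := rfl

/-- a numbering of the three octads. -/
noncomputable def eT : ↥(tro 512015) ≃ Fin 3 := Finset.equivFinOfCardEq tro0_mem.1

/-- the homomorphism of the stabiliser of the standard trio onto `GL(3, 2) × S₃`. -/
noncomputable def PhiT : ↥(stabM (tro 512015)) →*
    Matrix.GeneralLinearGroup (Fin 3) (ZMod 2) × Equiv.Perm (Fin 3) :=
  MgHom.toHomUnits.prod ((eT.permCongrHom.toMonoidHom).comp (permX (tro 512015)))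

theorem mem_ker_PhiT (x : ↥(stabM (tro 512015))) : x ∈ PhiT.ker ↔ NP x.1 := by
  rw [MonoidHom.mem_ker, PhiT, MonoidHom.prod_apply, Prod.mk_eq_one]
  constructor
  · rintro ⟨h1, h2⟩
    refine ⟨(mem_ker_permX x).mp ?_, ?_⟩
    · rw [MonoidHom.mem_ker]
      exact (eT.permCongrHom).injective (by rw [map_one]; exact h2)
    · have h3 := congrArg Units.val h1
      rw [MonoidHom.coe_toHomUnits, Units.val_one, MgHom_apply] at h3
      exact h3
  · rintro ⟨h1, h2⟩
    refine ⟨Units.ext (by rw [MonoidHom.coe_toHomUnits, Units.val_one, MgHom_apply]; exact h2), ?_⟩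
    have h3 := (mem_ker_permX x).mpr h1
    rw [MonoidHom.mem_ker] at h3
    show eT.permCongrHom (permX _ x) = 1
    rw [h3, map_one]

theorem ker_le : Nat.card PhiT.ker ≤ 64 := by
  classical
  have hmem : ∀ x : PhiT.ker, (x.1.1 : Equiv.Perm GolayPt) ∈
      ((ts1.product ts2).map (fun p => tp p.1 * tp p.2)).toFinset := by
    intro x
    obtain ⟨T1, h1, T2, h2, e, _⟩ := claimA ((mem_ker_PhiT x.1).mp x.2)
    rw [List.mem_toFinset, List.mem_map]
    exact ⟨(T1, T2), List.mem_product.mpr ⟨h1, h2⟩, e.symm⟩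
  have h1 : Nat.card PhiT.ker ≤
      Nat.card ↥(((ts1.product ts2).map (fun p => tp p.1 * tp p.2)).toFinset) :=
    Nat.card_le_card_of_injective (fun x => ⟨x.1.1, hmem x⟩)
      (fun x y h => Subtype.ext (Subtype.ext (by
        have h2 := congrArg Subtype.val h
        exact h2)))
  rw [Nat.card_eq_finsetCard] at h1
  refine h1.trans ((List.toFinset_card_le _).trans ?_)
  rw [List.length_map]
  decide +kernel

theorem card_target :
    Nat.card (Matrix.GeneralLinearGroup (Fin 3) (ZMod 2) × Equiv.Perm (Fin 3)) = 1008 := by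
  rw [Nat.card_prod, Matrix.card_GL_field, Nat.card_perm, Nat.card_fin, ZMod.card,
    Fin.prod_univ_three]
  decide

theorem PhiT_main : Function.Surjective PhiT ∧ Nat.card PhiT.ker = 64 :=
  surj_of_card PhiT (b := 1008) (c := 64) (by rw [card_stab_trio tro0_mem]) card_target ker_le
    (by norm_num)

theorem PhiT_exp : ∀ x ∈ PhiT.ker, x * x = 1 := by
  intro x hx
  obtain ⟨T1, _, T2, _, e, h⟩ := claimA ((mem_ker_PhiT x).mp hx)
  apply Subtype.ext
  show x.1 * x.1 = 1
  rw [e]
  exact h

theorem stmt_trio {T : Finset (Finset GolayPt)} (hT : T ∈ trios) :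
    ∃ (N : Subgroup ↥(MulAction.stabilizer M24 T)) (_ : N.Normal), Nat.card N = 64 ∧
      (∀ x ∈ N, x * x = 1) ∧ Nonempty (↥(MulAction.stabilizer M24 T) ⧸ N ≃*
        Matrix.GeneralLinearGroup (Fin 3) (ZMod 2) × Equiv.Perm (Fin 3)) := by
  obtain ⟨σ, hσ, rfl⟩ := trio_std hT
  exact stmt_quot PhiT PhiT_main.1 PhiT_main.2 PhiT_exp hσ

end Cfsg.Agent.Lib.Helper3.M24TrioK
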