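import Mathlib
import Cfsg.Prelude.Def_KGroupFacts
import Cfsg.Agent.Lib.Helper13.SL2Syl

set_option autoImplicit false

namespace Cfsg.Agent.Lib.Helper3.PSL2Aut1

open Cfsg.Agent.S2301 Cfsg.Agent.Lib.Helper13.SL2Syl

variable {F : Type*} [Field F]

/-- the quotient map `SL₂ → PSL₂`. -/
def pr (F : Type*) [Field F] : Matrix.SpecialLinearGroup (Fin 2) F →*
    Matrix.ProjectiveSpecialLinearGroup (Fin 2) F :=
  QuotientGroup.mk' _

theorem pr_surj : Function.Surjective (pr F) := QuotientGroup.mk_surjective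

theorem entry_mul (x y : Matrix.SpecialLinearGroup (Fin 2) F) (i j : Fin 2) :
    (x * y).1 i j = x.1 i 0 * y.1 0 j + x.1 i 1 * y.1 1 j := by
  show (x.1 * y.1) i j = _
  rw [Matrix.mul_apply, Fin.sum_univ_two]

theorem det2 (x : Matrix.SpecialLinearGroup (Fin 2) F) :
    x.1 0 0 * x.1 1 1 - x.1 0 1 * x.1 1 0 = 1 := by
  rw [← Matrix.det_fin_two]
  exact x.det_coe

theorem ext2 {x y : Matrix.SpecialLinearGroup (Fin 2) F} (h00 : x.1 0 0 = y.1 0 0)
    (h01 : x.1 0 1 = y.1 0 1) (h10 : x.1 1 0 = y.1 1 0) (h11 : x.1 1 1 = y.1 1 1) : x = y := by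
  apply Subtype.ext
  ext i j
  fin_cases i <;> fin_cases j <;> assumption

/-- a scalar element of `SL₂`. -/
def scal (e : F) (he : e * e = 1) : Matrix.SpecialLinearGroup (Fin 2) F :=
  ⟨!![e, 0; 0, e], by rw [Matrix.det_fin_two_of]; linear_combination he⟩

theorem mem_center_iff2 (z : Matrix.SpecialLinearGroup (Fin 2) F) :
    z ∈ Subgroup.center (Matrix.SpecialLinearGroup (Fin 2) F) ↔
      ∃ e : F, e * e = 1 ∧ z.1 0 0 = e ∧ z.1 0 1 = 0 ∧ z.1 1 0 = 0 ∧ z.1 1 1 = e := by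
  rw [Matrix.SpecialLinearGroup.mem_center_iff]
  constructor
  · rintro ⟨r, hr, h⟩
    rw [Fintype.card_fin, sq] at hr
    refine ⟨r, hr, ?_, ?_, ?_, ?_⟩
    all_goals
      rw [← h]
      simp
  · rintro ⟨e, he, h00, h01, h10, h11⟩
    refine ⟨e, by rw [Fintype.card_fin, sq]; exact he, ?_⟩
    ext i j
    fin_cases i <;> fin_cases j <;> simp [h00, h01, h10, h11]

theorem pr_eq_iff (x y : Matrix.SpecialLinearGroup (Fin 2) F) :
    pr F x = pr F y ↔ ∃ e : F, e * e = 1 ∧ ∀ i j, y.1 i j = e * x.1 i j := by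
  show (QuotientGroup.mk x : Matrix.ProjectiveSpecialLinearGroup (Fin 2) F) = QuotientGroup.mk y ↔ _
  rw [QuotientGroup.eq, mem_center_iff2]
  constructor
  · rintro ⟨e, he, h00, h01, h10, h11⟩
    refine ⟨e, he, ?_⟩
    have hy : y = x * (x⁻¹ * y) := by group
    intro i j
    have h1 : y.1 i j = (x * (x⁻¹ * y)).1 i j := by rw [← hy]
    rw [h1, entry_mul]
    fin_cases j
    · show x.1 i 0 * (x⁻¹ * y).1 0 0 + x.1 i 1 * (x⁻¹ * y).1 1 0 = e * x.1 i 0
      rw [h00, h10]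
      ring
    · show x.1 i 0 * (x⁻¹ * y).1 0 1 + x.1 i 1 * (x⁻¹ * y).1 1 1 = e * x.1 i 1
      rw [h01, h11]
      ring
  · rintro ⟨e, he, h⟩
    have hz : x⁻¹ * y = scal e he := by
      rw [inv_mul_eq_iff_eq_mul]
      apply ext2 <;> rw [entry_mul, h] <;> simp [scal] <;> ring
    refine ⟨e, he, ?_⟩
    rw [hz]
    simp [scal]

theorem pr_eq_one_iff (x : Matrix.SpecialLinearGroup (Fin 2) F) :
    pr F x = 1 ↔ ∃ e : F, e * e = 1 ∧ x.1 0 0 = e ∧ x.1 0 1 = 0 ∧ x.1 1 0 = 0 ∧ x.1 1 1 = e := by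
  rw [eq_comm, ← map_one (pr F), pr_eq_iff]
  constructor
  · rintro ⟨e, he, h⟩
    have h00 := h 0 0
    have h01 := h 0 1
    have h10 := h 1 0
    have h11 := h 1 1
    simp at h00 h01 h10 h11
    exact ⟨e, he, h00, h01, h10, h11⟩
  · rintro ⟨e, he, h00, h01, h10, h11⟩
    refine ⟨e, he, ?_⟩
    intro i j
    fin_cases i <;> fin_cases j <;> simp [h00, h01, h10, h11]

/-! ### the standard elements -/

/-- the diagonal element `diag(k, k⁻¹)`. -/
def hM (k : Fˣ) : Matrix.SpecialLinearGroup (Fin 2) F :=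
  ⟨!![(k : F), 0; 0, ((k⁻¹ : Fˣ) : F)], by simp [Matrix.det_fin_two]⟩

/-- the Weyl element. -/
def wM : Matrix.SpecialLinearGroup (Fin 2) F :=
  ⟨!![0, 1; -1, 0], by simp [Matrix.det_fin_two]⟩

theorem hM_val (k : Fˣ) : (hM k).1 = !![(k : F), 0; 0, ((k⁻¹ : Fˣ) : F)] := rfl

theorem wM_val : (wM : Matrix.SpecialLinearGroup (Fin 2) F).1 = !![0, 1; -1, 0] := rfl

theorem hM_mul (k k' : Fˣ) : hM (k * k') = hM k * hM k' := by
  apply ext2 <;> rw [entry_mul] <;> simp [hM_val, mul_comm]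

theorem hM_one : hM (1 : Fˣ) = 1 := by
  apply ext2 <;> simp [hM_val]

/-- the torus as a homomorphism. -/
def hHom (F : Type*) [Field F] : Fˣ →* Matrix.SpecialLinearGroup (Fin 2) F where
  toFun := hM
  map_one' := hM_one
  map_mul' := hM_mul

theorem hM_uMat (k : Fˣ) (b : F) : hM k * uMat b = uMat ((k : F) ^ 2 * b) * hM k := by
  have hk : (k : F) * ((k⁻¹ : Fˣ) : F) = 1 := by
    rw [← Units.val_mul, mul_inv_cancel, Units.val_one]
  apply ext2
  · rw [entry_mul, entry_mul]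
    simp [hM_val, uMat_val]
  · rw [entry_mul, entry_mul]
    show (hM k).1 0 0 * (uMat b).1 0 1 + (hM k).1 0 1 * (uMat b).1 1 1 =
      (uMat ((k : F) ^ 2 * b)).1 0 0 * (hM k).1 0 1 + (uMat ((k : F) ^ 2 * b)).1 0 1 * (hM k).1 1 1
    have e1 : (hM k).1 0 0 = (k : F) := rfl
    have e2 : (hM k).1 0 1 = 0 := rfl
    have e3 : (hM k).1 1 1 = ((k⁻¹ : Fˣ) : F) := rfl
    have e4 : (uMat b).1 0 1 = b := rfl
    have e5 : (uMat b).1 1 1 = 1 := rfl
    have e6 : (uMat ((k : F) ^ 2 * b)).1 0 0 = 1 := rfl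
    have e7 : (uMat ((k : F) ^ 2 * b)).1 0 1 = (k : F) ^ 2 * b := rfl
    rw [e1, e2, e3, e4, e5, e6, e7]
    linear_combination (-(k : F) * b) * hk
  · rw [entry_mul, entry_mul]
    simp [hM_val, uMat_val]
  · rw [entry_mul, entry_mul]
    simp [hM_val, uMat_val]

theorem wM_hM (k : Fˣ) : wM * hM k = hM k⁻¹ * wM := by
  apply ext2 <;> rw [entry_mul, entry_mul] <;> simp [hM_val, wM_val]

theorem wM_uMat_cube : (wM * uMat (1 : F)) ^ 3 = 1 := by
  have h1 : (wM * uMat (1 : F)).1 = !![0, 1; -1, -1] := by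
    show (!![0, 1; -1, 0] : Matrix (Fin 2) (Fin 2) F) * !![1, 1; 0, 1] = _
    rw [Matrix.mul_fin_two]
    simp
  apply Subtype.ext
  show (wM * uMat (1 : F)).1 ^ 3 = 1
  rw [h1, pow_succ, pow_two, Matrix.mul_fin_two, Matrix.mul_fin_two, Matrix.one_fin_two]
  simp

/-- upper triangular elements. -/
theorem borel_form (x : Matrix.SpecialLinearGroup (Fin 2) F) (h : x.1 1 0 = 0) :
    ∃ (a : F) (k : Fˣ), x = uMat a * hM k := by
  have hd := det2 x
  rw [h, mul_zero, sub_zero] at hd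
  have h0 : x.1 0 0 ≠ 0 := left_ne_zero_of_mul_eq_one hd
  refine ⟨x.1 0 1 * x.1 0 0, Units.mk0 _ h0, ?_⟩
  have hinv : ((Units.mk0 _ h0)⁻¹ : Fˣ).1 = x.1 1 1 := by
    rw [Units.val_inv_eq_inv_val, Units.val_mk0]
    exact (eq_inv_of_mul_eq_one_right hd).symm
  apply ext2 <;> rw [entry_mul] <;> simp [hM_val, uMat_val, h, hinv]
  linear_combination (-x.1 0 1) * hd

/-- the Bruhat decomposition of the big cell. -/
theorem bruhat (x : Matrix.SpecialLinearGroup (Fin 2) F) (h : x.1 1 0 ≠ 0) :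
    ∃ (a b : F) (k : Fˣ), x = uMat a * wM * (uMat b * hM k) := by
  have hd := det2 x
  refine ⟨x.1 0 0 / x.1 1 0, x.1 1 1 * x.1 1 0, Units.mk0 (-x.1 1 0) (neg_ne_zero.mpr h), ?_⟩
  have hinv : ((Units.mk0 (-x.1 1 0) (neg_ne_zero.mpr h))⁻¹ : Fˣ).1 = -(x.1 1 0)⁻¹ := by
    rw [Units.val_inv_eq_inv_val, Units.val_mk0, inv_neg]
  apply ext2 <;> rw [entry_mul, entry_mul, entry_mul] <;>
    simp [hM_val, uMat_val, wM_val, hinv] <;> field_simp
  linear_combination (-1 : F) * hd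

end Cfsg.Agent.Lib.Helper3.PSL2Aut1
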