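import Mathlib
import Cfsg.Prelude.Def_KGroupFacts
import Cfsg.Agent.Lib.Helper3.PSL2Aut1

set_option autoImplicit false
set_option linter.unusedSimpArgs false

namespace Cfsg.Agent.Lib.Helper3.PSL2Aut2

open Cfsg.Agent.S2301 Cfsg.Agent.Lib.Helper13.SL2Syl Cfsg.Agent.Lib.Helper3.PSL2Aut1
open scoped Pointwise

variable {F : Type*} [Field F]

/-! ### lifting automorphisms of `SL₂` to `PSL₂` -/

/-- an automorphism of `SL₂` induces one of `PSL₂`. -/
noncomputable def liftAut (e : MulAut (Matrix.SpecialLinearGroup (Fin 2) F)) :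
    MulAut (Matrix.ProjectiveSpecialLinearGroup (Fin 2) F) :=
  QuotientGroup.congr _ _ e ((Subgroup.characteristic_iff_map_eq.mp inferInstance) e)

theorem liftAut_pr (e : MulAut (Matrix.SpecialLinearGroup (Fin 2) F))
    (x : Matrix.SpecialLinearGroup (Fin 2) F) : liftAut e (pr F x) = pr F (e x) := rfl

/-- lifting as a homomorphism. -/
noncomputable def liftHom (F : Type*) [Field F] :
    MulAut (Matrix.SpecialLinearGroup (Fin 2) F) →*
      MulAut (Matrix.ProjectiveSpecialLinearGroup (Fin 2) F) where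
  toFun := liftAut
  map_one' := by
    apply MulEquiv.ext
    intro g
    obtain ⟨x, rfl⟩ := pr_surj g
    rfl
  map_mul' e e' := by
    apply MulEquiv.ext
    intro g
    obtain ⟨x, rfl⟩ := pr_surj g
    rfl

theorem liftHom_pr (e : MulAut (Matrix.SpecialLinearGroup (Fin 2) F))
    (x : Matrix.SpecialLinearGroup (Fin 2) F) : liftHom F e (pr F x) = pr F (e x) := rfl

/-- a field automorphism applied entrywise. -/
def fieldS (τ : F ≃+* F) : MulAut (Matrix.SpecialLinearGroup (Fin 2) F) where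
  toFun g := Matrix.SpecialLinearGroup.map (τ : F →+* F) g
  invFun g := Matrix.SpecialLinearGroup.map (τ.symm : F →+* F) g
  left_inv g := by
    apply Subtype.ext
    ext i j
    exact τ.symm_apply_apply _
  right_inv g := by
    apply Subtype.ext
    ext i j
    exact τ.apply_symm_apply _
  map_mul' g h := map_mul _ _ _

theorem fieldS_coe (τ : F ≃+* F) (g : Matrix.SpecialLinearGroup (Fin 2) F) (i j : Fin 2) :
    (fieldS τ g).1 i j = τ (g.1 i j) := rfl

/-- the field automorphisms as a homomorphism. -/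
def fieldSHom (F : Type*) [Field F] :
    (F ≃+* F) →* MulAut (Matrix.SpecialLinearGroup (Fin 2) F) where
  toFun := fieldS
  map_one' := by
    apply MulEquiv.ext
    intro g
    apply Subtype.ext
    ext i j
    rfl
  map_mul' σ τ := by
    apply MulEquiv.ext
    intro g
    apply Subtype.ext
    ext i j
    rfl

theorem unit_mul_inv (c : Fˣ) : (c : F) * ((c⁻¹ : Fˣ) : F) = 1 := by
  rw [← Units.val_mul, mul_inv_cancel, Units.val_one]

theorem unit_inv_mul (c : Fˣ) : ((c⁻¹ : Fˣ) : F) * (c : F) = 1 := by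
  rw [← Units.val_mul, inv_mul_cancel, Units.val_one]

/-- the matrix of `diag(c,1) x diag(c,1)⁻¹`. -/
def diagM (c : Fˣ) (x : Matrix.SpecialLinearGroup (Fin 2) F) :
    Matrix.SpecialLinearGroup (Fin 2) F :=
  ⟨!![x.1 0 0, (c : F) * x.1 0 1; ((c⁻¹ : Fˣ) : F) * x.1 1 0, x.1 1 1], by
    rw [Matrix.det_fin_two_of]
    linear_combination det2 x - x.1 0 1 * x.1 1 0 * unit_mul_inv c⟩

theorem diagM_val (c : Fˣ) (x : Matrix.SpecialLinearGroup (Fin 2) F) :
    (diagM c x).1 = !![x.1 0 0, (c : F) * x.1 0 1; ((c⁻¹ : Fˣ) : F) * x.1 1 0, x.1 1 1] := rfl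

theorem diagM_00 (c : Fˣ) (x : Matrix.SpecialLinearGroup (Fin 2) F) :
    (diagM c x).1 0 0 = x.1 0 0 := rfl

theorem diagM_01 (c : Fˣ) (x : Matrix.SpecialLinearGroup (Fin 2) F) :
    (diagM c x).1 0 1 = (c : F) * x.1 0 1 := rfl

theorem diagM_10 (c : Fˣ) (x : Matrix.SpecialLinearGroup (Fin 2) F) :
    (diagM c x).1 1 0 = ((c⁻¹ : Fˣ) : F) * x.1 1 0 := rfl

theorem diagM_11 (c : Fˣ) (x : Matrix.SpecialLinearGroup (Fin 2) F) :
    (diagM c x).1 1 1 = x.1 1 1 := rfl

theorem diagM_mul (c : Fˣ) (x y : Matrix.SpecialLinearGroup (Fin 2) F) :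
    diagM c (x * y) = diagM c x * diagM c y := by
  have hc := unit_mul_inv c
  apply ext2
  · rw [entry_mul, diagM_00, diagM_00, diagM_01, diagM_10, diagM_00, entry_mul]
    linear_combination (-(x.1 0 1 * y.1 1 0)) * hc
  · rw [entry_mul, diagM_01, diagM_00, diagM_01, diagM_01, diagM_11, entry_mul]
    ring
  · rw [entry_mul, diagM_10, diagM_10, diagM_00, diagM_11, diagM_10, entry_mul]
    ring
  · rw [entry_mul, diagM_11, diagM_10, diagM_01, diagM_11, diagM_11, entry_mul]
    linear_combination (-(x.1 1 0 * y.1 0 1)) * hc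

theorem diagM_diagM (c c' : Fˣ) (x : Matrix.SpecialLinearGroup (Fin 2) F) :
    diagM c (diagM c' x) = diagM (c * c') x := by
  apply ext2
  · rfl
  · rw [diagM_01, diagM_01, diagM_01, Units.val_mul]
    ring
  · rw [diagM_10, diagM_10, diagM_10, mul_inv, Units.val_mul]
    ring
  · rfl

theorem diagM_one (x : Matrix.SpecialLinearGroup (Fin 2) F) : diagM 1 x = x := by
  apply ext2
  · rfl
  · rw [diagM_01, Units.val_one, one_mul]
  · rw [diagM_10, inv_one, Units.val_one, one_mul]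
  · rfl

/-- conjugation by `diag(c, 1)`. -/
def diagS (c : Fˣ) : MulAut (Matrix.SpecialLinearGroup (Fin 2) F) where
  toFun := diagM c
  invFun := diagM c⁻¹
  left_inv x := by rw [diagM_diagM, inv_mul_cancel, diagM_one]
  right_inv x := by rw [diagM_diagM, mul_inv_cancel, diagM_one]
  map_mul' := diagM_mul c

theorem diagS_apply (c : Fˣ) (x : Matrix.SpecialLinearGroup (Fin 2) F) :
    diagS c x = diagM c x := rfl

/-- the diagonal automorphisms as a homomorphism. -/
def diagSHom (F : Type*) [Field F] : Fˣ →* MulAut (Matrix.SpecialLinearGroup (Fin 2) F) where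
  toFun := diagS
  map_one' := by
    apply MulEquiv.ext
    intro x
    exact diagM_one x
  map_mul' c c' := by
    apply MulEquiv.ext
    intro x
    exact (diagM_diagM c c' x).symm

/-- the field automorphisms of `PSL₂`. -/
noncomputable def fieldG (F : Type*) [Field F] :
    (F ≃+* F) →* MulAut (Matrix.ProjectiveSpecialLinearGroup (Fin 2) F) :=
  (liftHom F).comp (fieldSHom F)

/-- the diagonal automorphisms of `PSL₂`. -/
noncomputable def diagG (F : Type*) [Field F] :
    Fˣ →* MulAut (Matrix.ProjectiveSpecialLinearGroup (Fin 2) F) :=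
  (liftHom F).comp (diagSHom F)

theorem fieldG_pr (τ : F ≃+* F) (x : Matrix.SpecialLinearGroup (Fin 2) F) :
    fieldG F τ (pr F x) = pr F (fieldS τ x) := rfl

theorem diagG_pr (c : Fˣ) (x : Matrix.SpecialLinearGroup (Fin 2) F) :
    diagG F c (pr F x) = pr F (diagM c x) := rfl

/-! ### the standard elements of `PSL₂` -/

/-- the image of `uMat b`. -/
noncomputable def ub (b : F) : Matrix.ProjectiveSpecialLinearGroup (Fin 2) F := pr F (uMat b)

/-- the image of `hM k`. -/
noncomputable def hb (k : Fˣ) : Matrix.ProjectiveSpecialLinearGroup (Fin 2) F := pr F (hM k)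

/-- the image of `wM`. -/
noncomputable def wb (F : Type*) [Field F] : Matrix.ProjectiveSpecialLinearGroup (Fin 2) F :=
  pr F wM

theorem ub_def (b : F) : ub b = pr F (uMat b) := rfl
theorem hb_def (k : Fˣ) : hb k = pr F (hM k) := rfl
theorem wb_def : wb F = pr F wM := rfl

theorem ub_mul (b c : F) : ub b * ub c = ub (b + c) := by
  rw [ub_def, ub_def, ← map_mul, uMat_mul, ub_def]

theorem ub_zero : ub (0 : F) = 1 := by
  rw [ub_def, uMat_zero, map_one]

theorem ub_inv (b : F) : (ub b)⁻¹ = ub (-b) := by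
  rw [inv_eq_iff_mul_eq_one, ub_mul, add_neg_cancel, ub_zero]

theorem ub_inj {b c : F} (h : ub b = ub c) : b = c := by
  rw [ub_def, ub_def, pr_eq_iff] at h
  obtain ⟨e, he, h⟩ := h
  have h00 := h 0 0
  have h01 := h 0 1
  rw [uMat_val, uMat_val] at h00 h01
  simp at h00 h01
  rw [← h00, one_mul] at h01
  exact h01.symm

theorem hb_mul (k k' : Fˣ) : hb (k * k') = hb k * hb k' := by
  rw [hb_def, hM_mul, map_mul, hb_def, hb_def]

theorem hb_one : hb (1 : Fˣ) = 1 := by
  rw [hb_def, hM_one, map_one]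

theorem hb_inv (k : Fˣ) : (hb k)⁻¹ = hb k⁻¹ := by
  rw [inv_eq_iff_mul_eq_one, ← hb_mul, mul_inv_cancel, hb_one]

theorem hb_comm (k k' : Fˣ) : hb k * hb k' = hb k' * hb k := by
  rw [← hb_mul, ← hb_mul, mul_comm]

theorem hb_ub (k : Fˣ) (b : F) : hb k * ub b = ub ((k : F) ^ 2 * b) * hb k := by
  rw [hb_def, ub_def, ← map_mul, hM_uMat, map_mul, ub_def]

theorem hb_ub_conj (k : Fˣ) (b : F) : hb k * ub b * (hb k)⁻¹ = ub ((k : F) ^ 2 * b) := by
  rw [hb_ub, mul_inv_cancel_right]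

theorem wb_hb (k : Fˣ) : wb F * hb k = hb k⁻¹ * wb F := by
  rw [hb_def, wb_def, ← map_mul, wM_hM, map_mul, hb_def]

theorem wb_ub_cube : (wb F * ub (1 : F)) ^ 3 = 1 := by
  rw [wb_def, ub_def, ← map_mul, ← map_pow, wM_uMat_cube, map_one]

theorem hb_eq_of_sq {k k' : Fˣ} (h : (k' : F) ^ 2 = (k : F) ^ 2) : hb k = hb k' := by
  rw [hb_def, hb_def, pr_eq_iff]
  have hk := unit_mul_inv k
  have hk' := unit_mul_inv k'
  have hk0 : (k : F) ≠ 0 := k.ne_zero
  refine ⟨(k' : F) * ((k⁻¹ : Fˣ) : F), ?_, ?_⟩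
  · linear_combination ((k⁻¹ : Fˣ) : F) ^ 2 * h + ((k : F) * ((k⁻¹ : Fˣ) : F) + 1) * hk
  · intro i j
    fin_cases i <;> fin_cases j
    · show (k' : F) = (k' : F) * ((k⁻¹ : Fˣ) : F) * (k : F)
      linear_combination (-(k' : F)) * unit_inv_mul k
    · show (0 : F) = (k' : F) * ((k⁻¹ : Fˣ) : F) * 0
      rw [mul_zero]
    · show (0 : F) = (k' : F) * ((k⁻¹ : Fˣ) : F) * 0
      rw [mul_zero]
    · show ((k'⁻¹ : Fˣ) : F) = (k' : F) * ((k⁻¹ : Fˣ) : F) * ((k⁻¹ : Fˣ) : F)
      have hk'0 : (k' : F) ≠ 0 := k'.ne_zero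
      have e1 : (k' : F) * ((k'⁻¹ : Fˣ) : F) = (k' : F) * ((k' : F) * ((k⁻¹ : Fˣ) : F) *
          ((k⁻¹ : Fˣ) : F)) := by
        linear_combination (-((k⁻¹ : Fˣ) : F) ^ 2) * h - ((k : F) * ((k⁻¹ : Fˣ) : F) + 1) * hk + hk'
      exact mul_left_cancel₀ hk'0 e1

theorem hb_eq_one_of_sq {k : Fˣ} (h : (k : F) ^ 2 = 1) : hb k = 1 := by
  rw [← hb_one]
  apply (hb_eq_of_sq _).symm
  rw [h, Units.val_one, one_pow]

/-- an element of the Borel subgroup lying in `U` has trivial torus part. -/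
theorem sq_of_borel_eq_ub {a t : F} {k : Fˣ} (h : ub a * hb k = ub t) : (k : F) ^ 2 = 1 := by
  rw [ub_def, hb_def, ← map_mul, ub_def, pr_eq_iff] at h
  obtain ⟨e, he, h⟩ := h
  have h00 := h 0 0
  rw [entry_mul, uMat_val, uMat_val, hM_val] at h00
  simp at h00
  have e1 : (k : F) = e := by linear_combination (-e) * h00 - (k : F) * he
  rw [e1, sq, he]

/-- an element normalising a non-trivial element of `U` into `U` is upper triangular. -/
theorem norm_borel {x : Matrix.SpecialLinearGroup (Fin 2) F} {b b' : F} (hb : b ≠ 0)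
    (h : pr F x * ub b = ub b' * pr F x) : x.1 1 0 = 0 := by
  rw [ub_def, ub_def, ← map_mul, ← map_mul, pr_eq_iff] at h
  obtain ⟨e, he, h⟩ := h
  have h10 := h 1 0
  have h11 := h 1 1
  rw [entry_mul, entry_mul, uMat_val, uMat_val] at h10 h11
  simp at h10 h11
  by_contra hx
  have e1 : e = 1 := by
    have : e * x.1 1 0 = 1 * x.1 1 0 := by rw [one_mul]; exact h10.symm
    exact mul_right_cancel₀ hx this
  rw [e1, one_mul] at h11
  have : x.1 1 0 * b = 0 := by linear_combination -h11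
  rcases mul_eq_zero.mp this with h | h
  · exact hx h
  · exact hb h

theorem borel_form' {x : Matrix.SpecialLinearGroup (Fin 2) F} (h : x.1 1 0 = 0) :
    ∃ (a : F) (k : Fˣ), pr F x = ub a * hb k := by
  obtain ⟨a, k, rfl⟩ := borel_form x h
  exact ⟨a, k, map_mul _ _ _⟩

theorem bruhat' {x : Matrix.SpecialLinearGroup (Fin 2) F} (h : x.1 1 0 ≠ 0) :
    ∃ (a b : F) (k : Fˣ), pr F x = ub a * wb F * (ub b * hb k) := by
  obtain ⟨a, b, k, rfl⟩ := bruhat x h
  refine ⟨a, b, k, ?_⟩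
  rw [map_mul, map_mul, map_mul]
  rfl

/-- the Weyl element is not in the Borel subgroup. -/
theorem wb_not_borel {a : F} {k : Fˣ} (h : wb F = ub a * hb k) : False := by
  rw [wb_def, ub_def, hb_def, ← map_mul, pr_eq_iff] at h
  obtain ⟨e, he, h⟩ := h
  have h10 := h 1 0
  rw [entry_mul, uMat_val, hM_val, wM_val] at h10
  simp at h10
  rw [h10, mul_zero] at he
  exact zero_ne_one he

/-! ### the standard automorphisms on the standard elements -/

theorem fieldG_ub (τ : F ≃+* F) (b : F) : fieldG F τ (ub b) = ub (τ b) := by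
  rw [ub_def, fieldG_pr, ub_def]
  congr 1
  apply ext2
  · show τ ((uMat b).1 0 0) = (uMat (τ b)).1 0 0
    rw [uMat_val, uMat_val]
    simp
  · show τ ((uMat b).1 0 1) = (uMat (τ b)).1 0 1
    rw [uMat_val, uMat_val]
    simp
  · show τ ((uMat b).1 1 0) = (uMat (τ b)).1 1 0
    rw [uMat_val, uMat_val]
    simp
  · show τ ((uMat b).1 1 1) = (uMat (τ b)).1 1 1
    rw [uMat_val, uMat_val]
    simp

theorem fieldG_hb (τ : F ≃+* F) (k : Fˣ) :
    fieldG F τ (hb k) = hb (Units.map ((τ : F →+* F) : F →* F) k) := by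
  rw [hb_def, fieldG_pr, hb_def]
  congr 1
  have e1 : ((Units.map ((τ : F →+* F) : F →* F) k : Fˣ) : F) = τ (k : F) := rfl
  have e2 : (((Units.map ((τ : F →+* F) : F →* F) k)⁻¹ : Fˣ) : F) = τ ((k⁻¹ : Fˣ) : F) := by
    rw [← map_inv]
    rfl
  apply ext2
  · show τ ((hM k).1 0 0) = (hM _).1 0 0
    rw [hM_val, hM_val]
    simp
  · show τ ((hM k).1 0 1) = (hM _).1 0 1
    rw [hM_val, hM_val]
    simp
  · show τ ((hM k).1 1 0) = (hM _).1 1 0
    rw [hM_val, hM_val]
    simp
  · show τ ((hM k).1 1 1) = (hM _).1 1 1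
    rw [hM_val, hM_val]
    simp [e2]

theorem diagG_ub (c : Fˣ) (b : F) : diagG F c (ub b) = ub ((c : F) * b) := by
  rw [ub_def, diagG_pr, ub_def]
  congr 1
  apply ext2
  · rw [diagM_00, uMat_val, uMat_val]
    simp
  · rw [diagM_01, uMat_val, uMat_val]
    simp
  · rw [diagM_10, uMat_val, uMat_val]
    simp
  · rw [diagM_11, uMat_val, uMat_val]
    simp

theorem diagG_hb (c : Fˣ) (k : Fˣ) : diagG F c (hb k) = hb k := by
  rw [hb_def, diagG_pr]
  congr 1
  apply ext2
  · rw [diagM_00]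
  · rw [diagM_01, hM_val]
    simp
  · rw [diagM_10, hM_val]
    simp
  · rw [diagM_11]

/-- a diagonal automorphism by a square is inner. -/
theorem diagG_sq (j : Fˣ) : diagG F (j ^ 2) = MulAut.conj (hb j) := by
  apply MulEquiv.ext
  intro g
  obtain ⟨x, rfl⟩ := pr_surj g
  rw [diagG_pr, MulAut.conj_apply, hb_def, ← map_inv, ← map_mul, ← map_mul]
  congr 1
  rw [eq_mul_inv_iff_mul_eq]
  have hj0 : (j : F) ≠ 0 := j.ne_zero
  have e00 : (hM j).1 0 0 = (j : F) := rfl
  have e01 : (hM j).1 0 1 = 0 := rfl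
  have e10 : (hM j).1 1 0 = 0 := rfl
  have e11 : (hM j).1 1 1 = (j : F)⁻¹ := Units.val_inv_eq_inv_val j
  have ei : (((j ^ 2)⁻¹ : Fˣ) : F) = ((j : F) ^ 2)⁻¹ := by
    rw [Units.val_inv_eq_inv_val, Units.val_pow_eq_pow_val]
  apply ext2
  · simp only [entry_mul, diagM_00, diagM_01, diagM_10, diagM_11, e00, e01, e10, e11, ei,
      Units.val_pow_eq_pow_val]
    ring
  · simp only [entry_mul, diagM_00, diagM_01, diagM_10, diagM_11, e00, e01, e10, e11, ei,
      Units.val_pow_eq_pow_val]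
    field_simp
    ring
  · simp only [entry_mul, diagM_00, diagM_01, diagM_10, diagM_11, e00, e01, e10, e11, ei,
      Units.val_pow_eq_pow_val]
    field_simp
    ring
  · simp only [entry_mul, diagM_00, diagM_01, diagM_10, diagM_11, e00, e01, e10, e11, ei,
      Units.val_pow_eq_pow_val]
    ring

end Cfsg.Agent.Lib.Helper3.PSL2Aut2
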