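import Mathlib
import Cfsg.Prelude.Def_KGroupFacts
import Cfsg.Agent.Lib.Helper3.PSL2Aut2

set_option autoImplicit false
set_option linter.unusedSimpArgs false
set_option linter.unusedSectionVars false
set_option linter.style.haveILetI false

namespace Cfsg.Agent.Lib.Helper3.PSL2Aut3

open Cfsg.Agent.S2301 Cfsg.Agent.Lib.Helper13.SL2Syl Cfsg.Agent.Lib.Helper3.PSL2Aut1
  Cfsg.Agent.Lib.Helper3.PSL2Aut2
open scoped Pointwise

variable {F : Type*} [Field F] [Fintype F]

theorem sum_two_sq (c : F) : ∃ a b : F, a ^ 2 + b ^ 2 = c := by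
  by_cases h2 : Fintype.card F % 2 = 1
  · obtain ⟨a, b, hab⟩ := FiniteField.exists_root_sum_quadratic (R := F)
      (f := Polynomial.X ^ 2) (g := Polynomial.X ^ 2 - Polynomial.C c)
      (Polynomial.degree_X_pow 2) (Polynomial.degree_X_pow_sub_C (by decide) _) h2
    refine ⟨a, b, ?_⟩
    rw [← sub_eq_zero]
    simpa only [Polynomial.eval_C, Polynomial.eval_X, Polynomial.eval_pow, Polynomial.eval_sub,
      ← add_sub_assoc] using hab
  · have hchar : ringChar F = 2 := by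
      rw [FiniteField.even_card_iff_char_two]
      omega
    obtain ⟨a, ha⟩ := FiniteField.isSquare_of_char_two hchar c
    exact ⟨a, 0, by rw [ha]; ring⟩

theorem exists_sq_ne_one (h4 : 4 ≤ Fintype.card F) : ∃ k : Fˣ, (k : F) ^ 2 ≠ 1 := by
  classical
  obtain ⟨g, hg⟩ := IsCyclic.exists_generator (α := Fˣ)
  have h1 : orderOf g = Nat.card Fˣ := orderOf_eq_card_of_forall_mem_zpowers hg
  rw [Nat.card_units, Nat.card_eq_fintype_card] at h1
  refine ⟨g, ?_⟩
  intro h
  have h2 : g ^ 2 = 1 := by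
    apply Units.ext
    rw [Units.val_pow_eq_pow_val, h, Units.val_one]
  have h3 := orderOf_dvd_of_pow_eq_one h2
  have h5 := Nat.le_of_dvd (by norm_num) h3
  omega

/-- an automorphism normalising `U` and the diagonal torus. -/
def Good (α : MulAut (Matrix.ProjectiveSpecialLinearGroup (Fin 2) F)) : Prop :=
  (∀ b : F, ∃ b' : F, α (ub b) = ub b') ∧ (∀ k : Fˣ, ∃ k' : Fˣ, α (hb k) = hb k')

theorem exists_good (h4 : 4 ≤ Fintype.card F)
    (α : MulAut (Matrix.ProjectiveSpecialLinearGroup (Fin 2) F)) :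
    ∃ g : Matrix.ProjectiveSpecialLinearGroup (Fin 2) F, Good (MulAut.conj g * α) := by
  classical
  obtain ⟨p, hp⟩ := CharP.exists F
  haveI := hp
  haveI hpp : Fact p.Prime := ⟨CharP.char_is_prime F p⟩
  haveI hfin : Finite (Matrix.SpecialLinearGroup (Fin 2) F) :=
    Finite.of_injective (fun x => x.1) Subtype.val_injective
  obtain ⟨P0, hP0⟩ := exists_sylow_US (F := F) p
  let P1 : Sylow p (Matrix.ProjectiveSpecialLinearGroup (Fin 2) F) :=
    P0.mapSurjective (pr_surj (F := F))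
  have hP1 : ∀ x : Matrix.ProjectiveSpecialLinearGroup (Fin 2) F,
      x ∈ P1 ↔ ∃ t : F, x = ub t := by
    intro x
    show x ∈ (P0 : Subgroup _).map (pr F) ↔ _
    rw [hP0]
    constructor
    · rintro ⟨y, hy, rfl⟩
      obtain ⟨t, rfl⟩ := exists_of_mem_US hy
      exact ⟨t, rfl⟩
    · rintro ⟨t, rfl⟩
      exact ⟨uMat t, uMat_mem t, rfl⟩
  haveI : Finite (Matrix.ProjectiveSpecialLinearGroup (Fin 2) F) :=
    Finite.of_surjective (pr F) pr_surj
  obtain ⟨g, hg⟩ := MulAction.exists_smul_eq (Matrix.ProjectiveSpecialLinearGroup (Fin 2) F)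
    (α • P1) P1
  set α₁ : MulAut (Matrix.ProjectiveSpecialLinearGroup (Fin 2) F) := MulAut.conj g * α with hα₁
  have hα₁P : α₁ • P1 = P1 := by
    rw [hα₁, mul_smul]
    exact hg
  have h1 : ∀ x, x ∈ P1 ↔ α₁ x ∈ P1 := by
    intro x
    have h2 : α₁ • x ∈ α₁ • (P1 : Subgroup (Matrix.ProjectiveSpecialLinearGroup (Fin 2) F)) ↔
        x ∈ (P1 : Subgroup (Matrix.ProjectiveSpecialLinearGroup (Fin 2) F)) :=
      Subgroup.smul_mem_pointwise_smul_iff
    have h3 : α₁ • (P1 : Subgroup (Matrix.ProjectiveSpecialLinearGroup (Fin 2) F)) =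
        (P1 : Subgroup (Matrix.ProjectiveSpecialLinearGroup (Fin 2) F)) :=
      congrArg (fun Q : Sylow p (Matrix.ProjectiveSpecialLinearGroup (Fin 2) F) =>
        (Q : Subgroup (Matrix.ProjectiveSpecialLinearGroup (Fin 2) F))) hα₁P
    rw [h3] at h2
    exact h2.symm
  have hU : ∀ b : F, ∃ b' : F, α₁ (ub b) = ub b' :=
    fun b => (hP1 _).mp ((h1 _).mp ((hP1 _).mpr ⟨b, rfl⟩))
  have hU' : ∀ x, (∃ t : F, α₁ x = ub t) → ∃ t : F, x = ub t :=
    fun x hx => (hP1 _).mp ((h1 _).mpr ((hP1 _).mpr hx))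
  choose β hβ using hU
  have hβinj : Function.Injective β := by
    intro b b' h
    have h1 : α₁ (ub b) = α₁ (ub b') := by rw [hβ, hβ, h]
    exact ub_inj (α₁.injective h1)
  have hβ0 : β 0 = 0 := by
    have h2 := hβ 0
    rw [ub_zero, map_one, ← ub_zero] at h2
    exact (ub_inj h2).symm
  have hb1 : β 1 ≠ 0 := by
    intro h
    rw [← hβ0] at h
    exact one_ne_zero (hβinj h)
  -- the Borel subgroup is preserved
  have hB : ∀ (a : F) (k : Fˣ), ∃ (a' : F) (k' : Fˣ), α₁ (ub a * hb k) = ub a' * hb k' := by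
    intro a k
    obtain ⟨y, hy⟩ := pr_surj (α₁ (ub a * hb k))
    have hrel : (ub a * hb k) * ub 1 = ub ((k : F) ^ 2) * (ub a * hb k) := by
      rw [mul_assoc, hb_ub, mul_one, ← mul_assoc, ← mul_assoc, ub_mul, ub_mul, add_comm]
    have h2 : α₁ (ub a * hb k) * α₁ (ub 1) = α₁ (ub ((k : F) ^ 2)) * α₁ (ub a * hb k) := by
      rw [← map_mul, ← map_mul, hrel]
    rw [hβ, hβ, ← hy] at h2
    have h3 := norm_borel hb1 h2
    obtain ⟨a', k', h4⟩ := borel_form' h3
    exact ⟨a', k', by rw [← hy, h4]⟩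
  obtain ⟨k1, hk1⟩ := exists_sq_ne_one h4
  obtain ⟨a1, k1', hd1⟩ := hB 0 k1
  rw [ub_zero, one_mul] at hd1
  have hk1' : (k1' : F) ^ 2 ≠ 1 := by
    intro h
    rw [hb_eq_one_of_sq h, mul_one] at hd1
    obtain ⟨t, ht⟩ := hU' _ ⟨a1, hd1⟩
    have h5 : ub 0 * hb k1 = ub t := by rw [ub_zero, one_mul]; exact ht
    exact hk1 (sq_of_borel_eq_ub h5)
  have hden : (1 : F) - (k1' : F) ^ 2 ≠ 0 := fun h => hk1' (by linear_combination -h)
  obtain ⟨x0, ex⟩ : ∃ x0 : F, x0 * (1 - (k1' : F) ^ 2) = a1 :=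
    ⟨a1 / (1 - (k1' : F) ^ 2), div_mul_cancel₀ _ hden⟩
  refine ⟨(ub x0)⁻¹ * g, ?_⟩
  have hα₂ : ∀ x, (MulAut.conj ((ub x0)⁻¹ * g) * α) x = (ub x0)⁻¹ * α₁ x * ub x0 := by
    intro x
    rw [hα₁, MulAut.mul_apply, MulAut.mul_apply, MulAut.conj_apply, MulAut.conj_apply]
    group
  have hconjB : ∀ (a : F) (k : Fˣ), (ub x0)⁻¹ * (ub a * hb k) * ub x0 =
      ub (a - x0 + (k : F) ^ 2 * x0) * hb k := by
    intro a k
    rw [ub_inv, mul_assoc, mul_assoc, hb_ub, ← mul_assoc, ← mul_assoc, ub_mul, ub_mul]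
    congr 2
    ring
  constructor
  · intro b
    refine ⟨-x0 + β b + x0, ?_⟩
    rw [hα₂, hβ, ub_inv, ub_mul, ub_mul]
  · intro k
    obtain ⟨a, k', hd⟩ := hB 0 k
    rw [ub_zero, one_mul] at hd
    refine ⟨k', ?_⟩
    rw [hα₂, hd, hconjB]
    have hcomm : α₁ (hb k) * α₁ (hb k1) = α₁ (hb k1) * α₁ (hb k) := by
      rw [← map_mul, ← map_mul, hb_comm]
    rw [hd, hd1] at hcomm
    have e1 : ub a * hb k' * (ub a1 * hb k1') =
        ub (a + (k' : F) ^ 2 * a1) * (hb k' * hb k1') := by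
      rw [mul_assoc, ← mul_assoc (hb k'), hb_ub, mul_assoc, ← mul_assoc, ub_mul]
    have e2 : ub a1 * hb k1' * (ub a * hb k') =
        ub (a1 + (k1' : F) ^ 2 * a) * (hb k' * hb k1') := by
      rw [mul_assoc, ← mul_assoc (hb k1'), hb_ub, mul_assoc, ← mul_assoc, ub_mul, hb_comm]
    rw [e1, e2] at hcomm
    have e3 := ub_inj (mul_right_cancel hcomm)
    have e4 : a = x0 * (1 - (k' : F) ^ 2) := by
      apply mul_right_cancel₀ hden
      linear_combination e3 - (1 - (k' : F) ^ 2) * ex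
    rw [e4]
    have e5 : x0 * (1 - (k' : F) ^ 2) - x0 + (k' : F) ^ 2 * x0 = 0 := by ring
    rw [e5, ub_zero, one_mul]

/-- a good automorphism is, up to a field automorphism and a diagonal automorphism, the
identity on `U`. -/
theorem exists_fix_U (α : MulAut (Matrix.ProjectiveSpecialLinearGroup (Fin 2) F))
    (hG : Good α) :
    ∃ (τ : F ≃+* F) (c : Fˣ), Good (diagG F c * fieldG F τ * α) ∧
      ∀ b : F, (diagG F c * fieldG F τ * α) (ub b) = ub b := by
  classical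
  choose β hβ using hG.1
  choose χ hχ using hG.2
  have hβadd : ∀ b b', β (b + b') = β b + β b' := by
    intro b b'
    have h1 : α (ub b * ub b') = α (ub b) * α (ub b') := map_mul α _ _
    rw [ub_mul, hβ, hβ, hβ, ub_mul] at h1
    exact ub_inj h1
  have hβinj : Function.Injective β := by
    intro b b' h
    have h1 : α (ub b) = α (ub b') := by rw [hβ, hβ, h]
    exact ub_inj (α.injective h1)
  have hβ0 : β 0 = 0 := by
    have h1 := hβadd 0 0
    rw [add_zero] at h1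
    exact left_eq_add.mp h1
  have hE1 : ∀ (k : Fˣ) (b : F), β ((k : F) ^ 2 * b) = ((χ k : Fˣ) : F) ^ 2 * β b := by
    intro k b
    have h2 := congrArg α (hb_ub_conj k b)
    rw [map_mul, map_mul, map_inv, hχ, hβ, hβ, hb_ub_conj] at h2
    exact (ub_inj h2).symm
  have hc0 : β 1 ≠ 0 := by
    intro h
    rw [← hβ0] at h
    exact one_ne_zero (hβinj h)
  have hsq : ∀ a y : F, β (a ^ 2 * y) * β 1 = β (a ^ 2) * β y := by
    intro a y
    by_cases ha : a = 0
    · subst ha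
      have e0 : (0 : F) ^ 2 = 0 := by norm_num
      rw [e0, zero_mul, hβ0, zero_mul, zero_mul]
    · have h1 := hE1 (Units.mk0 a ha) y
      have h2 := hE1 (Units.mk0 a ha) 1
      rw [Units.val_mk0] at h1 h2
      rw [mul_one] at h2
      rw [h1, h2]
      ring
  have hmul : ∀ x y : F, β (x * y) * β 1 = β x * β y := by
    intro x y
    obtain ⟨a, c, hac⟩ := sum_two_sq x
    rw [← hac, add_mul, hβadd, hβadd, add_mul, add_mul, hsq, hsq]
  let τ0 : F →+* F :=
    { toFun := fun b => β b / β 1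
      map_one' := div_self hc0
      map_mul' := by
        intro x y
        show β (x * y) / β 1 = β x / β 1 * (β y / β 1)
        rw [div_mul_div_comm, ← hmul, mul_div_mul_right _ _ hc0]
      map_zero' := by
        show β 0 / β 1 = 0
        rw [hβ0, zero_div]
      map_add' := by
        intro x y
        show β (x + y) / β 1 = β x / β 1 + β y / β 1
        rw [hβadd, add_div] }
  have hτ0inj : Function.Injective τ0 := τ0.injective
  let τ : F ≃+* F := RingEquiv.ofBijective τ0 ⟨hτ0inj, Finite.injective_iff_surjective.mp hτ0inj⟩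
  have hτ : ∀ b, β b = β 1 * τ b := by
    intro b
    show β b = β 1 * (β b / β 1)
    field_simp
  obtain ⟨c0, hc0def⟩ : ∃ c0 : F, c0 = τ.symm (β 1) := ⟨_, rfl⟩
  have hc1 : c0 ≠ 0 := by
    rw [hc0def]
    exact (map_ne_zero τ.symm).mpr hc0
  refine ⟨τ.symm, (Units.mk0 _ hc1)⁻¹, ?_, ?_⟩
  · constructor
    · intro b
      refine ⟨(((Units.mk0 _ hc1)⁻¹ : Fˣ) : F) * τ.symm (β b), ?_⟩
      rw [MulAut.mul_apply, MulAut.mul_apply, hβ, fieldG_ub, diagG_ub]
    · intro k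
      refine ⟨Units.map ((τ.symm : F →+* F) : F →* F) (χ k), ?_⟩
      rw [MulAut.mul_apply, MulAut.mul_apply, hχ, fieldG_hb, diagG_hb]
  · intro b
    rw [MulAut.mul_apply, MulAut.mul_apply, hβ, fieldG_ub, diagG_ub, hτ, map_mul,
      τ.symm_apply_apply, ← hc0def, Units.val_inv_eq_inv_val, Units.val_mk0,
      inv_mul_cancel_left₀ hc1]

theorem hM_00 (k : Fˣ) : (hM k).1 0 0 = (k : F) := rfl
theorem hM_01 (k : Fˣ) : (hM k).1 0 1 = 0 := rfl
theorem hM_10 (k : Fˣ) : (hM k).1 1 0 = 0 := rfl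
theorem hM_11 (k : Fˣ) : (hM k).1 1 1 = ((k⁻¹ : Fˣ) : F) := rfl
theorem uMat_00 (b : F) : (uMat b).1 0 0 = 1 := rfl
theorem uMat_01 (b : F) : (uMat b).1 0 1 = b := rfl
theorem uMat_10 (b : F) : (uMat b).1 1 0 = 0 := rfl
theorem uMat_11 (b : F) : (uMat b).1 1 1 = 1 := rfl
theorem wM_00 : (wM : Matrix.SpecialLinearGroup (Fin 2) F).1 0 0 = 0 := rfl
theorem wM_01 : (wM : Matrix.SpecialLinearGroup (Fin 2) F).1 0 1 = 1 := rfl
theorem wM_10 : (wM : Matrix.SpecialLinearGroup (Fin 2) F).1 1 0 = -1 := rfl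
theorem wM_11 : (wM : Matrix.SpecialLinearGroup (Fin 2) F).1 1 1 = 0 := rfl

/-- a good automorphism fixing `U` pointwise is the identity. -/
theorem rigid (h4 : 4 ≤ Fintype.card F)
    (α : MulAut (Matrix.ProjectiveSpecialLinearGroup (Fin 2) F)) (hG : Good α)
    (hZ : ∀ b : F, α (ub b) = ub b) : α = 1 := by
  classical
  choose χ hχ using hG.2
  have hD : ∀ k : Fˣ, α (hb k) = hb k := by
    intro k
    rw [hχ]
    have h2 := congrArg α (hb_ub_conj k 1)
    rw [map_mul, map_mul, map_inv, hχ, hZ, hZ, hb_ub_conj] at h2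
    have h3 := ub_inj h2
    rw [mul_one, mul_one] at h3
    exact (hb_eq_of_sq h3).symm
  have hB : ∀ (a : F) (k : Fˣ), α (ub a * hb k) = ub a * hb k := by
    intro a k
    rw [map_mul, hZ, hD]
  obtain ⟨y, hy⟩ := pr_surj (α (wb F))
  have hy10 : y.1 1 0 ≠ 0 := by
    intro h
    obtain ⟨a, k, h1⟩ := borel_form' h
    rw [hy, ← hB] at h1
    exact wb_not_borel (α.injective h1)
  obtain ⟨k1, hk1⟩ := exists_sq_ne_one h4
  have hk1u := unit_mul_inv k1
  have hk10 : (k1 : F) ≠ 0 := k1.ne_zero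
  have h1 := congrArg α (wb_hb k1)
  rw [map_mul, map_mul, hD, hD, ← hy, hb_def, hb_def, ← map_mul, ← map_mul, pr_eq_iff] at h1
  obtain ⟨e, he, h1⟩ := h1
  have h10 := h1 1 0
  have h00 := h1 0 0
  have h11 := h1 1 1
  rw [entry_mul, entry_mul, hM_10, hM_11, hM_00, hM_10, inv_inv] at h10
  rw [entry_mul, entry_mul, hM_00, hM_01, hM_00, hM_10] at h00
  rw [entry_mul, entry_mul, hM_10, hM_11, hM_01, hM_11, inv_inv] at h11
  have he1 : e = 1 := by
    have h2 : e * ((k1 : F) * y.1 1 0) = 1 * ((k1 : F) * y.1 1 0) := by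
      linear_combination -h10
    exact mul_right_cancel₀ (mul_ne_zero hk10 hy10) h2
  rw [he1] at h00 h11
  have hne : (k1 : F) ^ 2 - 1 ≠ 0 := fun h => hk1 (by linear_combination h)
  have hy00 : y.1 0 0 = 0 := by
    have h2 : y.1 0 0 * ((k1 : F) ^ 2 - 1) = 0 := by
      linear_combination (-(k1 : F)) * h00 + y.1 0 0 * hk1u
    rcases mul_eq_zero.mp h2 with h | h
    · exact h
    · exact absurd h hne
  have hy11 : y.1 1 1 = 0 := by
    have h2 : y.1 1 1 * ((k1 : F) ^ 2 - 1) = 0 := by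
      linear_combination (k1 : F) * h11 + y.1 1 1 * hk1u
    rcases mul_eq_zero.mp h2 with h | h
    · exact h
    · exact absurd h hne
  have hdet := det2 y
  rw [hy00, hy11, mul_zero, zero_sub] at hdet
  have h2 := congrArg α (wb_ub_cube (F := F))
  rw [map_pow, map_mul, hZ, map_one, ← hy, ub_def, ← map_mul, ← map_pow, pr_eq_one_iff] at h2
  obtain ⟨e', _, _, _, h3, _⟩ := h2
  rw [pow_succ, pow_two] at h3
  simp only [entry_mul, uMat_00, uMat_01, uMat_10, uMat_11, hy00, hy11] at h3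
  have hsq1 : y.1 1 0 ^ 2 = 1 := by
    have h4 : y.1 1 0 * (y.1 1 0 ^ 2 - 1) = 0 := by
      linear_combination h3 + y.1 1 0 * hdet
    rcases mul_eq_zero.mp h4 with h | h
    · exact absurd h hy10
    · linear_combination h
  have hW : α (wb F) = wb F := by
    rw [← hy, wb_def, eq_comm, pr_eq_iff]
    refine ⟨-y.1 1 0, by linear_combination hsq1, ?_⟩
    intro i j
    fin_cases i <;> fin_cases j
    · show y.1 0 0 = -y.1 1 0 * 0
      rw [hy00, mul_zero]
    · show y.1 0 1 = -y.1 1 0 * 1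
      linear_combination (-y.1 0 1) * hsq1 - y.1 1 0 * hdet
    · show y.1 1 0 = -y.1 1 0 * -1
      ring
    · show y.1 1 1 = -y.1 1 0 * 0
      rw [hy11, mul_zero]
  apply MulEquiv.ext
  intro g
  obtain ⟨x, rfl⟩ := pr_surj g
  show α (pr F x) = pr F x
  by_cases hx : x.1 1 0 = 0
  · obtain ⟨a, k, h⟩ := borel_form' hx
    rw [h, hB]
  · obtain ⟨a, b, k, h⟩ := bruhat' hx
    rw [h, map_mul, map_mul, hZ, hW, hB]

/-- every automorphism of `PSL₂(q)` is a product of an inner, a field and a diagonal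
automorphism. -/
theorem aut_decomp (h4 : 4 ≤ Fintype.card F)
    (α : MulAut (Matrix.ProjectiveSpecialLinearGroup (Fin 2) F)) :
    ∃ (g : Matrix.ProjectiveSpecialLinearGroup (Fin 2) F) (τ : F ≃+* F) (c : Fˣ),
      α = MulAut.conj g * fieldG F τ * diagG F c := by
  obtain ⟨g, hg⟩ := exists_good h4 α
  obtain ⟨τ, c, hG, hfix⟩ := exists_fix_U (MulAut.conj g * α) hg
  have h1 := rigid h4 _ hG hfix
  refine ⟨g⁻¹, τ⁻¹, c⁻¹, ?_⟩
  rw [map_inv, map_inv, map_inv]
  have h2 : α = (MulAut.conj g)⁻¹ * ((diagG F c * fieldG F τ)⁻¹ *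
      (diagG F c * fieldG F τ * (MulAut.conj g * α))) := by group
  rw [h2, h1]
  group

end Cfsg.Agent.Lib.Helper3.PSL2Aut3
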