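import Mathlib
import Cfsg.Prelude.Def_KGroupFacts
import Cfsg.Agent.Lib.Helper3.PSL2Aut3

set_option autoImplicit false
set_option linter.unusedSimpArgs false
set_option linter.unusedSectionVars false
set_option linter.style.haveILetI false

namespace Cfsg.Agent.Lib.Helper3.PSL2Aut4

open Cfsg.Agent.S2301 Cfsg.Agent.Lib.Helper13.SL2Syl Cfsg.Agent.Lib.Helper3.PSL2Aut1
  Cfsg.Agent.Lib.Helper3.PSL2Aut2 Cfsg.Agent.Lib.Helper3.PSL2Aut3

variable {F : Type*} [Field F] [Fintype F]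

/-- the trace of an element of `SL₂`. -/
def tr (x : Matrix.SpecialLinearGroup (Fin 2) F) : F := x.1 0 0 + x.1 1 1

theorem tr_conj (g x : Matrix.SpecialLinearGroup (Fin 2) F) : tr (g * x * g⁻¹) = tr x := by
  have h1 : tr (g * x * g⁻¹) = Matrix.trace (g.1 * x.1 * (g⁻¹).1) := by
    rw [Matrix.trace_fin_two]
    rfl
  have h2 : tr x = Matrix.trace x.1 := by
    rw [Matrix.trace_fin_two]
    rfl
  have h3 : (g⁻¹).1 * g.1 = 1 := by
    have h4 : (g⁻¹ * g).1 = (g⁻¹).1 * g.1 := rfl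
    rw [← h4, inv_mul_cancel]
    rfl
  rw [h1, h2, Matrix.trace_mul_cycle, h3, one_mul]

/-- `α` acts on squared traces through the field automorphism `τ`. -/
def TrP (α : MulAut (Matrix.ProjectiveSpecialLinearGroup (Fin 2) F)) (τ : F ≃+* F) : Prop :=
  ∀ x y : Matrix.SpecialLinearGroup (Fin 2) F, α (pr F x) = pr F y → tr y ^ 2 = τ (tr x ^ 2)

theorem tr_sq_of_pr_eq {x y : Matrix.SpecialLinearGroup (Fin 2) F} (h : pr F x = pr F y) :
    tr y ^ 2 = tr x ^ 2 := by
  rw [pr_eq_iff] at h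
  obtain ⟨e, he, h⟩ := h
  have h1 : tr y = e * tr x := by
    show y.1 0 0 + y.1 1 1 = e * (x.1 0 0 + x.1 1 1)
    rw [h, h]
    ring
  rw [h1]
  linear_combination tr x ^ 2 * he

theorem trP_conj (g : Matrix.ProjectiveSpecialLinearGroup (Fin 2) F) : TrP (MulAut.conj g) 1 := by
  intro x y h
  obtain ⟨g0, rfl⟩ := pr_surj g
  rw [MulAut.conj_apply, ← map_inv, ← map_mul, ← map_mul] at h
  rw [tr_sq_of_pr_eq h, tr_conj]
  rfl

theorem trP_field (τ : F ≃+* F) : TrP (fieldG F τ) τ := by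
  intro x y h
  rw [fieldG_pr] at h
  rw [tr_sq_of_pr_eq h]
  show (τ (x.1 0 0) + τ (x.1 1 1)) ^ 2 = τ ((x.1 0 0 + x.1 1 1) ^ 2)
  rw [map_pow, map_add]

theorem trP_diag (c : Fˣ) : TrP (diagG F c) 1 := by
  intro x y h
  rw [diagG_pr] at h
  rw [tr_sq_of_pr_eq h]
  rfl

theorem trP_mul {α α' : MulAut (Matrix.ProjectiveSpecialLinearGroup (Fin 2) F)} {τ τ' : F ≃+* F}
    (h : TrP α τ) (h' : TrP α' τ') : TrP (α * α') (τ * τ') := by
  intro x y hxy
  obtain ⟨z, hz⟩ := pr_surj (α' (pr F x))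
  rw [MulAut.mul_apply, ← hz] at hxy
  rw [h z y hxy, h' x z hz.symm]
  rfl

/-- an element of trace `t`. -/
def trM (t : F) : Matrix.SpecialLinearGroup (Fin 2) F :=
  ⟨!![t, -1; 1, 0], by simp [Matrix.det_fin_two]⟩

theorem tr_trM (t : F) : tr (trM t) = t := by
  show t + 0 = t
  rw [add_zero]

theorem trP_unique {α : MulAut (Matrix.ProjectiveSpecialLinearGroup (Fin 2) F)} {τ τ' : F ≃+* F}
    (h : TrP α τ) (h' : TrP α τ') : τ = τ' := by
  have hsq : ∀ t : F, τ (t ^ 2) = τ' (t ^ 2) := by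
    intro t
    obtain ⟨y, hy⟩ := pr_surj (α (pr F (trM t)))
    have h1 := h _ _ hy.symm
    have h2 := h' _ _ hy.symm
    rw [tr_trM] at h1 h2
    rw [← h1, ← h2]
  apply RingEquiv.ext
  intro c
  obtain ⟨a, b, hab⟩ := sum_two_sq c
  rw [← hab, map_add, map_add, hsq, hsq]

theorem exists_trP (h4 : 4 ≤ Fintype.card F)
    (α : MulAut (Matrix.ProjectiveSpecialLinearGroup (Fin 2) F)) : ∃ τ : F ≃+* F, TrP α τ := by
  obtain ⟨g, τ, c, rfl⟩ := aut_decomp h4 α
  exact ⟨1 * τ * 1, trP_mul (trP_mul (trP_conj g) (trP_field τ)) (trP_diag c)⟩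

/-- the field automorphism attached to an automorphism of `PSL₂(q)`. -/
noncomputable def Θ (h4 : 4 ≤ Fintype.card F) :
    MulAut (Matrix.ProjectiveSpecialLinearGroup (Fin 2) F) →* (F ≃+* F) where
  toFun α := Classical.choose (exists_trP h4 α)
  map_one' := by
    apply trP_unique (Classical.choose_spec (exists_trP h4 1))
    have h := trP_conj (1 : Matrix.ProjectiveSpecialLinearGroup (Fin 2) F)
    rw [map_one] at h
    exact h
  map_mul' α α' := by
    apply trP_unique (Classical.choose_spec (exists_trP h4 (α * α')))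
    exact trP_mul (Classical.choose_spec (exists_trP h4 α))
      (Classical.choose_spec (exists_trP h4 α'))

theorem Θ_eq (h4 : 4 ≤ Fintype.card F)
    {α : MulAut (Matrix.ProjectiveSpecialLinearGroup (Fin 2) F)} {τ : F ≃+* F} (h : TrP α τ) :
    Θ h4 α = τ :=
  trP_unique (Classical.choose_spec (exists_trP h4 α)) h

theorem Θ_conj (h4 : 4 ≤ Fintype.card F) (g : Matrix.ProjectiveSpecialLinearGroup (Fin 2) F) :
    Θ h4 (MulAut.conj g) = 1 := Θ_eq h4 (trP_conj g)

theorem Θ_field (h4 : 4 ≤ Fintype.card F) (τ : F ≃+* F) : Θ h4 (fieldG F τ) = τ :=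
  Θ_eq h4 (trP_field τ)

theorem Θ_diag (h4 : 4 ≤ Fintype.card F) (c : Fˣ) : Θ h4 (diagG F c) = 1 :=
  Θ_eq h4 (trP_diag c)

/-- the induced homomorphism on the outer automorphism group. -/
noncomputable def Θbar (h4 : 4 ≤ Fintype.card F) :
    Cfsg.Out (Matrix.ProjectiveSpecialLinearGroup (Fin 2) F) →* (F ≃+* F) :=
  QuotientGroup.lift (Cfsg.Inn (Matrix.ProjectiveSpecialLinearGroup (Fin 2) F)) (Θ h4) (by
    rintro α ⟨g, rfl⟩
    exact Θ_conj h4 g)

theorem Θbar_mk (h4 : 4 ≤ Fintype.card F)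
    (α : MulAut (Matrix.ProjectiveSpecialLinearGroup (Fin 2) F)) :
    Θbar h4 (QuotientGroup.mk α) = Θ h4 α := rfl

theorem Θbar_surj (h4 : 4 ≤ Fintype.card F) : Function.Surjective (Θbar h4) := by
  intro τ
  exact ⟨QuotientGroup.mk (fieldG F τ), by rw [Θbar_mk, Θ_field]⟩

/-- the diagonal automorphisms in the outer automorphism group. -/
noncomputable def Δbar (F : Type*) [Field F] :
    Fˣ →* Cfsg.Out (Matrix.ProjectiveSpecialLinearGroup (Fin 2) F) :=
  (QuotientGroup.mk' (Cfsg.Inn (Matrix.ProjectiveSpecialLinearGroup (Fin 2) F))).comp (diagG F)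

theorem Δbar_apply (c : Fˣ) : Δbar F c = QuotientGroup.mk (diagG F c) := rfl

theorem ker_Θbar (h4 : 4 ≤ Fintype.card F) : (Θbar h4).ker = (Δbar F).range := by
  ext x
  rw [MonoidHom.mem_ker, MonoidHom.mem_range]
  constructor
  · intro hx
    obtain ⟨α, rfl⟩ := QuotientGroup.mk_surjective x
    obtain ⟨g, τ, c, rfl⟩ := aut_decomp h4 α
    rw [Θbar_mk, map_mul, map_mul, Θ_conj, Θ_field, Θ_diag, one_mul, mul_one] at hx
    subst hx
    refine ⟨c, ?_⟩
    rw [Δbar_apply, map_one, mul_one, QuotientGroup.mk_mul]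
    have h1 : (QuotientGroup.mk (MulAut.conj g) :
        Cfsg.Out (Matrix.ProjectiveSpecialLinearGroup (Fin 2) F)) = 1 :=
      (QuotientGroup.eq_one_iff _).mpr ⟨g, rfl⟩
    rw [h1, one_mul]
  · rintro ⟨c, rfl⟩
    rw [Δbar_apply, Θbar_mk, Θ_diag]

theorem ker_Δbar : (Δbar F).ker = (powMonoidHom 2 : Fˣ →* Fˣ).range := by
  ext c
  rw [MonoidHom.mem_ker, MonoidHom.mem_range, Δbar_apply, QuotientGroup.eq_one_iff]
  constructor
  · rintro ⟨g, hg⟩
    obtain ⟨M, rfl⟩ := pr_surj g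
    have h1 : MulAut.conj (pr F M) (ub 1) = diagG F c (ub 1) := by rw [hg]
    rw [MulAut.conj_apply, diagG_ub, mul_one, mul_inv_eq_iff_eq_mul] at h1
    have h2 := norm_borel one_ne_zero h1
    obtain ⟨a, k, h3⟩ := borel_form' h2
    rw [h3, mul_assoc, hb_ub, mul_one, ← mul_assoc, ← mul_assoc, ub_mul, ub_mul] at h1
    have h4 := ub_inj (mul_right_cancel h1)
    refine ⟨k, ?_⟩
    apply Units.ext
    show ((k ^ 2 : Fˣ) : F) = (c : F)
    rw [Units.val_pow_eq_pow_val]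
    linear_combination h4
  · rintro ⟨j, rfl⟩
    exact ⟨hb j, (diagG_sq j).symm⟩

theorem card_ker_Θbar (h4 : 4 ≤ Fintype.card F) :
    Nat.card (Θbar h4).ker = Nat.gcd 2 (Fintype.card F - 1) := by
  classical
  rw [ker_Θbar, ← Subgroup.index_ker, ker_Δbar, IsCyclic.index_powMonoidHom_range,
    Nat.card_units, Nat.card_eq_fintype_card, Nat.gcd_comm]

theorem cyclic_ker_Θbar (h4 : 4 ≤ Fintype.card F) : IsCyclic (Θbar h4).ker := by
  classical
  rw [ker_Θbar]
  exact isCyclic_of_surjective (Δbar F).rangeRestrict (Δbar F).rangeRestrict_surjective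

/-! ### the automorphism group of a finite field -/

theorem ringAut_iso {p f : ℕ} [Fact p.Prime] (hF : Fintype.card F = p ^ f) :
    Nonempty ((F ≃+* F) ≃* Multiplicative (ZMod f)) := by
  classical
  obtain ⟨p', hp'⟩ := CharP.exists F
  obtain ⟨k, hpp, hk⟩ := FiniteField.card F p'
  have hpeq : p' = p := by
    have h1 : p' ∣ p ^ f := by
      rw [← hF, hk]
      exact dvd_pow_self p' k.ne_zero
    exact (Nat.prime_dvd_prime_iff_eq hpp Fact.out).mp (hpp.dvd_of_dvd_pow h1)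
  subst hpeq
  letI : Algebra (ZMod p') F := ZMod.algebra F p'
  have h1 : Nat.card (F ≃ₐ[ZMod p'] F) = Module.finrank (ZMod p') F :=
    IsGalois.card_aut_eq_finrank (ZMod p') F
  have h2 : Module.finrank (ZMod p') F = f := by
    have h3 := Module.card_eq_pow_finrank (K := ZMod p') (V := F)
    rw [hF, ZMod.card] at h3
    exact (Nat.pow_right_injective hpp.two_le h3).symm
  let E : (F ≃+* F) ≃* (F ≃ₐ[ZMod p'] F) :=
    { toFun := fun r => AlgEquiv.ofRingEquiv (f := r) (fun x => RingHom.congr_fun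
        (Subsingleton.elim ((r : F →+* F).comp (algebraMap (ZMod p') F))
          (algebraMap (ZMod p') F)) x)
      invFun := fun f => f.toRingEquiv
      left_inv := fun r => by ext; rfl
      right_inv := fun f => by ext; rfl
      map_mul' := fun r s => by ext; rfl }
  have hcyc : IsCyclic (F ≃ₐ[ZMod p'] F) := inferInstance
  have hcard : Nat.card (F ≃ₐ[ZMod p'] F) = f := by rw [h1, h2]
  have e2 := zmodCyclicMulEquiv hcyc
  rw [hcard] at e2
  exact ⟨E.trans e2.symm⟩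

/-- the structure of `Out(PSL₂(q))`. -/
theorem out_psl2 {p f : ℕ} [Fact p.Prime] (hF : Fintype.card F = p ^ f) (h4 : 4 ≤ p ^ f) :
    ∃ φ : Cfsg.Out (Matrix.ProjectiveSpecialLinearGroup (Fin 2) F) →* Multiplicative (ZMod f),
      Function.Surjective φ ∧ IsCyclic φ.ker ∧ Nat.card φ.ker = Nat.gcd 2 (p ^ f - 1) := by
  have h4' : 4 ≤ Fintype.card F := by
    rw [hF]
    exact h4
  obtain ⟨e⟩ := ringAut_iso (F := F) hF
  have hker : (e.toMonoidHom.comp (Θbar h4')).ker = (Θbar h4').ker := by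
    ext x
    rw [MonoidHom.mem_ker, MonoidHom.mem_ker]
    show e (Θbar h4' x) = 1 ↔ _
    rw [← map_one e]
    exact e.injective.eq_iff
  refine ⟨e.toMonoidHom.comp (Θbar h4'), ?_, ?_, ?_⟩
  · exact e.surjective.comp (Θbar_surj h4')
  · rw [hker]
    exact cyclic_ker_Θbar h4'
  · rw [hker, card_ker_Θbar h4', hF]

end Cfsg.Agent.Lib.Helper3.PSL2Aut4
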