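import Mathlib
import Cfsg.Prelude.Def_Sporadic
import Cfsg.Agent.S0698

set_option autoImplicit false

namespace Cfsg.Agent.Lib.Helper3.Sharp

open MulAction

theorem card_mul_relIndex' {G : Type*} [Group G] {T H : Subgroup G} (h : T ≤ H) :
    Nat.card T * T.relIndex H = Nat.card H := by
  have h1 := Subgroup.card_mul_index (T.subgroupOf H)
  rw [Nat.card_congr (Subgroup.subgroupOfEquivOfLe h).toEquiv] at h1
  exact h1

theorem fact11 (M : ℕ) (hM : ¬ 11 ∣ M) : (11 * M).factorization 11 = 1 := by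
  have hM0 : M ≠ 0 := fun h => hM (h ▸ dvd_zero 11)
  rw [Nat.factorization_mul (by norm_num) hM0, Finsupp.add_apply,
    Nat.Prime.factorization_self (by norm_num), Nat.factorization_eq_zero_of_not_dvd hM]

section core

variable {Γ : Type*} [Group Γ] [Finite Γ]

/-- a normal subgroup of index dividing 8 in a group of order `11 M` whose subgroups of order 11
are self-centralising, with the Sylow count forcing normaliser order 55, is the whole group. -/
theorem normal_eq_top (M : ℕ) (hcard : Nat.card Γ = 11 * M) (hM : ¬ 11 ∣ M)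
    (hMd : ∀ d x : ℕ, d ∣ 10 → d * x = M → x % 11 = 1 → d = 5)
    (hcent : ∀ P : Subgroup Γ, Nat.card P = 11 → Nat.card (Subgroup.centralizer (P : Set Γ)) = 11)
    (N : Subgroup Γ) [N.Normal] (hN8 : N.index ∣ 8) : N = ⊤ := by
  have hp11 : Nat.Prime 11 := by norm_num
  have : Fact (Nat.Prime 11) := ⟨hp11⟩
  obtain ⟨P⟩ : Nonempty (Sylow 11 Γ) := inferInstance
  have hPc : Nat.card (P : Subgroup Γ) = 11 := by
    rw [Sylow.card_eq_multiplicity, hcard, fact11 M hM, pow_one]
  have hPN : (P : Subgroup Γ) ≤ N := by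
    intro g hg
    obtain ⟨j, hj⟩ := P.isPGroup' ⟨g, hg⟩
    have hj' : g ^ 11 ^ j = 1 := congrArg Subtype.val hj
    have h1 : (QuotientGroup.mk g : Γ ⧸ N) ^ (11 ^ j) = 1 := by
      rw [← QuotientGroup.mk_pow, hj', QuotientGroup.mk_one]
    have h2 : (QuotientGroup.mk g : Γ ⧸ N) ^ N.index = 1 := by
      rw [Subgroup.index_eq_card]
      exact pow_card_eq_one'
    have h3 := pow_gcd_eq_one.mpr ⟨h1, h2⟩
    have hcop : Nat.gcd (11 ^ j) N.index = 1 := by
      apply Nat.Coprime.pow_left
      exact Nat.Coprime.coprime_dvd_right hN8 (by norm_num)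
    rw [hcop, pow_one] at h3
    exact (QuotientGroup.eq_one_iff g).mp h3
  obtain ⟨Q, hQc, hQN, hfr, h6⟩ : ∃ Q : Subgroup Γ, Nat.card Q = 11 ∧ Q ≤ N ∧
      Subgroup.normalizer (Q : Set Γ) ⊔ N = ⊤ ∧
      Nat.card (Sylow 11 Γ) = (Subgroup.normalizer (Q : Set Γ)).index :=
    ⟨(P : Subgroup Γ), hPc, hPN, Sylow.normalizer_sup_eq_top' P hPN, P.card_eq_index_normalizer⟩
  clear hPc hPN P
  have key := Subgroup.card_dvd_of_injective _
    (QuotientGroup.kerLift_injective Q.normalizerMonoidHom)
  rw [Subgroup.normalizerMonoidHom_ker, ← Subgroup.index, ← Subgroup.relIndex] at key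
  have hcyc : IsCyclic ↥Q := isCyclic_of_prime_card hQc
  rw [IsCyclic.card_mulAut, hQc, Nat.totient_prime hp11] at key
  have hCH : Subgroup.centralizer (Q : Set Γ) ≤ Subgroup.normalizer (Q : Set Γ) :=
    Subgroup.centralizer_le_normalizer _
  have h5 := card_mul_relIndex' hCH
  rw [hcent Q hQc] at h5
  have h7 := card_sylow_modEq_one 11 Γ
  have h8 := Subgroup.card_mul_index (Subgroup.normalizer (Q : Set Γ))
  rw [h6] at h7
  have hPH : Q ≤ Subgroup.normalizer (Q : Set Γ) := Subgroup.le_normalizer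
  have h12 : N.relIndex (Subgroup.normalizer (Q : Set Γ)) ∣
      Q.relIndex (Subgroup.normalizer (Q : Set Γ)) :=
    Subgroup.relIndex_dvd_of_le_left _ hQN
  have h13 := card_mul_relIndex' hPH
  have h11 : N.index = N.relIndex (Subgroup.normalizer (Q : Set Γ)) := by
    rw [← Subgroup.relIndex_sup_right, hfr, Subgroup.relIndex_top_right]
  rw [← h11] at h12
  generalize (Subgroup.centralizer (Q : Set Γ)).relIndex (Subgroup.normalizer (Q : Set Γ)) = d
    at key h5
  generalize (Subgroup.normalizer (Q : Set Γ)).index = x at h7 h8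
  have h9 : d * x = M := by
    rw [← h5, hcard] at h8
    have h10 : 11 * (d * x) = 11 * M := by
      rw [← h8]
      ring
    exact Nat.eq_of_mul_eq_mul_left (by norm_num) h10
  have h10 : x % 11 = 1 := h7
  have hd5 : d = 5 := hMd d x key h9 h10
  have h14 : Q.relIndex (Subgroup.normalizer (Q : Set Γ)) = 5 := by
    rw [hQc, ← h5, hd5] at h13
    omega
  rw [h14] at h12
  have h15 : N.index ∣ Nat.gcd 5 8 := Nat.dvd_gcd h12 hN8
  have h16 : N.index = 1 := Nat.eq_one_of_dvd_one (by simpa using h15)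
  exact Subgroup.index_eq_one.mp h16

end core

theorem card_dvd_of_pretransitive {N X : Type*} [Group N] [Finite N] [MulAction N X]
    [IsPretransitive N X] [Nonempty X] : Nat.card X ∣ Nat.card N := by
  obtain ⟨x⟩ := ‹Nonempty X›
  have h2 : (stabilizer N x).index = Nat.card X := index_stabilizer_of_transitive ..
  exact h2 ▸ Subgroup.index_dvd_card _

section perm

variable {α : Type*} [Fintype α] [DecidableEq α]

/-- the order of a sharply `t`-transitive group. -/
theorem card_of_sharp (G : Subgroup (Equiv.Perm α)) (t : ℕ) [IsMultiplyPretransitive G α t]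
    (hsharp : ∀ x : Fin t ↪ α, stabilizer G x = ⊥) (ht : t ≤ Fintype.card α) :
    Nat.card G = (Fintype.card α).descFactorial t := by
  obtain ⟨x₀⟩ : Nonempty (Fin t ↪ α) :=
    Function.Embedding.nonempty_of_card_le (by simpa using ht)
  have hb : Function.Bijective (fun g : G => g • x₀) := by
    constructor
    · intro g h hgh
      have h2 : h⁻¹ * g ∈ stabilizer G x₀ := by
        rw [mem_stabilizer_iff]
        ext i
        have h3 := congrArg (fun e : Fin t ↪ α => e i) hgh
        have h4 : (g : Equiv.Perm α) (x₀ i) = (h : Equiv.Perm α) (x₀ i) := h3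
        show ((h : Equiv.Perm α)⁻¹ * (g : Equiv.Perm α)) (x₀ i) = x₀ i
        rw [Equiv.Perm.mul_apply, h4]
        exact Equiv.symm_apply_apply _ _
      rw [hsharp, Subgroup.mem_bot] at h2
      exact (inv_mul_eq_one.mp h2).symm
    · intro y
      exact exists_smul_eq G x₀ y
  rw [Nat.card_congr (Equiv.ofBijective _ hb), Nat.card_eq_fintype_card,
    Fintype.card_embedding_eq, Fintype.card_fin]

/-- the index of a `t`-transitive subgroup of a sharply `(t+1)`-transitive group divides
`n - t`. -/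
theorem index_dvd (G : Subgroup (Equiv.Perm α)) (t : ℕ) [IsMultiplyPretransitive G α (t + 1)]
    (hsharp : ∀ x : Fin (t + 1) ↪ α, stabilizer G x = ⊥) (ht : t + 1 ≤ Fintype.card α)
    (N : Subgroup G) (hN : IsMultiplyPretransitive N α t) : N.index ∣ Fintype.card α - t := by
  have h1 := card_of_sharp G (t + 1) hsharp ht
  obtain ⟨y₀⟩ : Nonempty (Fin t ↪ α) :=
    Function.Embedding.nonempty_of_card_le (by simp; omega)
  have h3 : Nat.card (Fin t ↪ α) ∣ Nat.card N :=
    @card_dvd_of_pretransitive ↥N (Fin t ↪ α) _ _ Function.Embedding.instMulAction hN ⟨y₀⟩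
  rw [Nat.card_eq_fintype_card, Fintype.card_embedding_eq, Fintype.card_fin] at h3
  have h4 := Subgroup.card_mul_index N
  rw [h1, Nat.descFactorial_succ] at h4
  obtain ⟨s, hs⟩ := h3
  rw [hs] at h4
  have hD : 0 < (Fintype.card α).descFactorial t := Nat.descFactorial_pos.mpr (by omega)
  have h5 : s * N.index = Fintype.card α - t := by
    apply Nat.eq_of_mul_eq_mul_left hD
    rw [← mul_assoc, h4, mul_comm]
  exact ⟨s, by rw [← h5, mul_comm]⟩

/-- subgroups of order 11 are self-centralising in a sharply `t`-transitive group of small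
degree. -/
theorem card_centralizer (G : Subgroup (Equiv.Perm α)) (t : ℕ)
    (hsharp : ∀ x : Fin t ↪ α, stabilizer G x = ⊥) (ht : t ≤ 11) (hα : Fintype.card α < 22)
    (P : Subgroup G) (hP : Nat.card P = 11) :
    Nat.card (Subgroup.centralizer (P : Set G)) = 11 := by
  have hp11 : Nat.Prime 11 := by norm_num
  have : Fact (Nat.Prime 11) := ⟨hp11⟩
  have hPcomm : ∀ a b : P, a * b = b * a := by
    have hcy : IsCyclic P := isCyclic_of_prime_card hP
    intro a b
    obtain ⟨g, hg⟩ := hcy.exists_generator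
    obtain ⟨m, rfl⟩ := Subgroup.mem_zpowers_iff.mp (hg a)
    obtain ⟨n, rfl⟩ := Subgroup.mem_zpowers_iff.mp (hg b)
    rw [← zpow_add, ← zpow_add, add_comm]
  obtain ⟨c, hc⟩ : ∃ c : P, c ≠ 1 := by
    have hnt : Nontrivial P := (Finite.one_lt_card_iff_nontrivial).mp (by omega)
    exact exists_ne 1
  have hoc : orderOf c = 11 := by
    have h1 : orderOf c ∣ 11 := hP ▸ orderOf_dvd_natCard c
    rcases (Nat.dvd_prime hp11).mp h1 with h | h
    · exact absurd (orderOf_eq_one_iff.mp h) hc
    · exact h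
  have hoσ : orderOf (c.1.1 : Equiv.Perm α) = 11 := by
    rw [Subgroup.orderOf_coe, Subgroup.orderOf_coe, hoc]
  generalize hσ : (c.1.1 : Equiv.Perm α) = σ at hoσ
  have hcyc : σ.IsCycle := Equiv.Perm.isCycle_of_prime_order' (by rw [hoσ]; exact hp11)
    (by rw [hoσ]; omega)
  have hsupp : σ.support.card = 11 := by rw [← hcyc.orderOf, hoσ]
  obtain ⟨y₀, hy₀⟩ : ∃ y₀, y₀ ∈ σ.support := Finset.card_pos.mp (by omega)
  have hy₀' : σ y₀ ≠ y₀ := Equiv.Perm.mem_support.mp hy₀
  have hle : ∀ i j : ℕ, i ≤ j → j < 11 → (σ ^ i) y₀ = (σ ^ j) y₀ → i = j := by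
    intro i j hij hj h
    have h1 : (σ ^ (j - i)) y₀ = y₀ := by
      have h2 : σ ^ j = σ ^ i * σ ^ (j - i) := by
        rw [← pow_add]
        congr 1
        omega
      rw [h2, Equiv.Perm.mul_apply] at h
      exact ((σ ^ i).injective h).symm
    have h3 : σ ^ (j - i) = 1 := (hcyc.pow_eq_one_iff' hy₀').mpr h1
    have h4 : 11 ∣ j - i := by
      rw [← hoσ]
      exact orderOf_dvd_of_pow_eq_one h3
    have h5 : j - i = 0 := Nat.eq_zero_of_dvd_of_lt h4 (by omega)
    omega
  have hinj : Function.Injective (fun i : Fin t => (σ ^ (i : ℕ)) y₀) := by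
    intro i j hij
    apply Fin.ext
    rcases le_total (i : ℕ) (j : ℕ) with h | h
    · exact hle _ _ h (by omega) hij
    · exact (hle _ _ h (by omega) hij.symm).symm
  have hcm : ∀ h ∈ Subgroup.centralizer (P : Set G), (h : Equiv.Perm α) * σ = σ * h := by
    intro h hh
    have h1 := (Subgroup.mem_centralizer_iff.mp hh) c.1 c.2
    have h2 := congrArg Subtype.val h1
    rw [← hσ]
    exact h2.symm
  have hfree : ∀ h ∈ Subgroup.centralizer (P : Set G), (h : Equiv.Perm α) y₀ = y₀ → h = 1 := by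
    intro h hh hfix
    have h1 : h ∈ stabilizer G (⟨fun i : Fin t => (σ ^ (i : ℕ)) y₀, hinj⟩ : Fin t ↪ α) := by
      rw [mem_stabilizer_iff]
      ext i
      show (h : Equiv.Perm α) ((σ ^ (i : ℕ)) y₀) = (σ ^ (i : ℕ)) y₀
      have h2 : (h : Equiv.Perm α) * σ ^ (i : ℕ) = σ ^ (i : ℕ) * h :=
        (Commute.pow_right (hcm h hh) _)
      have h3 := congrArg (fun f : Equiv.Perm α => f y₀) h2
      simp only [Equiv.Perm.mul_apply] at h3
      rw [h3, hfix]
    rw [hsharp, Subgroup.mem_bot] at h1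
    exact h1
  have hmem : ∀ h : ↥(Subgroup.centralizer (P : Set G)),
      ((h : G) : Equiv.Perm α) y₀ ∈ σ.support := by
    intro h
    rw [Equiv.Perm.mem_support]
    have h2 := congrArg (fun f : Equiv.Perm α => f y₀) (hcm h.1 h.2)
    simp only [Equiv.Perm.mul_apply] at h2
    rw [← h2]
    exact fun h3 => hy₀' (((h : G) : Equiv.Perm α).injective h3)
  have hfinj : Function.Injective
      (fun h : ↥(Subgroup.centralizer (P : Set G)) =>
        (⟨((h : G) : Equiv.Perm α) y₀, hmem h⟩ : {y // y ∈ σ.support})) := by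
    intro h h' hh
    have h1 : ((h : G) : Equiv.Perm α) y₀ = ((h' : G) : Equiv.Perm α) y₀ := congrArg Subtype.val hh
    have h2 : (((h'⁻¹ * h : ↥(Subgroup.centralizer (P : Set G))) : G) : Equiv.Perm α) y₀ = y₀ := by
      show ((h' : G) : Equiv.Perm α)⁻¹ (((h : G) : Equiv.Perm α) y₀) = y₀
      rw [h1]
      exact Equiv.symm_apply_apply _ _
    have h3 := hfree _ (h'⁻¹ * h).2 h2
    have h4 : h'⁻¹ * h = 1 := Subtype.ext h3
    exact (inv_mul_eq_one.mp h4).symm
  have hle11 : Nat.card (Subgroup.centralizer (P : Set G)) ≤ 11 := by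
    have h1 := Nat.card_le_card_of_injective _ hfinj
    have h2 : Nat.card {y // y ∈ σ.support} = 11 := by
      rw [Nat.card_eq_fintype_card, Fintype.card_coe, hsupp]
    omega
  have hge11 : 11 ≤ Nat.card (Subgroup.centralizer (P : Set G)) := by
    rw [← hP]
    apply Subgroup.card_le_of_le
    intro p hp
    rw [Subgroup.mem_centralizer_iff]
    intro q hq
    exact congrArg Subtype.val (hPcomm ⟨q, hq⟩ ⟨p, hp⟩)
  omega

/-- `S0418`. -/
theorem m11 (hα : Fintype.card α = 11) (G : Subgroup (Equiv.Perm α))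
    [MulAction.IsMultiplyPretransitive G α 4]
    (hsharp : ∀ x : Fin 4 ↪ α, MulAction.stabilizer G x = ⊥) : Cfsg.IsM11 G := by
  have hcard : Nat.card G = 7920 := by
    rw [card_of_sharp G 4 hsharp (by omega), hα]
    rfl
  have hnt : Nontrivial G := (Finite.one_lt_card_iff_nontrivial).mp (by omega)
  refine ⟨⟨fun N hNn => ?_⟩, hcard⟩
  by_cases hN : N = ⊥
  · exact Or.inl hN
  right
  have hJ := Cfsg.Agent.S0698.result G (k := 4) (by norm_num) (by omega) inferInstance N hN
  rcases hJ with hJ | ⟨h3, -⟩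
  · have h8 := index_dvd G 3 hsharp (by omega) N hJ
    rw [hα] at h8
    refine normal_eq_top 720 (by rw [hcard]) (by norm_num) ?_
      (fun P hP => card_centralizer G 4 hsharp (by norm_num) (by omega) P hP) N h8
    intro d x hd hdx hx
    have hd10 : d ≤ 10 := Nat.le_of_dvd (by norm_num) hd
    interval_cases d <;> omega
  · exact absurd h3 (by norm_num)

/-- `S0419`. -/
theorem m12 (hα : Fintype.card α = 12) (G : Subgroup (Equiv.Perm α))
    [MulAction.IsMultiplyPretransitive G α 5]
    (hsharp : ∀ x : Fin 5 ↪ α, MulAction.stabilizer G x = ⊥) : Cfsg.IsM12 G := by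
  have hcard : Nat.card G = 95040 := by
    rw [card_of_sharp G 5 hsharp (by omega), hα]
    rfl
  have hnt : Nontrivial G := (Finite.one_lt_card_iff_nontrivial).mp (by omega)
  refine ⟨⟨fun N hNn => ?_⟩, hcard⟩
  by_cases hN : N = ⊥
  · exact Or.inl hN
  right
  have hJ := Cfsg.Agent.S0698.result G (k := 5) (by norm_num) (by omega) inferInstance N hN
  rcases hJ with hJ | ⟨h3, -⟩
  · have h8 := index_dvd G 4 hsharp (by omega) N hJ
    rw [hα] at h8
    refine normal_eq_top 8640 (by rw [hcard]) (by norm_num) ?_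
      (fun P hP => card_centralizer G 5 hsharp (by norm_num) (by omega) P hP) N h8
    intro d x hd hdx hx
    have hd10 : d ≤ 10 := Nat.le_of_dvd (by norm_num) hd
    interval_cases d <;> omega
  · exact absurd h3 (by norm_num)

end perm

end Cfsg.Agent.Lib.Helper3.Sharp
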