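import Mathlib
import Cfsg.Prelude.Def_LieRecognition
import Cfsg.Agent.Lib.Helper3.SuAut3

set_option autoImplicit false
set_option linter.unusedSectionVars false

namespace Cfsg.Agent.Lib.Helper3.SuAut2

open Cfsg.Agent.Lib.Helper2.Unitary Cfsg.Agent.Lib.Helper2.HermCount
  Cfsg.Agent.Lib.Helper3.SuAut1 Cfsg.Agent.Lib.Lead.Cores

variable {F : Type*} [Field F] [Fintype F] {H : Type*} [Group H]

namespace CoU

variable {q : ℕ} (C : CoU F q H)

include C

/-- the order of the centre. -/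
theorem card_center : Nat.card (Subgroup.center H) = q := by
  have hb : Function.Bijective (fun z : ↥(Kf C.hF) =>
      (⟨C.u 0 z.1, C.u_zero_mem_center ((mem_Kf C.hF z.1).mp z.2)⟩ : Subgroup.center H)) := by
    constructor
    · intro z z' h
      have h1 := congrArg Subtype.val h
      exact Subtype.ext (C.inj _ _ _ _ (C.rel_z ((mem_Kf C.hF z.1).mp z.2))
        (C.rel_z ((mem_Kf C.hF z'.1).mp z'.2)) h1).2
    · rintro ⟨x, hx⟩
      obtain ⟨z, hz, rfl⟩ := C.center_form x hx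
      exact ⟨⟨z, (mem_Kf C.hF z).mpr hz⟩, rfl⟩
  rw [← Nat.card_congr (Equiv.ofBijective _ hb), card_Kf C.hF C.h2]

/-- involutions are central. -/
theorem invol_form (x : H) (hx1 : x ≠ 1) (hx2 : x * x = 1) :
    ∃ z : F, z ^ q = z ∧ z ≠ 0 ∧ x = C.u 0 z := by
  obtain ⟨a, s, h, rfl⟩ := C.surj x
  rw [C.sq h, ← C.one_eq] at hx2
  have h1 := (C.inj _ _ _ _ (C.rel_z (C.KN a)) (C.rel_z (by rw [zero_pow C.q0])) hx2).2
  have ha : a = 0 := by
    rcases mul_eq_zero.mp h1 with h3 | h3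
    · exact pow_eq_zero_iff C.q0 |>.mp h3
    · exact h3
  subst ha
  refine ⟨s, C.z_of_rel h, ?_, rfl⟩
  rintro rfl
  exact hx1 C.one_eq

theorem rel_scale {l : F} (hl : l ^ q = l) {a s : F} (h : s + s ^ q = a ^ q * a) :
    l * l * s + (l * l * s) ^ q = (l * a) ^ q * (l * a) := by
  rw [mul_pow, mul_pow, mul_pow, hl]
  linear_combination (l * l) * h

theorem aut_pow {l : F} (hl : l ^ q = l) (φ : MulAut H)
    (hφ : ∀ a s, s + s ^ q = a ^ q * a → φ (C.u a s) = C.u (l * a) (l * l * s)) :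
    ∀ (j : ℕ) (a s : F), s + s ^ q = a ^ q * a →
      (φ ^ j) (C.u a s) = C.u (l ^ j * a) (l ^ j * l ^ j * s) := by
  intro j
  induction j with
  | zero =>
    intro a s _
    rw [pow_zero, pow_zero, one_mul, one_mul, one_mul]
    rfl
  | succ j ih =>
    intro a s h
    rw [pow_succ, MulAut.mul_apply, hφ a s h, ih _ _ (C.rel_scale hl h)]
    congr 1
    · ring
    · ring

/-- the Sylow 2-subgroup of `SU₃(2ⁿ)` is a Suzuki 2-group. -/
theorem suzuki (n : ℕ) (hq : q = 2 ^ n) (hn : 2 ≤ n) : Cfsg.IsSuzukiTwoGroup H := by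
  have hfin := C.finite
  have h2 := C.h2
  have hK : Nat.card ↥(Kf C.hF) = q := card_Kf C.hF C.h2
  have hq4 : 4 ≤ q := by
    rw [hq]
    calc 4 = 2 ^ 2 := by norm_num
      _ ≤ 2 ^ n := Nat.pow_le_pow_right (by norm_num) hn
  refine ⟨hfin, IsPGroup.of_card (n := n * 3) (by rw [C.card, hq, ← pow_mul]), ?_, ?_, ?_⟩
  · by_contra hcon
    push Not at hcon
    have hc : C.base 1 ∈ Subgroup.center H := by
      rw [Subgroup.mem_center_iff]
      intro g
      exact hcon g _
    obtain ⟨z, hz, hz2⟩ := C.center_form _ hc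
    have h1 := (C.inj _ _ _ _ (C.rel_base 1) (C.rel_z hz) hz2).1
    exact one_ne_zero h1
  · -- two involutions
    obtain ⟨l, hl0, hl1⟩ : ∃ l : ↥(Kf C.hF), l ≠ 0 ∧ l ≠ 1 := by
      by_contra hcon
      push Not at hcon
      classical
      have hinj : Function.Injective (fun z : ↥(Kf C.hF) => if z = 0 then (0 : Fin 2) else 1) := by
        intro z z' h
        by_cases hz : z = 0
        · by_cases hz' : z' = 0
          · rw [hz, hz']
          · simp [hz, hz'] at h
        · by_cases hz' : z' = 0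
          · simp [hz, hz'] at h
          · rw [hcon z hz, hcon z' hz']
      have hle := Nat.card_le_card_of_injective _ hinj
      rw [hK, Nat.card_fin] at hle
      omega
    have hlq : l.1 ^ q = l.1 := (mem_Kf C.hF l.1).mp l.2
    have h1q : (1 : F) ^ q = 1 := one_pow q
    have hinv : ∀ z : F, z ^ q = z → C.u 0 z * C.u 0 z = 1 := by
      intro z hz
      rw [C.mul _ _ _ _ (C.rel_z hz) (C.rel_z hz), ← C.one_eq]
      congr 1
      · ring
      · rw [zero_pow C.q0]
        linear_combination z * h2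
    have hne : ∀ z : F, z ^ q = z → z ≠ 0 → C.u 0 z ≠ 1 := by
      intro z hz hz0 h
      rw [← C.one_eq] at h
      exact hz0 (C.inj _ _ _ _ (C.rel_z hz) (C.rel_z (by rw [zero_pow C.q0])) h).2
    refine ⟨C.u 0 1, C.u 0 l.1, ?_, hne 1 h1q one_ne_zero, hinv 1 h1q, hne l.1 hlq ?_, hinv l.1 hlq⟩
    · intro h
      have h3 := (C.inj _ _ _ _ (C.rel_z h1q) (C.rel_z hlq) h).2
      exact hl1 (Subtype.ext h3.symm)
    · intro h
      exact hl0 (Subtype.ext h)
  · -- the cyclic group of automorphisms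
    have hfinK : Finite (↥(Kf C.hF))ˣ := inferInstance
    obtain ⟨g, hg⟩ := IsCyclic.exists_generator (α := (↥(Kf C.hF))ˣ)
    obtain ⟨l, hl⟩ : ∃ l : F, l = ((g : ↥(Kf C.hF)) : F) := ⟨_, rfl⟩
    have hlq : l ^ q = l := by
      rw [hl]
      exact (mem_Kf C.hF _).mp (g : ↥(Kf C.hF)).2
    have hl0 : l ≠ 0 := by
      rw [hl]
      intro h
      exact g.ne_zero (Subtype.ext h)
    have hgen : ∀ v : F, v ^ q = v → v ≠ 0 → ∃ j : ℕ, l ^ j = v := by
      intro v hv hv0
      have hv0' : (⟨v, (mem_Kf C.hF v).mpr hv⟩ : ↥(Kf C.hF)) ≠ 0 := by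
        intro h
        exact hv0 (congrArg Subtype.val h)
      obtain ⟨j, hj⟩ := mem_powers_iff_mem_zpowers.mpr (hg (Units.mk0 _ hv0'))
      refine ⟨j, ?_⟩
      have h1 := congrArg (fun u : (↥(Kf C.hF))ˣ => ((u : ↥(Kf C.hF)) : F)) hj
      simp only [Units.val_pow_eq_pow_val, Units.val_mk0, SubmonoidClass.coe_pow] at h1
      rw [hl]
      exact h1
    obtain ⟨φ, hφ'⟩ := C.exists_aut l hl0 (RingEquiv.refl F)
    have hφ : ∀ a s, s + s ^ q = a ^ q * a → φ (C.u a s) = C.u (l * a) (l * l * s) := by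
      intro a s h
      have h1 := hφ' a s h
      rw [hlq] at h1
      exact h1
    have hpow := C.aut_pow hlq φ hφ
    have hfinA : Finite (MulAut H) := inferInstance
    refine ⟨Subgroup.zpowers φ, inferInstance, ?_⟩
    intro x y hx1 hx2 hy1 hy2
    obtain ⟨z, hz, hz0, rfl⟩ := C.invol_form x hx1 hx2
    obtain ⟨z', hz', hz0', rfl⟩ := C.invol_form y hy1 hy2
    -- a square root of z' / z
    obtain ⟨v, hv⟩ := sqrt_ex h2 (z' / z)
    have hvq : v ^ q = v := by
      apply sq_inj h2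
      rw [← mul_pow, hv, div_pow, hz, hz']
    have hv0 : v ≠ 0 := by
      rintro rfl
      rw [mul_zero] at hv
      have h3 : z' = 0 := by
        rcases div_eq_zero_iff.mp hv.symm with h | h
        · exact h
        · exact absurd h hz0
      exact hz0' h3
    obtain ⟨j, hj⟩ := hgen v hvq hv0
    refine ⟨⟨φ ^ j, pow_mem (Subgroup.mem_zpowers φ) j⟩, ?_, ?_⟩
    · show (φ ^ j) (C.u 0 z) = C.u 0 z'
      rw [hpow j _ _ (C.rel_z hz), hj, hv]
      congr 1
      · ring
      · field_simp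
    · rintro ⟨k, hk⟩ hky
      obtain ⟨i, rfl⟩ := mem_powers_iff_mem_zpowers.mpr hk
      apply Subtype.ext
      show φ ^ i = φ ^ j
      have hky' : (φ ^ i) (C.u 0 z) = C.u 0 z' := hky
      rw [hpow i _ _ (C.rel_z hz), mul_zero] at hky'
      have hli : (l ^ i) ^ q = l ^ i := by rw [← pow_mul, mul_comm, pow_mul, hlq]
      have hzz : (l ^ i * l ^ i * z) ^ q = l ^ i * l ^ i * z := by
        rw [mul_pow, mul_pow, hli, hz]
      have h3 := (C.inj _ _ _ _ (C.rel_z hzz) (C.rel_z hz') hky').2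
      have h4 : l ^ i * l ^ i = v * v := by
        rw [hv, ← h3]
        field_simp
      have h5 : l ^ i = l ^ j := by
        rw [hj]
        exact sq_inj h2 h4
      ext h
      obtain ⟨a, s, hr, rfl⟩ := C.surj h
      rw [hpow i _ _ hr, hpow j _ _ hr, h5]

end CoU

end Cfsg.Agent.Lib.Helper3.SuAut2
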