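import Mathlib
import Cfsg.Prelude.Def_LieExceptional
import Cfsg.Prelude.Def_KGroupFacts
import Cfsg.Prelude.Def_Sz
import Cfsg.Agent.Lib.Helper3.Sz15
import Cfsg.Agent.Lib.Helper14.SzLink

set_option autoImplicit false

namespace Cfsg.Agent.Lib.Helper3.Sz16

open Matrix Cfsg.Agent.Lib.Helper3.Sz1 Cfsg.Agent.Lib.Helper3.Sz2 Cfsg.Agent.Lib.Helper3.Sz3
  Cfsg.Agent.Lib.Helper3.Sz4 Cfsg.Agent.Lib.Helper3.Sz5 Cfsg.Agent.Lib.Helper3.Sz6
  Cfsg.Agent.Lib.Helper3.Sz7 Cfsg.Agent.Lib.Helper3.Sz9 Cfsg.Agent.Lib.Helper3.Sz10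
  Cfsg.Agent.Lib.Helper3.Sz11 Cfsg.Agent.Lib.Helper3.Sz13 Cfsg.Agent.Lib.Helper3.Sz14
  Cfsg.Agent.Lib.Helper3.Sz15

variable {F : Type*} [Field F] [Fintype F] {m : ℕ}

/-- every automorphism of the Suzuki group is a field automorphism up to inner automorphisms. -/
theorem aut_decomp (hm : 1 ≤ m) (hF : Fintype.card F = 2 ^ (2 * m + 1))
    (α : MulAut ↥(Cfsg.Sz F m)) :
    ∃ τ : F ≃+* F, ∃ i j : MulAut ↥(Cfsg.Sz F m), i ∈ Cfsg.Inn ↥(Cfsg.Sz F m) ∧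
      j ∈ Cfsg.Inn ↥(Cfsg.Sz F m) ∧ α = i * fieldHom m τ * j := by
  obtain ⟨g, hg⟩ := exists_good hm hF α
  obtain ⟨τ, k1, hG, hZ⟩ := exists_fix_center hm hF _ hg
  have h1 := rigid hm hF _ hG hZ
  refine ⟨τ⁻¹, (MulAut.conj g)⁻¹, (MulAut.conj (DHom hm hF k1))⁻¹,
    Subgroup.inv_mem _ ⟨g, rfl⟩, Subgroup.inv_mem _ ⟨_, rfl⟩, ?_⟩
  rw [map_inv, fieldHom_apply]
  have h2 : α = (MulAut.conj g)⁻¹ * (fieldAut m τ)⁻¹ * (MulAut.conj (DHom hm hF k1))⁻¹ *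
      (MulAut.conj (DHom hm hF k1) * fieldAut m τ * (MulAut.conj g * α)) := by group
  rw [h1, mul_one] at h2
  exact h2

/-- a field automorphism inducing an inner automorphism is trivial. -/
theorem fieldHom_inner (hm : 1 ≤ m) (hF : Fintype.card F = 2 ^ (2 * m + 1)) (τ : F ≃+* F)
    (h : fieldHom m τ ∈ Cfsg.Inn ↥(Cfsg.Sz F m)) : τ = 1 := by
  have hs := hyp_of_card hm hF
  obtain ⟨g, hg⟩ := h
  have hg' : ∀ x, g * x * g⁻¹ = fieldAut m τ x := by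
    intro x
    have h1 := congrArg (fun f : MulAut ↥(Cfsg.Sz F m) => f x) hg
    exact h1
  have h1 : g.1 • Cfsg.suzukiPointInfinity F = Cfsg.suzukiPointInfinity F := by
    apply fix_of_conj hm hF g 1 1 one_ne_zero
    rw [hg', fieldAut_u, map_zero, map_one]
  have h2 : g * ⟨W hs, W_mem hm hF⟩ = ⟨W hs, W_mem hm hF⟩ * g := by
    have h3 := hg' ⟨W hs, W_mem hm hF⟩
    rw [fieldAut_W hm hF τ] at h3
    exact mul_inv_eq_iff_eq_mul.mp h3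
  have h3 : g.1 • Cfsg.suzukiPointZero F = Cfsg.suzukiPointZero F := by
    have e : g.1 * W hs = W hs * g.1 := congrArg Subtype.val h2
    rw [← W_pInf hs, ← mul_smul, e, mul_smul, h1]
  obtain ⟨k0, hk0⟩ := stab_two hm hF g.2 h1 h3
  have hg0 : g = DHom hm hF k0 := Subtype.ext hk0
  have h4 : ∀ k : Fˣ, τ (k : F) = k := by
    intro k
    have h5 := hg' (DHom hm hF k)
    rw [hg0, fieldAut_D, ← map_mul, ← map_inv, ← map_mul, mul_comm k0 k,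
      mul_inv_cancel_right] at h5
    have h6 := DHom_inj hm hF h5
    exact (congrArg (fun z : Fˣ => (z : F)) h6).symm
  apply RingEquiv.ext
  intro x
  by_cases hx : x = 0
  · rw [hx, map_zero]
    rfl
  · exact h4 (Units.mk0 x hx)

theorem out_Sz (hm : 1 ≤ m) (hF : Fintype.card F = 2 ^ (2 * m + 1)) :
    Nat.card (Cfsg.Out ↥(Cfsg.Sz F m)) = 2 * m + 1 := by
  rw [out_card_of_hom (fieldHom m) (fun α => aut_decomp hm hF α)
    (fun τ h => fieldHom_inner hm hF τ h)]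
  exact card_ringAut hF

/-- `S2126`. -/
theorem out_lie (hm : 1 ≤ m) (hF : Fintype.card F = 2 ^ (2 * m + 1)) :
    Nat.card (Cfsg.Out ↥(Cfsg.Lie.Sz F (2 ^ (m + 1)))) = 2 * m + 1 := by
  rw [← out_card_congr (Cfsg.Agent.Lib.Helper14.SzLink.szEquiv hm hF)]
  exact out_Sz hm hF

end Cfsg.Agent.Lib.Helper3.Sz16
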