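import Mathlib
import Cfsg.Prelude.Def_LieExceptional
import Cfsg.Agent.Lib.Helper3.SzR
import Cfsg.Agent.Lib.Helper3.Sz15
import Cfsg.Agent.Lib.Helper3.SzFix3

set_option autoImplicit false
set_option linter.unusedSectionVars false

namespace Cfsg.Agent.Lib.Helper3.SzR3

open Matrix Cfsg.Agent.Lib.Helper3.Sz1 Cfsg.Agent.Lib.Helper3.Sz2 Cfsg.Agent.Lib.Helper3.Sz3
  Cfsg.Agent.Lib.Helper3.Sz4 Cfsg.Agent.Lib.Helper3.Sz5 Cfsg.Agent.Lib.Helper3.Sz6
  Cfsg.Agent.Lib.Helper3.Sz7 Cfsg.Agent.Lib.Helper3.Sz9 Cfsg.Agent.Lib.Helper3.Sz10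
  Cfsg.Agent.Lib.Helper3.Sz11 Cfsg.Agent.Lib.Helper3.Sz15 Cfsg.Agent.Lib.Helper3.SzR

/-- the property requested for `S2861`: for every subgroup `E` of exponent dividing 2 and
order `q`, the only non-trivial subgroup of exponent 2 of `N(E)` that is normal in `N(E)`
is `E`. -/
def R3Prop (G : Type*) [Group G] (q : ℕ) : Prop :=
  ∀ E : Subgroup G, (∀ t, t ∈ E → t * t = 1) → Nat.card E = q →
    ∀ V : Subgroup G, V ≤ Subgroup.normalizer (E : Set G) →
      (∀ n, n ∈ Subgroup.normalizer (E : Set G) → ∀ v, v ∈ V → n * v * n⁻¹ ∈ V) →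
      (∀ v, v ∈ V → v * v = 1) → V ≠ ⊥ → V = E

theorem R3Prop.of_equiv {G G' : Type*} [Group G] [Group G'] (e : G ≃* G') {q : ℕ}
    (hR : R3Prop G q) : R3Prop G' q := by
  intro E' hE2' hEc' V' hVN' hVn' hV2' hV1'
  let E : Subgroup G := E'.comap e.toMonoidHom
  let V : Subgroup G := V'.comap e.toMonoidHom
  have hmem : ∀ t : G, t ∈ E ↔ e t ∈ E' := fun t => Iff.rfl
  have hmemV : ∀ t : G, t ∈ V ↔ e t ∈ V' := fun t => Iff.rfl
  have hE2 : ∀ t, t ∈ E → t * t = 1 := by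
    intro t ht
    apply e.injective
    rw [map_mul, map_one]
    exact hE2' _ ((hmem t).mp ht)
  have hEc : Nat.card E = q := by
    rw [← hEc']
    apply Nat.card_congr
    exact
      { toFun := fun t => ⟨e t.1, (hmem t.1).mp t.2⟩
        invFun := fun t' => ⟨e.symm t'.1, (hmem _).mpr (by rw [e.apply_symm_apply]; exact t'.2)⟩
        left_inv := fun t => Subtype.ext (e.symm_apply_apply _)
        right_inv := fun t' => Subtype.ext (e.apply_symm_apply _) }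
  have hnorm : ∀ x : G, x ∈ Subgroup.normalizer (E : Set G) ↔
      e x ∈ Subgroup.normalizer (E' : Set G') := by
    intro x
    rw [Subgroup.mem_normalizer_iff, Subgroup.mem_normalizer_iff]
    constructor
    · intro h g'
      have h1 := h (e.symm g')
      rw [hmem, hmem, map_mul, map_mul, map_inv, e.apply_symm_apply] at h1
      exact h1
    · intro h g
      have h1 := h (e g)
      rw [hmem, hmem, map_mul, map_mul, map_inv]
      exact h1
  have hVN : V ≤ Subgroup.normalizer (E : Set G) := by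
    intro v hv
    exact (hnorm v).mpr (hVN' ((hmemV v).mp hv))
  have hVn : ∀ n, n ∈ Subgroup.normalizer (E : Set G) → ∀ v, v ∈ V → n * v * n⁻¹ ∈ V := by
    intro n hn v hv
    rw [hmemV, map_mul, map_mul, map_inv]
    exact hVn' _ ((hnorm n).mp hn) _ ((hmemV v).mp hv)
  have hV2 : ∀ v, v ∈ V → v * v = 1 := by
    intro t ht
    apply e.injective
    rw [map_mul, map_one]
    exact hV2' _ ((hmemV t).mp ht)
  have hV1 : V ≠ ⊥ := by
    intro h
    apply hV1'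
    rw [Subgroup.eq_bot_iff_forall]
    intro x' hx'
    have h1 : e.symm x' ∈ V := by
      rw [hmemV, e.apply_symm_apply]
      exact hx'
    rw [h] at h1
    have h2 := Subgroup.mem_bot.mp h1
    have := congrArg e h2
    rw [e.apply_symm_apply, map_one] at this
    exact this
  have hVE := hR E hE2 hEc V hVN hVn hV2 hV1
  ext x'
  have h1 : e.symm x' ∈ V ↔ e.symm x' ∈ E := by rw [hVE]
  rw [hmemV, hmem, e.apply_symm_apply] at h1
  exact h1

variable {F : Type*} [Field F] [Fintype F] {m : ℕ}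

/-- the structure of a subgroup `E` of exponent 2 and order `q`: it is `γ Z(U) γ⁻¹`, and
its normaliser is the stabiliser of the ovoid point `γ∞`. -/
theorem E_struct (hm : 1 ≤ m) (hF : Fintype.card F = 2 ^ (2 * m + 1))
    (E : Subgroup ↥(Cfsg.Sz F m)) (hE2 : ∀ t, t ∈ E → t * t = 1)
    (hEc : Nat.card E = 2 ^ (2 * m + 1)) :
    ∃ γ : ↥(Cfsg.Sz F m), (∀ t, t ∈ E ↔ ∃ b : F, t = γ * u hm hF 0 b * γ⁻¹) ∧
      (∀ y : ↥(Cfsg.Sz F m), y ∈ Subgroup.normalizer (E : Set ↥(Cfsg.Sz F m)) ↔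
        y.1 • (γ.1 • Cfsg.suzukiPointInfinity F) = γ.1 • Cfsg.suzukiPointInfinity F) := by
  classical
  have hs := hyp_of_card hm hF
  have hfin : Finite (Matrix.SpecialLinearGroup (Fin 4) F) := finite_SL
  have hp2 : Fact (Nat.Prime 2) := ⟨Nat.prime_two⟩
  have hpg : IsPGroup 2 E := IsPGroup.of_card hEc
  obtain ⟨P, hP⟩ := hpg.exists_le_sylow
  obtain ⟨γ, hγ⟩ := sylow_conj hm hF P
  -- every element of `E` is `γ u(0,b) γ⁻¹`
  have hE1 : ∀ t ∈ E, ∃ b : F, t = γ * u hm hF 0 b * γ⁻¹ := by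
    intro t ht
    obtain ⟨a, b, hab⟩ := (hγ t).mp (hP ht)
    have h1 : u hm hF a b * u hm hF a b = 1 := by
      rw [← hab]
      calc γ⁻¹ * t * γ * (γ⁻¹ * t * γ) = γ⁻¹ * (t * t) * γ := by group
        _ = 1 := by rw [hE2 t ht]; group
    have ha := a_zero_of_sq hm hF h1
    refine ⟨b, ?_⟩
    rw [← ha, ← hab]
    group
  have hE1' := hE1
  choose! β hβ using hE1
  have hinj : Function.Injective (fun t : E => β t.1) := by
    intro t t' h
    apply Subtype.ext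
    have h' : β t.1 = β t'.1 := h
    rw [hβ t.1 t.2, hβ t'.1 t'.2, h']
  have hbij : Function.Bijective (fun t : E => β t.1) := by
    apply hinj.bijective_of_nat_card_le
    rw [hEc, Nat.card_eq_fintype_card, hF]
  have hE3 : ∀ b : F, γ * u hm hF 0 b * γ⁻¹ ∈ E := by
    intro b
    obtain ⟨t, ht⟩ := hbij.2 b
    have ht' : β t.1 = b := ht
    have h1 := hβ t.1 t.2
    rw [ht'] at h1
    rw [← h1]
    exact t.2
  -- a non-identity element of `E` fixes only `γ∞`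
  have hfixE : ∀ t ∈ E, t ≠ 1 → ∀ p ∈ Cfsg.suzukiOvoid F m, t.1 • p = p →
      p = γ.1 • Cfsg.suzukiPointInfinity F := by
    intro t ht ht1 p hp hfix
    have ht' := hβ t ht
    have hb : ¬ ((0 : F) = 0 ∧ β t = 0) := by
      rintro ⟨_, hb⟩
      apply ht1
      rw [ht', hb, u_zero]
      group
    have hfix' : (γ.1 * T (2 ^ (m + 1)) 0 (β t) * γ.1⁻¹) • p = p := by
      have e : t.1 = γ.1 * T (2 ^ (m + 1)) 0 (β t) * γ.1⁻¹ := by
        conv_lhs => rw [ht']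
        rfl
      rw [← e]
      exact hfix
    rw [mul_smul, mul_smul] at hfix'
    have h1 : T (2 ^ (m + 1)) 0 (β t) • (γ.1⁻¹ • p) = γ.1⁻¹ • p :=
      (smul_eq_iff_eq_inv_smul _).mp hfix'
    have h2 := T_fix hm hF hb (smul_mem_ovoid (inv_mem γ.2) hp) h1
    exact inv_smul_eq_iff.mp h2
  -- elements fixing `γ∞` normalise `E`
  have hnorm1 : ∀ y : ↥(Cfsg.Sz F m),
      y.1 • (γ.1 • Cfsg.suzukiPointInfinity F) = γ.1 • Cfsg.suzukiPointInfinity F →
      ∀ g ∈ E, y * g * y⁻¹ ∈ E := by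
    intro y hy g hg
    have hg' := hβ g hg
    have hn : (γ⁻¹ * y * γ).1 • Cfsg.suzukiPointInfinity F = Cfsg.suzukiPointInfinity F := by
      show (γ.1⁻¹ * y.1 * γ.1) • _ = _
      rw [mul_smul, mul_smul, hy, inv_smul_smul]
    obtain ⟨a', b', h1⟩ := norm_of_fix hm hF (γ⁻¹ * y * γ) hn (u hm hF 0 (β g)) ⟨0, β g, rfl⟩
    have h2 : u hm hF a' b' * u hm hF a' b' = 1 := by
      rw [← h1]
      calc (γ⁻¹ * y * γ) * u hm hF 0 (β g) * (γ⁻¹ * y * γ)⁻¹ *
            ((γ⁻¹ * y * γ) * u hm hF 0 (β g) * (γ⁻¹ * y * γ)⁻¹)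
          = (γ⁻¹ * y * γ) * (u hm hF 0 (β g) * u hm hF 0 (β g)) * (γ⁻¹ * y * γ)⁻¹ := by group
        _ = 1 := by rw [u0_sq]; group
    have ha' := a_zero_of_sq hm hF h2
    have h3 : y * g * y⁻¹ = γ * u hm hF 0 b' * γ⁻¹ := by
      rw [← ha', ← h1]
      conv_lhs => rw [hg']
      group
    rw [h3]
    exact hE3 b'
  have hnorm : ∀ y : ↥(Cfsg.Sz F m),
      y.1 • (γ.1 • Cfsg.suzukiPointInfinity F) = γ.1 • Cfsg.suzukiPointInfinity F →
      y ∈ Subgroup.normalizer (E : Set ↥(Cfsg.Sz F m)) := by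
    intro y hy
    rw [Subgroup.mem_normalizer_iff]
    intro g
    constructor
    · exact hnorm1 y hy g
    · intro hg
      have hy' : (y⁻¹).1 • (γ.1 • Cfsg.suzukiPointInfinity F) =
          γ.1 • Cfsg.suzukiPointInfinity F := by
        show y.1⁻¹ • _ = _
        rw [inv_smul_eq_iff, hy]
      have h1 := hnorm1 y⁻¹ hy' _ hg
      have e : y⁻¹ * (y * g * y⁻¹) * y⁻¹⁻¹ = g := by group
      rw [e] at h1
      exact h1
  -- elements of `N(E)` fix `γ∞`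
  obtain ⟨b1, hb10, _⟩ := exists_ne_zero_one (F := F) hm hF
  obtain ⟨t0, ht0⟩ : ∃ t0, t0 = γ * u hm hF 0 b1 * γ⁻¹ := ⟨_, rfl⟩
  have ht0E : t0 ∈ E := by
    rw [ht0]
    exact hE3 b1
  have ht01 : t0 ≠ 1 := by
    intro h
    have h1 : u hm hF 0 b1 = 1 := by
      have e : u hm hF 0 b1 = γ⁻¹ * t0 * γ := by rw [ht0]; group
      rw [e, h]
      group
    rw [← u_zero hm hF] at h1
    exact hb10 (u_inj hm hF h1).2
  have hfixt0 : t0.1 • (γ.1 • Cfsg.suzukiPointInfinity F) = γ.1 • Cfsg.suzukiPointInfinity F := by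
    rw [ht0]
    show (γ.1 * T (2 ^ (m + 1)) 0 b1 * γ.1⁻¹) • _ = _
    rw [mul_smul, mul_smul, inv_smul_smul, T_pInf]
  have hfixN : ∀ y ∈ Subgroup.normalizer (E : Set ↥(Cfsg.Sz F m)),
      y.1 • (γ.1 • Cfsg.suzukiPointInfinity F) = γ.1 • Cfsg.suzukiPointInfinity F := by
    intro y hy
    have h1 : y * t0 * y⁻¹ ∈ E := (Subgroup.mem_normalizer_iff.mp hy t0).mp ht0E
    have h2 : y * t0 * y⁻¹ ≠ 1 := by
      intro h
      apply ht01
      have e : t0 = y⁻¹ * (y * t0 * y⁻¹) * y := by group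
      rw [e, h]
      group
    have h3 : (y * t0 * y⁻¹).1 • (y.1 • (γ.1 • Cfsg.suzukiPointInfinity F)) =
        y.1 • (γ.1 • Cfsg.suzukiPointInfinity F) := by
      show (y.1 * t0.1 * y.1⁻¹) • _ = _
      rw [mul_smul, mul_smul, inv_smul_smul, hfixt0]
    exact hfixE _ h1 h2 _ (smul_mem_ovoid y.2 (smul_mem_ovoid γ.2 (pInf_mem m))) h3
  refine ⟨γ, ?_, ?_⟩
  · intro t
    constructor
    · exact hE1' t
    · rintro ⟨b, rfl⟩
      exact hE3 b
  · intro y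
    exact ⟨hfixN y, hnorm y⟩

/-- the requested property, in the ovoid model. -/
theorem sz_R3_ovoid (hm : 1 ≤ m) (hF : Fintype.card F = 2 ^ (2 * m + 1)) :
    R3Prop ↥(Cfsg.Sz F m) (2 ^ (2 * m + 1)) := by
  classical
  intro E hE2 hEc V hVN hVn hV2 hV1
  have hs := hyp_of_card hm hF
  obtain ⟨γ, hE, hN⟩ := E_struct hm hF E hE2 hEc
  -- `V ≤ E`
  have hVE : ∀ v, v ∈ V → v ∈ E := by
    intro v hv
    by_cases hv1 : v = 1
    · rw [hv1]
      exact one_mem E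
    obtain ⟨γ', b, hb, hvb⟩ := Cfsg.Agent.Lib.Helper3.SzFix3.inv_conj hm hF v hv1 (hV2 v hv)
    have hfix := (hN v).mp (hVN hv)
    -- `v` fixes only `γ'∞`
    have h1 : T (2 ^ (m + 1)) 0 b • (γ'.1⁻¹ • (γ.1 • Cfsg.suzukiPointInfinity F)) =
        γ'.1⁻¹ • (γ.1 • Cfsg.suzukiPointInfinity F) := by
      have e : v.1 = γ'.1 * T (2 ^ (m + 1)) 0 b * γ'.1⁻¹ := by
        conv_lhs => rw [hvb]
        rfl
      rw [e, mul_smul, mul_smul] at hfix
      exact (smul_eq_iff_eq_inv_smul _).mp hfix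
    have hb' : ¬ ((0 : F) = 0 ∧ b = 0) := fun h => hb h.2
    have h2 := T_fix hm hF hb' (smul_mem_ovoid (inv_mem γ'.2)
      (smul_mem_ovoid γ.2 (pInf_mem m))) h1
    have hn : (γ⁻¹ * γ').1 • Cfsg.suzukiPointInfinity F = Cfsg.suzukiPointInfinity F := by
      show (γ.1⁻¹ * γ'.1) • _ = _
      rw [mul_smul, inv_smul_eq_iff]
      exact (inv_smul_eq_iff.mp h2).symm
    obtain ⟨a', b', h3⟩ := norm_of_fix hm hF (γ⁻¹ * γ') hn (u hm hF 0 b) ⟨0, b, rfl⟩
    have h4 : u hm hF a' b' * u hm hF a' b' = 1 := by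
      rw [← h3]
      calc (γ⁻¹ * γ') * u hm hF 0 b * (γ⁻¹ * γ')⁻¹ *
            ((γ⁻¹ * γ') * u hm hF 0 b * (γ⁻¹ * γ')⁻¹)
          = (γ⁻¹ * γ') * (u hm hF 0 b * u hm hF 0 b) * (γ⁻¹ * γ')⁻¹ := by group
        _ = 1 := by rw [u0_sq]; group
    have ha' := a_zero_of_sq hm hF h4
    rw [hE]
    refine ⟨b', ?_⟩
    rw [← ha', ← h3, hvb]
    group
  -- `E ≤ V`
  have hne : ∃ v, v ∈ V ∧ v ≠ 1 := by
    by_contra hcon
    push Not at hcon
    apply hV1
    rw [Subgroup.eq_bot_iff_forall]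
    exact hcon
  obtain ⟨v0, hv0, hv01⟩ := hne
  obtain ⟨b0, hb0⟩ := (hE v0).mp (hVE v0 hv0)
  have hb00 : b0 ≠ 0 := by
    intro h
    apply hv01
    rw [hb0, h, u_zero]
    group
  have hEV : ∀ t, t ∈ E → t ∈ V := by
    intro t ht
    obtain ⟨c, hc⟩ := (hE t).mp ht
    by_cases hc0 : c = 0
    · rw [hc, hc0, u_zero]
      have e : γ * (1 : ↥(Cfsg.Sz F m)) * γ⁻¹ = 1 := by group
      rw [e]
      exact one_mem V
    obtain ⟨k, hk⟩ := pow_s2_surj hm hF (c / b0) (div_ne_zero hc0 hb00)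
    have hnN : γ * DHom hm hF k * γ⁻¹ ∈ Subgroup.normalizer (E : Set ↥(Cfsg.Sz F m)) := by
      rw [hN]
      show (γ.1 * D (2 ^ (m + 1)) k * γ.1⁻¹) • _ = _
      rw [mul_smul, mul_smul, inv_smul_smul, D_pInf]
    have h1 := hVn _ hnN v0 hv0
    have e : γ * DHom hm hF k * γ⁻¹ * v0 * (γ * DHom hm hF k * γ⁻¹)⁻¹ = t := by
      rw [hc, hb0]
      calc γ * DHom hm hF k * γ⁻¹ * (γ * u hm hF 0 b0 * γ⁻¹) * (γ * DHom hm hF k * γ⁻¹)⁻¹
          = γ * (DHom hm hF k * u hm hF 0 b0 * (DHom hm hF k)⁻¹) * γ⁻¹ := by group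
        _ = γ * u hm hF 0 c * γ⁻¹ := by
            rw [D_u, hk, mul_zero, div_mul_cancel₀ c hb00]
    rw [e] at h1
    exact h1
  ext x
  exact ⟨hVE x, hEV x⟩

/-- the requested property for the Lie-type model of the Suzuki group. -/
theorem sz_R3 (hm : 1 ≤ m) (hF : Fintype.card F = 2 ^ (2 * m + 1))
    (E : Subgroup (Cfsg.Lie.Sz F (2 ^ (m + 1)))) (hE2 : ∀ t, t ∈ E → t * t = 1)
    (hEc : Nat.card E = 2 ^ (2 * m + 1))
    (V : Subgroup (Cfsg.Lie.Sz F (2 ^ (m + 1))))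
    (hVN : V ≤ Subgroup.normalizer (E : Set _))
    (hVn : ∀ n, n ∈ Subgroup.normalizer (E : Set _) → ∀ v, v ∈ V → n * v * n⁻¹ ∈ V)
    (hV2 : ∀ v, v ∈ V → v * v = 1) (hV1 : V ≠ ⊥) : V = E :=
  (sz_R3_ovoid hm hF).of_equiv (Cfsg.Agent.Lib.Helper14.SzLink.szEquiv hm hF) E hE2 hEc V
    hVN hVn hV2 hV1

end Cfsg.Agent.Lib.Helper3.SzR3
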